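import Cfsg.Agent.Lib.H13.SylowN
import Cfsg.Agent.Lib.H13.Replace
import Cfsg.Agent.Lib.H54.Basic
import Cfsg.Agent.Lib.H52.Syl

set_option autoImplicit false

/-!
Elementary abelian subgroups of largest order of a subgroup, ambient form.
-/

namespace H54.MaxEA

open Subgroup
open scoped commutatorElement

universe u v

variable {G : Type u} [Group G] {H : Type v} [Group H]

/-- elementary abelian 2-subgroups of `S` of largest order -/
def MaxEA (S : Subgroup G) : Set (Subgroup G) :=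
  {A | A ≤ S ∧ Cfsg.IsElementaryAbelian 2 A ∧
    ∀ B ≤ S, Cfsg.IsElementaryAbelian 2 B → Nat.card B ≤ Nat.card A}

theorem mem_iff {S A : Subgroup G} : A ∈ MaxEA S ↔
    A ≤ S ∧ A.subgroupOf S ∈ Cfsg.maxElementaryAbelianSubgroups 2 S := by
  constructor
  · rintro ⟨h1, h2, h3⟩
    refine ⟨h1, H13.ElemAb.subgroupOf h2 S, ?_⟩
    intro B hB
    have := h3 (B.map S.subtype) (map_subtype_le _) (H13.ElemAb.map hB _)
    rwa [H13.Thompson.card_map_of_injective S.subtype_injective,
      ← map_subgroupOf_eq_of_le h1,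
      H13.Thompson.card_map_of_injective S.subtype_injective] at this
  · rintro ⟨h1, h2, h3⟩
    refine ⟨h1, ?_, ?_⟩
    · rw [← map_subgroupOf_eq_of_le h1]
      exact H13.ElemAb.map h2 _
    · intro B hBS hB
      have := h3 (B.subgroupOf S) (H13.ElemAb.subgroupOf hB S)
      rw [← map_subgroupOf_eq_of_le hBS, ← map_subgroupOf_eq_of_le h1,
        H13.Thompson.card_map_of_injective S.subtype_injective,
        H13.Thompson.card_map_of_injective S.subtype_injective]
      exact this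

theorem map_mem {S : Subgroup G} {A : Subgroup S}
    (hA : A ∈ Cfsg.maxElementaryAbelianSubgroups 2 S) : A.map S.subtype ∈ MaxEA S := by
  rw [mem_iff]
  refine ⟨map_subtype_le _, ?_⟩
  rwa [subgroupOf, comap_map_eq_self_of_injective S.subtype_injective]

theorem thompsonOf_eq (S : Subgroup G) :
    Cfsg.thompsonSubgroupOf 2 S = sSup (MaxEA S) := by
  apply le_antisymm
  · rw [Cfsg.thompsonSubgroupOf, Cfsg.thompsonSubgroup, sSup_eq_iSup, Subgroup.map_iSup]
    refine iSup_le fun A => ?_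
    rw [Subgroup.map_iSup]
    exact iSup_le fun hA => le_sSup (map_mem hA)
  · refine sSup_le fun A hA => ?_
    have h1 := mem_iff.mp hA
    rw [← map_subgroupOf_eq_of_le h1.1]
    exact Subgroup.map_mono (H13.Thompson.le_thompson h1.2)

theorem le_thompsonOf {S A : Subgroup G} (hA : A ∈ MaxEA S) : A ≤ Cfsg.thompsonSubgroupOf 2 S := by
  rw [thompsonOf_eq]; exact le_sSup hA

theorem exists_mem [Finite G] (S : Subgroup G) : ∃ A, A ∈ MaxEA S := by
  obtain ⟨A, hA⟩ := H13.Thompson.exists_mem_max (G := S) 2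
  exact ⟨_, map_mem hA⟩

/-- offender inequality -/
theorem val_le [Finite G] {S A V : Subgroup G} (hA : A ∈ MaxEA S) (hV : Cfsg.IsElementaryAbelian 2 V)
    (hVS : V ≤ S) (B : Subgroup G) (hB : B ≤ A) : H13.Replace.val V B ≤ H13.Replace.val V A := by
  have hBe : Cfsg.IsElementaryAbelian 2 B := H13.ElemAb.of_le hA.2.1 hB
  have hCe : Cfsg.IsElementaryAbelian 2 (V ⊓ centralizer (B : Set G)) :=
    H13.ElemAb.of_le hV inf_le_left
  have hBC : B ≤ centralizer ((V ⊓ centralizer (B : Set G) : Subgroup G) : Set G) := by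
    rw [le_centralizer_iff]; exact inf_le_right
  have h1 := H13.ElemAb.sup hBe hCe hBC
  have h2 := hA.2.2 (B ⊔ (V ⊓ centralizer (B : Set G)))
    (sup_le (hB.trans hA.1) (inf_le_left.trans hVS)) h1
  have h3 := H13.Thompson.card_sup_mul_card_inf (A := B) (B := V ⊓ centralizer (B : Set G))
    (hBC.trans (H52.Syl.centralizer_le_normalizer _))
  have h4 : B ⊓ (V ⊓ centralizer (B : Set G)) ≤ V ⊓ centralizer (A : Set G) := by
    refine le_inf (inf_le_right.trans inf_le_left) ?_
    exact inf_le_left.trans (hB.trans (H13.ElemAb.le_centralizer hA.2.1))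
  have h5 := card_le_of_le h4
  unfold H13.Replace.val
  calc Nat.card B * Nat.card ↥(V ⊓ centralizer (B : Set G)) =
      Nat.card ↥(B ⊔ V ⊓ centralizer (B : Set G)) * Nat.card ↥(B ⊓ (V ⊓ centralizer (B : Set G))) :=
        h3.symm
    _ ≤ Nat.card A * Nat.card ↥(V ⊓ centralizer (A : Set G)) := Nat.mul_le_mul h2 h5

theorem map_injective_mem {f : G →* H} (hf : Function.Injective f) {S A : Subgroup G} :
    A.map f ∈ MaxEA (S.map f) ↔ A ∈ MaxEA S := by
  constructor
  · rintro ⟨h1, h2, h3⟩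
    refine ⟨(map_le_map_iff_of_injective hf).mp h1, (H13.ElemAb.map_iff hf).mp h2, ?_⟩
    intro B hBS hB
    have := h3 (B.map f) (Subgroup.map_mono hBS) (H13.ElemAb.map hB f)
    rwa [Subgroup.card_map_of_injective hf, Subgroup.card_map_of_injective hf] at this
  · rintro ⟨h1, h2, h3⟩
    refine ⟨Subgroup.map_mono h1, H13.ElemAb.map h2 f, ?_⟩
    intro B hBS hB
    have hBe : (B.comap f).map f = B := by
      rw [map_comap_eq, inf_eq_right]
      intro x hx
      obtain ⟨y, _, rfl⟩ := hBS hx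
      exact ⟨y, rfl⟩
    rw [← hBe, Subgroup.card_map_of_injective hf, Subgroup.card_map_of_injective hf]
    apply h3 _ _ (H13.ElemAb.comap hB hf)
    rw [← map_le_map_iff_of_injective hf, hBe]
    exact hBS

/-- if `A ∈ MaxEA S` lies in `T ≤ S` then it is in `MaxEA T` -/
theorem of_le {S T A : Subgroup G} (hA : A ∈ MaxEA S) (hT : T ≤ S) (hAT : A ≤ T) : A ∈ MaxEA T :=
  ⟨hAT, hA.2.1, fun B hB hBe => hA.2.2 B (hB.trans hT) hBe⟩

theorem mem_of_card_le {S A B : Subgroup G} (hA : A ∈ MaxEA S) (hBS : B ≤ S)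
    (hB : Cfsg.IsElementaryAbelian 2 B) (h : Nat.card A ≤ Nat.card B) : B ∈ MaxEA S :=
  ⟨hBS, hB, fun C hC hCe => (hA.2.2 C hC hCe).trans h⟩

theorem mem_of_centralizes [Finite G] {S A : Subgroup G} (hA : A ∈ MaxEA S) {x : G} (hxS : x ∈ S)
    (hx : x ∈ centralizer (A : Set G)) (hx2 : x ^ 2 = 1) : x ∈ A := by
  have h1 : Cfsg.IsElementaryAbelian 2 (A ⊔ zpowers x) := by
    apply H13.ElemAb.sup hA.2.1 (H13.ElemAb.zpowers hx2)
    rw [le_centralizer_iff, zpowers_le]; exact hx
  have h2 := hA.2.2 _ (sup_le hA.1 (by rwa [zpowers_le])) h1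
  have h3 : A = A ⊔ zpowers x := eq_of_le_of_card_ge le_sup_left h2
  rw [h3]; exact mem_sup_right (mem_zpowers x)

theorem thompsonOf_eq_of_le [Finite G] {S T : Subgroup G} (hTS : T ≤ S)
    (h : Cfsg.thompsonSubgroupOf 2 S ≤ T) :
    Cfsg.thompsonSubgroupOf 2 T = Cfsg.thompsonSubgroupOf 2 S :=
  H13.SylowN.thompsonOf_eq_of_le_of_le hTS h

end H54.MaxEA
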