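import Cfsg.Agent.Lib.H54.KP
import Cfsg.Agent.Lib.H13.Omega

set_option autoImplicit false
set_option linter.dupNamespace false
set_option linter.unusedSectionVars false

/-!
`Ω₁(Z(X))`, `W_K`, and `|W_K| = 4`.
-/

namespace H54.WOf

open Subgroup H54.PreComp H52.PRes H52.PCore H52.Syl H54.MaxEA H54.KP
open scoped commutatorElement

universe u v

variable {G : Type u} [Group G] {H : Type v} [Group H]

local notation "O₂" => Cfsg.pCoreOf 2
local notation "ΩZ" => Cfsg.omegaCenterOf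
local notation "wOf" => Cfsg.wOf

theorem centralizer_zpowers' (x : G) :
    centralizer ((zpowers x : Subgroup G) : Set G) = centralizer ({x} : Set G) := by
  rw [zpowers_eq_closure, centralizer_closure]

theorem omega_le (X : Subgroup G) : ΩZ X ≤ X := H13.Omega.omegaZ_le X
theorem omega_le_centralizer (X : Subgroup G) : ΩZ X ≤ centralizer (X : Set G) :=
  H13.Omega.omegaZ_le_centralizer X
theorem le_centralizer_omega (X : Subgroup G) : X ≤ centralizer ((ΩZ X : Subgroup G) : Set G) :=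
  H13.Omega.le_centralizer_omegaZ X
theorem isEA_omega (X : Subgroup G) : Cfsg.IsElementaryAbelian 2 (ΩZ X) :=
  H13.Omega.isElementaryAbelian_omegaZ X

theorem inf_centralizer_comm (X : Subgroup G) :
    X ⊓ centralizer (X : Set G) ≤ centralizer ((X ⊓ centralizer (X : Set G) : Subgroup G) : Set G) :=
  inf_le_right.trans (centralizer_le inf_le_left)

theorem mem_omega {X : Subgroup G} {x : G} :
    x ∈ ΩZ X ↔ x ∈ X ∧ x ∈ centralizer (X : Set G) ∧ x ^ 2 = 1 := by
  unfold Cfsg.omegaCenterOf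
  rw [H13.Omega.mem_omegaOne (inf_centralizer_comm X), Subgroup.mem_inf, and_assoc]

theorem omega_map {f : G →* H} (hf : Function.Injective f) (X : Subgroup G) :
    ΩZ (X.map f) = (ΩZ X).map f := by
  ext y
  rw [mem_omega]
  constructor
  · rintro ⟨⟨x, hx, rfl⟩, hc, h2⟩
    refine ⟨x, ?_, rfl⟩
    rw [SetLike.mem_coe, mem_omega]
    refine ⟨hx, ?_, ?_⟩
    · rw [mem_centralizer_iff] at hc ⊢
      intro z hz
      apply hf
      rw [map_mul, map_mul]
      exact hc _ (mem_map_of_mem f hz)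
    · apply hf; rw [map_pow, h2, map_one]
  · rintro ⟨x, hx, rfl⟩
    rw [SetLike.mem_coe, mem_omega] at hx
    obtain ⟨hx1, hc, h2⟩ := hx
    refine ⟨mem_map_of_mem f hx1, ?_, ?_⟩
    · rw [mem_centralizer_iff] at hc ⊢
      rintro _ ⟨z, hz, rfl⟩
      rw [← map_mul, ← map_mul, hc z hz]
    · rw [← map_pow, h2, map_one]

theorem wOf_map {f : G →* H} (hf : Function.Injective f) (K : Subgroup G) :
    wOf (K.map f) = (wOf K).map f := by
  unfold Cfsg.wOf
  rw [pCoreOf_map hf, omega_map hf, map_commutator]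

theorem omega_map_conj (g : G) (X : Subgroup G) :
    ΩZ (X.map (MulAut.conj g).toMonoidHom) = (ΩZ X).map (MulAut.conj g).toMonoidHom :=
  omega_map (MulAut.conj g).injective X

theorem wOf_map_conj (g : G) (K : Subgroup G) :
    wOf (K.map (MulAut.conj g).toMonoidHom) = (wOf K).map (MulAut.conj g).toMonoidHom :=
  wOf_map (MulAut.conj g).injective K

theorem normalizer_le_normalizer_omega (X : Subgroup G) :
    normalizer (X : Set G) ≤ normalizer ((ΩZ X : Subgroup G) : Set G) := by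
  intro g hg
  rw [← H54.Basic.map_conj_eq_iff] at hg ⊢
  rw [← omega_map_conj, hg]

theorem normalizer_le_normalizer_wOf (K : Subgroup G) :
    normalizer (K : Set G) ≤ normalizer ((wOf K : Subgroup G) : Set G) := by
  intro g hg
  rw [← H54.Basic.map_conj_eq_iff] at hg ⊢
  rw [← wOf_map_conj, hg]

section basic

variable {K : Subgroup G}

theorem K_le_norm_omega (K : Subgroup G) : K ≤ normalizer ((ΩZ (O₂ K) : Subgroup G) : Set G) :=
  (Subgroup.le_normalizer.trans (normalizer_le_normalizer_pCoreOf K)).trans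
    (normalizer_le_normalizer_omega _)

theorem isPGroup_omega (X : Subgroup G) : IsPGroup 2 (ΩZ X) :=
  H13.ElemAb.isPGroup (isEA_omega X)

theorem wOf_le_omega (K : Subgroup G) : wOf K ≤ ΩZ (O₂ K) :=
  H1.Coprime2.commutator_le_left (K_le_norm_omega K)

theorem wOf_le (K : Subgroup G) : wOf K ≤ O₂ K := (wOf_le_omega K).trans (omega_le _)

theorem isEA_wOf (K : Subgroup G) : Cfsg.IsElementaryAbelian 2 (wOf K) :=
  H13.ElemAb.of_le (isEA_omega _) (wOf_le_omega K)

theorem K_le_norm (K : Subgroup G) : K ≤ normalizer ((wOf K : Subgroup G) : Set G) :=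
  Subgroup.le_normalizer.trans (normalizer_le_normalizer_wOf K)

theorem core_le_centralizer (K : Subgroup G) : O₂ K ≤ centralizer ((wOf K : Subgroup G) : Set G) :=
  (le_centralizer_omega (O₂ K)).trans (centralizer_le (wOf_le_omega K))

variable [Finite G]

theorem wOf_inf (h : KP K) : wOf K ⊓ centralizer (K : Set G) = ⊥ :=
  h.comm_inf (K_le_norm_omega K) (isPGroup_omega _) (H13.ElemAb.le_centralizer (isEA_omega _))
    (le_centralizer_omega _)

theorem comm_wOf (h : KP K) : ⁅wOf K, K⁆ = wOf K :=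
  h.comm_comm (K_le_norm_omega K) (isPGroup_omega _) (le_centralizer_omega _)

theorem not_le_centralizer_wOf (h : KP K) (hW : wOf K ≠ ⊥) :
    ¬ K ≤ centralizer ((wOf K : Subgroup G) : Set G) := by
  intro hcon
  apply hW
  rw [← comm_wOf h, commutator_comm, commutator_eq_bot_iff_le_centralizer]
  exact hcon

/-- a `K`-invariant subgroup of a four-group on which `K` acts without fixed points. -/
theorem irred (h : KP K) {W X : Subgroup G} (hPW : O₂ K ≤ centralizer (W : Set G))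
    (hfix : W ⊓ centralizer (K : Set G) = ⊥) (h4 : Nat.card W = 4) (hX : X ≤ W)
    (hKX : K ≤ normalizer (X : Set G)) (hXb : X ≠ ⊥) : X = W := by
  have h1 := h.card_mod hKX (hPW.trans (centralizer_le hX))
    (by rw [eq_bot_iff, ← hfix]; exact inf_le_inf_right _ hX)
  have h2 := card_dvd_of_le hX
  rw [h4] at h2
  have h3 : Nat.card X ∈ Nat.divisors 4 := by simp [h2]
  have h5 : Nat.divisors 4 = {1, 2, 4} := by decide
  rw [h5] at h3
  simp only [Finset.mem_insert, Finset.mem_singleton] at h3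
  rcases h3 with h3 | h3 | h3
  · exact absurd (card_eq_one.mp h3) hXb
  · rw [h3] at h1; exact absurd h1 (by decide)
  · exact eq_of_le_of_card_ge hX (by omega)

/-- 2-groups acting: a noncentral element modulo a subgroup. -/
theorem exists_comm_mem {A W W₀ : Subgroup G} {p : ℕ} [Fact p.Prime] (hA : IsPGroup p A)
    (hW : IsPGroup p W) (hAW : A ≤ normalizer (W : Set G)) (hne : ¬ W ≤ W₀) :
    ∃ w ∈ W, w ∉ W₀ ∧ ∀ a ∈ A, ⁅w, a⁆ ∈ W₀ := by
  classical
  -- minimal A-invariant Y ≤ W not in W₀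
  have hex : ∃ n, ∃ Y : Subgroup G, Nat.card Y = n ∧ A ≤ normalizer (Y : Set G) ∧ Y ≤ W ∧ ¬ Y ≤ W₀ :=
    ⟨_, W, rfl, hAW, le_rfl, hne⟩
  obtain ⟨Y, hYc, hAY, hYW, hYn⟩ := Nat.find_spec hex
  have hmin := fun m hm => Nat.find_min hex (m := m) hm
  have hYb : Y ≠ ⊥ := by rintro rfl; exact hYn bot_le
  have h1 := H1.Coprime2.commutator_lt_of_isPGroup hA (hW.to_le hYW) hAY hYb
  have h2 : ⁅Y, A⁆ ≤ W₀ := by
    by_contra hcon
    apply hmin (Nat.card ↥⁅Y, A⁆) _ ⟨⁅Y, A⁆, rfl, H1.Coprime2.le_normalizer_commutator_right _ _,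
      h1.le.trans hYW, hcon⟩
    rw [← hYc]
    apply lt_of_le_of_ne (card_le_of_le h1.le)
    intro h3
    exact h1.ne (eq_of_le_of_card_ge h1.le h3.ge)
  obtain ⟨w, hwY, hw⟩ := Set.not_subset.mp hYn
  exact ⟨w, hYW hwY, hw, fun a ha => h2 (commutator_mem_commutator hwY ha)⟩

theorem fix_ne_bot {A W : Subgroup G} {p : ℕ} [Fact p.Prime] (hA : IsPGroup p A)
    (hW : IsPGroup p W) (hAW : A ≤ normalizer (W : Set G)) (hne : W ≠ ⊥) :
    W ⊓ centralizer (A : Set G) ≠ ⊥ := by
  obtain ⟨w, hw, hw1, hc⟩ := exists_comm_mem hA hW hAW (W₀ := ⊥) (by rwa [le_bot_iff])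
  intro hcon
  apply hw1
  rw [← hcon]
  refine Subgroup.mem_inf.mpr ⟨hw, ?_⟩
  rw [mem_centralizer_iff]
  intro a ha
  have := hc a ha
  rw [mem_bot, commutatorElement_eq_one_iff_mul_comm] at this
  exact this.symm

theorem relIndex_inf_centralizer_le {B X : Subgroup G} {w : G} (hX : ∀ b ∈ B, ⁅w, b⁆ ∈ X) :
    (B ⊓ centralizer ({w} : Set G)).relIndex B ≤ Nat.card X := by
  classical
  let f : ↥B ⧸ (B ⊓ centralizer ({w} : Set G)).subgroupOf B → X :=
    Quotient.lift (fun b : B => (⟨⁅w, (b : G)⁆, hX b b.2⟩ : X)) (by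
      intro a b hab
      apply Subtype.ext
      have h1 : a⁻¹ * b ∈ (B ⊓ centralizer ({w} : Set G)).subgroupOf B :=
        QuotientGroup.leftRel_apply.mp hab
      rw [mem_subgroupOf] at h1
      have h2 := mem_centralizer_singleton_iff.mp (Subgroup.mem_inf.mp h1).2
      push_cast at h2
      change w * (a : G) * w⁻¹ * (a : G)⁻¹ = w * (b : G) * w⁻¹ * (b : G)⁻¹
      have h3 : (a : G) * w⁻¹ * (a : G)⁻¹ = (b : G) * w⁻¹ * (b : G)⁻¹ := by
        have h4 : ((a : G)⁻¹ * b) * w⁻¹ = w⁻¹ * ((a : G)⁻¹ * b) := by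
          have c : Commute ((a : G)⁻¹ * b) w := h2
          exact c.inv_right
        calc (a : G) * w⁻¹ * (a : G)⁻¹ = a * (w⁻¹ * ((a : G)⁻¹ * b)) * (b : G)⁻¹ := by group
          _ = a * (((a : G)⁻¹ * b) * w⁻¹) * (b : G)⁻¹ := by rw [h4]
          _ = _ := by group
      calc w * (a : G) * w⁻¹ * (a : G)⁻¹ = w * ((a : G) * w⁻¹ * (a : G)⁻¹) := by group
        _ = w * ((b : G) * w⁻¹ * (b : G)⁻¹) := by rw [h3]
        _ = _ := by group)
  have hf : Function.Injective f := by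
    intro x y
    induction x using QuotientGroup.induction_on with
    | H a =>
    induction y using QuotientGroup.induction_on with
    | H b =>
    intro hxy
    have h1 : w * (a : G) * w⁻¹ * (a : G)⁻¹ = w * (b : G) * w⁻¹ * (b : G)⁻¹ :=
      congrArg Subtype.val hxy
    rw [QuotientGroup.eq, mem_subgroupOf]
    refine Subgroup.mem_inf.mpr ⟨(a⁻¹ * b).2, ?_⟩
    rw [mem_centralizer_singleton_iff]
    push_cast
    have h3 : (a : G) * w⁻¹ * (a : G)⁻¹ = (b : G) * w⁻¹ * (b : G)⁻¹ := by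
      have : w * ((a : G) * w⁻¹ * (a : G)⁻¹) = w * ((b : G) * w⁻¹ * (b : G)⁻¹) := by
        simpa [mul_assoc] using h1
      exact mul_left_cancel this
    have h4 : ((a : G)⁻¹ * b) * w⁻¹ = w⁻¹ * ((a : G)⁻¹ * b) := by
      calc ((a : G)⁻¹ * b) * w⁻¹ = (a : G)⁻¹ * ((b : G) * w⁻¹ * (b : G)⁻¹) * b := by group
        _ = (a : G)⁻¹ * ((a : G) * w⁻¹ * (a : G)⁻¹) * b := by rw [h3]
        _ = _ := by group
    have c : Commute ((a : G)⁻¹ * b) w⁻¹ := h4
    have c2 := c.inv_right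
    rw [inv_inv] at c2
    exact c2
  exact Nat.card_le_card_of_injective f hf

/-- some `A ∈ 𝒜(S)` acts nontrivially on `K/O_2(K)` -/
theorem exists_A {S J : Subgroup G} (hJ : J = Cfsg.thompsonSubgroupOf 2 S) (hK : PreComp J K) :
    ∃ A ∈ MaxEA S, A ≤ normalizer (K : Set G) ∧ ¬ A ≤ H13.Quad.actTriv K (O₂ K) := by
  by_contra hcon
  push Not at hcon
  have h1 : J ≤ H13.Quad.actTriv K (O₂ K) := by
    rw [hJ, thompsonOf_eq]
    refine sSup_le fun A hA => ?_
    have h2 : A ≤ J := by rw [hJ]; exact le_thompsonOf hA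
    exact hcon A hA (h2.trans hK.le_normalizer)
  apply hK.card_ne
  apply (isPGroup_pCoreOf K).to_le
  calc K = ⁅K, J⁆ := hK.comm.symm
    _ ≤ ⁅K, H13.Quad.actTriv K (O₂ K)⁆ := commutator_mono le_rfl h1
    _ ≤ _ := H13.Quad.commutator_actTriv_le _ _

/-- data about `C_W(A)`, `C_W(B)` -/
theorem fix_data (h : KP K) {S A : Subgroup G} (hS : IsPGroup 2 S) (hA : A ∈ MaxEA S)
    (hAK : A ≤ normalizer (K : Set G)) (hAt : ¬ A ≤ H13.Quad.actTriv K (O₂ K))
    (hPS : O₂ K ≤ S) (hW : wOf K ≠ ⊥) :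
    Nat.card ↥(wOf K ⊓ centralizer (A : Set G)) = 2 ∧
    Nat.card ↥(wOf K ⊓ centralizer ((A ⊓ H13.Quad.actTriv K (O₂ K) : Subgroup G) : Set G)) = 4 ∧
    Nat.card A = Nat.card ↥(A ⊓ H13.Quad.actTriv K (O₂ K)) * 2 := by
  set W := wOf K with hWdef
  set B := A ⊓ H13.Quad.actTriv K (O₂ K) with hB
  have hBi : B.relIndex A = 2 := h.relIndex_actTriv hAK hAt
  have hcardA := H13.Replace.card_eq_mul_relIndex (inf_le_left : B ≤ A)
  rw [hBi] at hcardA
  obtain ⟨x, hxA, hx⟩ := Set.not_subset.mp hAt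
  have hxK := hAK hxA
  have hBx : B ⊔ zpowers x = A := by
    rcases Ord3.eq_or_eq_of_relIndex_prime Nat.prime_two (le_sup_left : B ≤ B ⊔ zpowers x)
      (sup_le inf_le_left (by rwa [zpowers_le])) hBi with h1 | h1
    · exfalso
      apply hx
      have : x ∈ B := by rw [← h1]; exact mem_sup_right (mem_zpowers x)
      exact (Subgroup.mem_inf.mp this).2
    · exact h1
  have hWe := isEA_wOf K
  rw [← hWdef] at hWe
  have hAW : A ≤ normalizer (W : Set G) := hAK.trans (normalizer_le_normalizer_wOf K)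
  have hPW : O₂ K ≤ centralizer (W : Set G) := core_le_centralizer K
  have hKW : K ≤ normalizer (W : Set G) := K_le_norm K
  have hfix : W ⊓ centralizer (K : Set G) = ⊥ := wOf_inf h
  set W₀ := W ⊓ centralizer (B : Set G) with hW₀
  have hKW₀ : K ≤ normalizer (W₀ : Set G) := KP.le_normalizer_fix hKW hPW inf_le_right
    (inf_le_left.trans hAW)
  have hW₀W : W₀ ≤ W := inf_le_left
  have hW2 : IsPGroup 2 W := H13.ElemAb.isPGroup hWe
  have hfixA : W ⊓ centralizer (A : Set G) = W₀ ⊓ centralizer ({x} : Set G) := by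
    rw [← hBx, H13.Replace.centralizer_sup, hW₀, inf_assoc, centralizer_zpowers']
  have hW₀fix : W₀ ⊓ centralizer (K : Set G) = ⊥ := by
    rw [eq_bot_iff, ← hfix]; exact inf_le_inf_right _ hW₀W
  have h1 := h.card_fix_sq hKW₀ (hPW.trans (centralizer_le hW₀W))
    ((hW₀W.trans (H13.ElemAb.le_centralizer hWe)).trans (centralizer_le hW₀W)) hW₀fix hxK hx
  rw [← hfixA] at h1
  have hval := val_le hA hWe ((wOf_le K).trans hPS) B inf_le_left
  unfold H13.Replace.val at hval
  rw [hcardA, ← hW₀] at hval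
  have hBpos : 0 < Nat.card B := Nat.card_pos
  have hval' : Nat.card W₀ ≤ 2 * Nat.card ↥(W ⊓ centralizer (A : Set G)) := by
    apply Nat.le_of_mul_le_mul_left _ hBpos
    calc Nat.card B * Nat.card W₀ ≤ Nat.card B * 2 * Nat.card ↥(W ⊓ centralizer (A : Set G)) := hval
      _ = _ := by ring
  set c := Nat.card ↥(W ⊓ centralizer (A : Set G)) with hc
  have hc2 : c ≤ 2 := by
    by_contra hcon
    push Not at hcon
    have : 3 * c ≤ c * c := Nat.mul_le_mul_right c hcon
    omega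
  have hmod := h.card_mod hKW₀ (hPW.trans (centralizer_le hW₀W)) hW₀fix
  have hW₀ne : W₀ ≠ ⊥ := fix_ne_bot ((hS.to_le hA.1).to_le inf_le_left) hW2
    (inf_le_left.trans hAW) hW
  have hW₀card : Nat.card W₀ = 4 := by
    have h2 : Nat.card W₀ ≤ 4 := by omega
    have h3 : Nat.card W₀ ≠ 1 := fun h => hW₀ne (card_eq_one.mp h)
    have h4 : 0 < Nat.card W₀ := Nat.card_pos
    generalize Nat.card W₀ = n at hmod h2 h3 h4
    interval_cases n
    · omega
    · exact absurd hmod (by decide)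
    · exact absurd hmod (by decide)
    · rfl
  have hccard : c = 2 := by omega
  exact ⟨hccard, hW₀card, hcardA⟩

/-- `|W_K| = 4`. -/
theorem card_wOf (h : KP K) {S A : Subgroup G} (hS : IsPGroup 2 S) (hA : A ∈ MaxEA S)
    (hAK : A ≤ normalizer (K : Set G)) (hAt : ¬ A ≤ H13.Quad.actTriv K (O₂ K))
    (hPS : O₂ K ≤ S) (hW : wOf K ≠ ⊥) : Nat.card (wOf K) = 4 := by
  obtain ⟨hc, hW₀card, hcardA⟩ := fix_data h hS hA hAK hAt hPS hW
  set W := wOf K with hWdef
  set B := A ⊓ H13.Quad.actTriv K (O₂ K) with hB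
  have hWe := isEA_wOf K
  rw [← hWdef] at hWe
  have hAW : A ≤ normalizer (W : Set G) := hAK.trans (normalizer_le_normalizer_wOf K)
  have hPW : O₂ K ≤ centralizer (W : Set G) := core_le_centralizer K
  have hKW : K ≤ normalizer (W : Set G) := K_le_norm K
  have hfix : W ⊓ centralizer (K : Set G) = ⊥ := wOf_inf h
  set W₀ := W ⊓ centralizer (B : Set G) with hW₀
  have hW₀W : W₀ ≤ W := inf_le_left
  have hW2 : IsPGroup 2 W := H13.ElemAb.isPGroup hWe
  by_cases hle : W ≤ W₀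
  · rw [le_antisymm hle hW₀W, hW₀card]
  exfalso
  have hA2 : IsPGroup 2 A := hS.to_le hA.1
  obtain ⟨w, hwW, hw0, hwc⟩ := exists_comm_mem hA2 hW2 hAW hle
  have hWc := H13.ElemAb.le_centralizer hWe
  -- `[w,b]` is centralized by `A`
  have hkey : ∀ b ∈ B, ⁅w, b⁆ ∈ W ⊓ centralizer (A : Set G) := by
    intro b hb
    have hb1 := hwc b (Subgroup.mem_inf.mp hb).1
    refine Subgroup.mem_inf.mpr ⟨hW₀W hb1, ?_⟩
    rw [mem_centralizer_iff]
    intro a ha
    have hab : a * b = b * a := H13.ElemAb.comm hA.2.1 ha (Subgroup.mem_inf.mp hb).1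
    have hu := hwc a ha
    -- a w a⁻¹ = u⁻¹ w
    have hawa : a * w * a⁻¹ = ⁅w, a⁆⁻¹ * w := by rw [commutatorElement_def]; group
    have hub : b * ⁅w, a⁆ = ⁅w, a⁆ * b := mem_centralizer_iff.mp (Subgroup.mem_inf.mp hu).2 b hb
    have h5 : a * ⁅w, b⁆ * a⁻¹ = ⁅w, b⁆ := by
      have e1 : a * ⁅w, b⁆ * a⁻¹ = ⁅a * w * a⁻¹, a * b * a⁻¹⁆ := by
        simp only [commutatorElement_def]; group
      have e2 : a * b * a⁻¹ = b := by rw [hab]; group
      rw [e1, e2, hawa]
      have hub' : ⁅⁅w, a⁆⁻¹, b⁆ = 1 := by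
        rw [commutatorElement_eq_one_iff_mul_comm]
        have c : Commute b ⁅w, a⁆ := hub
        exact c.inv_right.symm
      rw [H1.Coprime2.commutatorElement_mul_left, hub', mul_one]
      have c2 := mem_centralizer_iff.mp (hWc (hW₀W hu)) ⁅w, b⁆ (hW₀W hb1)
      have c3 : Commute ⁅w, b⁆ ⁅w, a⁆ := c2
      have c4 : ⁅w, b⁆ * ⁅w, a⁆⁻¹ = ⁅w, a⁆⁻¹ * ⁅w, b⁆ := c3.inv_right
      rw [← c4]; group
    calc a * ⁅w, b⁆ = (a * ⁅w, b⁆ * a⁻¹) * a := by group
      _ = ⁅w, b⁆ * a := by rw [h5]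
  have hB₀ := relIndex_inf_centralizer_le hkey
  rw [hc] at hB₀
  set B₀ := B ⊓ centralizer ({w} : Set G) with hB₀def
  have hB₀B : B₀ ≤ B := inf_le_left
  have hcardB := H13.Replace.card_eq_mul_relIndex hB₀B
  have hKX : K ≤ normalizer ((W ⊓ centralizer (B₀ : Set G) : Subgroup G) : Set G) :=
    KP.le_normalizer_fix hKW hPW (hB₀B.trans inf_le_right) ((hB₀B.trans inf_le_left).trans hAW)
  have hXfix : (W ⊓ centralizer (B₀ : Set G)) ⊓ centralizer (K : Set G) = ⊥ := by
    rw [eq_bot_iff, ← hfix]; exact inf_le_inf_right _ inf_le_left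
  have hmod := h.card_mod hKX (hPW.trans (centralizer_le inf_le_left)) hXfix
  have hX2 : IsPGroup 2 ↥(W ⊓ centralizer (B₀ : Set G)) := hW2.to_le inf_le_left
  have hlt : W₀ < W ⊓ centralizer (B₀ : Set G) := by
    apply lt_of_le_of_ne
    · exact inf_le_inf_left _ (centralizer_le hB₀B)
    · intro heq
      apply hw0
      rw [heq]
      refine Subgroup.mem_inf.mpr ⟨hwW, ?_⟩
      rw [mem_centralizer_iff]
      intro b hb
      exact mem_centralizer_singleton_iff.mp (Subgroup.mem_inf.mp hb).2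
  have hgt : 4 < Nat.card ↥(W ⊓ centralizer (B₀ : Set G)) := by
    rw [← hW₀card]
    apply lt_of_le_of_ne (card_le_of_le hlt.le)
    intro h3
    exact hlt.ne (eq_of_le_of_card_ge hlt.le h3.ge)
  have hval := val_le hA hWe ((wOf_le K).trans hPS) B₀ (hB₀B.trans inf_le_left)
  unfold H13.Replace.val at hval
  rw [hc, hcardA, hcardB] at hval
  have hB₀pos : 0 < Nat.card B₀ := Nat.card_pos
  have h8 : Nat.card ↥(W ⊓ centralizer (B₀ : Set G)) ≤ 8 := by
    apply Nat.le_of_mul_le_mul_left _ hB₀pos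
    refine hval.trans ?_
    calc Nat.card B₀ * B₀.relIndex B * 2 * 2 ≤ Nat.card B₀ * 2 * 2 * 2 := by gcongr
      _ = _ := by ring
  obtain ⟨n, hn⟩ := IsPGroup.iff_card.mp hX2
  rw [hn] at h8 hgt hmod
  have hn4 : n < 4 := by
    by_contra hcon
    have : 2 ^ 4 ≤ 2 ^ n := Nat.pow_le_pow_right (by norm_num) (by omega)
    omega
  interval_cases n
  · omega
  · omega
  · omega
  · exact absurd hmod (by decide)

end basic

end H54.WOf
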