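import Cfsg.Agent.Lib.H54.JTh3
import Cfsg.Agent.Lib.H54.Basic
import Cfsg.Agent.Lib.H54.MaxEA
import Cfsg.Agent.Lib.H54.WOf

set_option autoImplicit false
set_option linter.dupNamespace false
set_option linter.unusedSectionVars false
set_option maxHeartbeats 400000

/-!
The `(S_3, S_3)`-amalgam: setup and the cases of small distance.
-/

namespace H54.Amal

open Subgroup H52.Syl H54.MaxEA H54.JTh
open scoped commutatorElement

universe u

variable {G : Type u} [Group G]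

/-- one side of the amalgam -/
structure Side (T Z P Q Y : Subgroup G) (r : G) : Prop where
  TP : T ≤ P
  QT : Q ≤ T
  PQ : P ≤ normalizer (Q : Set G)
  two : ∀ x ∈ T, ∀ y ∈ T, x ∉ Q → y ∉ Q → x * y ∈ Q
  ne : ∃ t ∈ T, t ∉ Q
  max : ∀ x ∈ P, x ∉ T → ∀ X : Subgroup G, T ≤ X → x ∈ X → P ≤ X
  neT : ∃ x ∈ P, x ∉ T
  nT : ∀ x ∈ P, x ∉ T → ∀ y ∈ T, x⁻¹ * y * x ∈ T → y ∈ Q
  dc : ∀ x ∈ P, ∀ y ∈ P, x ∉ T → y ∉ T → ∃ t₁ ∈ T, ∃ t₂ ∈ T, y = t₁ * x * t₂
  PY : P ≤ normalizer (Y : Set G)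
  YQ : Y ≤ Q
  Ysq : ∀ y ∈ Y, y * y = 1
  QY : Q ≤ centralizer (Y : Set G)
  CY : T ⊓ centralizer (Y : Set G) ≤ Q
  ZY : Z ≤ Y
  ZT : T ≤ centralizer (Z : Set G)
  zidx : ∀ x ∈ Y, ∀ y ∈ Y, x ∉ Z → y ∉ Z → x * y ∈ Z
  Yne : ∃ y ∈ Y, y ∉ Z
  rZ : r ∈ Z
  r1 : r ≠ 1
  rc : ∀ y ∈ Y, ∀ t ∈ T, y ∉ Z → t ∉ Q → ⁅y, t⁆ = r
  rP : ¬ P ≤ centralizer ({r} : Set G)

theorem commute_of_mem_centralizer {H : Subgroup G} {x y : G} (hx : x ∈ centralizer (H : Set G))
    (hy : y ∈ H) : Commute x y := (mem_centralizer_iff.mp hx y hy).symm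

theorem commutatorElement_mem_left {H : Subgroup G} {x y : G} (hx : x ∈ normalizer (H : Set G))
    (hy : y ∈ H) : ⁅x, y⁆ ∈ H := by
  rw [commutatorElement_def]
  exact H.mul_mem ((mem_normalizer_iff.mp hx y).mp hy) (H.inv_mem hy)

theorem commutatorElement_mem_right {H : Subgroup G} {x y : G} (hx : x ∈ normalizer (H : Set G))
    (hy : y ∈ H) : ⁅y, x⁆ ∈ H := by
  rw [← commutatorElement_inv]; exact H.inv_mem (commutatorElement_mem_left hx hy)

theorem inv_mem_normalizer {H : Subgroup G} {x : G} (hx : x ∈ normalizer (H : Set G)) :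
    x⁻¹ ∈ normalizer (H : Set G) := (normalizer (H : Set G)).inv_mem hx

/-- a group `H` normalizing `Y` acts trivially modulo `W` -/
theorem conj_eq_commutator_mul (x y : G) : x * y * x⁻¹ = ⁅x, y⁆ * y := by
  rw [commutatorElement_def]; group

theorem le_centralizer_singleton_iff {H : Subgroup G} {x : G} :
    H ≤ centralizer ({x} : Set G) ↔ ∀ h ∈ H, h * x = x * h := by
  constructor
  · intro h y hy
    exact (mem_centralizer_singleton_iff.mp (h hy))
  · intro h y hy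
    exact mem_centralizer_singleton_iff.mpr (h y hy)

namespace Side

variable {T Z P Q Y : Subgroup G} {r : G}

theorem Yab (s : Side T Z P Q Y r) : Y ≤ centralizer (Y : Set G) := s.YQ.trans s.QY

theorem YT (s : Side T Z P Q Y r) : Y ≤ T := s.YQ.trans s.QT

theorem PQ_le' (s : Side T Z P Q Y r) : Q ≤ P := s.QT.trans s.TP

theorem rsq (s : Side T Z P Q Y r) : r * r = 1 := s.Ysq r (s.ZY s.rZ)

theorem rY (s : Side T Z P Q Y r) : r ∈ Y := s.ZY s.rZ

theorem comm_or (s : Side T Z P Q Y r) {y t : G} (hy : y ∈ Y) (ht : t ∈ T) :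
    ⁅y, t⁆ = 1 ∨ ⁅y, t⁆ = r := by
  by_cases hyZ : y ∈ Z
  · left
    exact commutatorElement_eq_one_iff_commute.mpr
      (commute_of_mem_centralizer (s.ZT ht) hyZ).symm
  · by_cases htQ : t ∈ Q
    · left
      exact commutatorElement_eq_one_iff_commute.mpr
        (commute_of_mem_centralizer (s.QY htQ) hy).symm
    · right; exact s.rc y hy t ht hyZ htQ

theorem mem_Z (s : Side T Z P Q Y r) {y t : G} (hy : y ∈ Y) (ht : t ∈ T) (htQ : t ∉ Q)
    (h : Commute y t) : y ∈ Z := by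
  by_contra hyZ
  have := s.rc y hy t ht hyZ htQ
  rw [commutatorElement_eq_one_iff_commute.mpr h] at this
  exact s.r1 this.symm

theorem Tr (s : Side T Z P Q Y r) {t : G} (ht : t ∈ T) : t * r = r * t :=
  (commute_of_mem_centralizer (s.ZT ht) s.rZ)

/-- if `P` centralizes no ... -/
theorem le_cent_of (s : Side T Z P Q Y r) {x c : G} (hx : x ∈ P) (hxT : x ∉ T)
    (hTc : ∀ t ∈ T, t * c = c * t) (hxc : x * c = c * x) : P ≤ centralizer ({c} : Set G) := by
  apply s.max x hx hxT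
  · rw [le_centralizer_singleton_iff]; exact hTc
  · exact mem_centralizer_singleton_iff.mpr hxc

theorem not_of_normal (s : Side T Z P Q Y r) {X : Subgroup G} (_hX : X ≤ P)
    (hn : P ≤ normalizer (X : Set G)) {x : G} (hx : x ∈ X) (hxQ : x ∉ Q) : ∃ y ∈ X, y ∉ T := by
  by_contra hcon
  push Not at hcon
  obtain ⟨p, hp, hpT⟩ := s.neT
  apply hxQ
  apply s.nT p hp hpT x (hcon x hx)
  apply hcon
  have := (mem_normalizer_iff.mp (inv_mem_normalizer (hn hp)) x).mp hx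
  simpa using this

/-- `[Z : Z ∩ Z^x] ≤ 2` -/
theorem cent_mul (s : Side T Z P Q Y r) {y z : G} (hy : y ∈ Z) (hz : z ∈ Z)
    (hyP : ¬ P ≤ centralizer ({y} : Set G)) (hzP : ¬ P ≤ centralizer ({z} : Set G)) :
    P ≤ centralizer ({y * z} : Set G) := by
  obtain ⟨p, hp, hpT⟩ := s.neT
  -- conjugate of y is not in Z
  have key : ∀ w ∈ Z, ¬ P ≤ centralizer ({w} : Set G) → p⁻¹ * w * p ∉ Z := by
    intro w hw hwP hcon
    apply hwP
    -- w is centralized by T and pTp⁻¹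
    obtain ⟨t, ht, htQ⟩ := s.ne
    have h1 : p * t * p⁻¹ ∉ T := by
      intro h2
      have h3 := s.nT p hp hpT (p * t * p⁻¹) h2 (by
        have : p⁻¹ * (p * t * p⁻¹) * p = t := by group
        rw [this]; exact ht)
      apply htQ
      have := (mem_normalizer_iff.mp (inv_mem_normalizer (s.PQ hp)) (p * t * p⁻¹)).mp h3
      have e : p⁻¹ * (p * t * p⁻¹) * p⁻¹⁻¹ = t := by group
      rwa [e] at this
    apply s.le_cent_of (x := p * t * p⁻¹) (P.mul_mem (P.mul_mem hp (s.TP ht)) (P.inv_mem hp)) h1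
    · intro u hu
      exact (commute_of_mem_centralizer (s.ZT hu) hw)
    · have h4 : t * (p⁻¹ * w * p) = (p⁻¹ * w * p) * t := commute_of_mem_centralizer (s.ZT ht) hcon
      calc p * t * p⁻¹ * w = p * (t * (p⁻¹ * w * p)) * p⁻¹ := by group
        _ = p * ((p⁻¹ * w * p) * t) * p⁻¹ := by rw [h4]
        _ = w * (p * t * p⁻¹) := by group
  have hmem : ∀ w ∈ Z, p⁻¹ * w * p ∈ Y := by
    intro w hw
    have := (mem_normalizer_iff.mp (inv_mem_normalizer (s.PY hp)) w).mp (s.ZY hw)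
    simpa using this
  by_contra hcon
  apply key (y * z) (Z.mul_mem hy hz) hcon
  have h1 := s.zidx _ (hmem y hy) _ (hmem z hz) (key y hy hyP) (key z hz hzP)
  have e : p⁻¹ * y * p * (p⁻¹ * z * p) = p⁻¹ * (y * z) * p := by group
  rwa [e] at h1

end Side

/-- the amalgam -/
structure Am (T Z : Subgroup G) (P Q Y : Bool → Subgroup G) (r : Bool → G) : Prop where
  side : ∀ i, Side T Z (P i) (Q i) (Y i) (r i)
  core : ∀ X : Subgroup G, X ≤ T → (∀ i, P i ≤ normalizer (X : Set G)) → X = ⊥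

namespace Am

variable {T Z : Subgroup G} {P Q Y : Bool → Subgroup G} {r : Bool → G}

theorem core' (h : Am T Z P Q Y r) (i : Bool) {X : Subgroup G} (hX : X ≤ T)
    (h1 : P i ≤ normalizer (X : Set G)) (h2 : P (!i) ≤ normalizer (X : Set G)) : X = ⊥ := by
  apply h.core X hX
  intro j
  rcases Bool.eq_or_eq_not j i with hj | hj
  · rw [hj]; exact h1
  · rw [hj]; exact h2

theorem core_elt (h : Am T Z P Q Y r) (i : Bool) {c : G} (hc : c ∈ T)
    (h1 : P i ≤ centralizer ({c} : Set G)) (h2 : P (!i) ≤ centralizer ({c} : Set G)) : c = 1 := by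
  have h3 : ∀ j, P j ≤ normalizer ((zpowers c : Subgroup G) : Set G) := by
    intro j
    refine le_trans ?_ (H52.Syl.centralizer_le_normalizer _)
    rw [show (centralizer ((zpowers c : Subgroup G) : Set G)) = centralizer ({c} : Set G) from
      WOf.centralizer_zpowers' c]
    rcases Bool.eq_or_eq_not j i with hj | hj
    · rw [hj]; exact h1
    · rw [hj]; exact h2
  have h4 := h.core (zpowers c) ((zpowers_le).mpr hc) h3
  exact zpowers_eq_bot.mp h4

theorem Q_not_le (h : Am T Z P Q Y r) (i : Bool) : ¬ Q i ≤ Q (!i) := by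
  intro hle
  have s := h.side i
  have s' := h.side (!i)
  have hle' : Q (!i) ≤ Q i := by
    intro y hy
    by_contra hyi
    obtain ⟨t, ht, htQ⟩ := s'.ne
    have hti : t ∉ Q i := fun hcon => htQ (hle hcon)
    have h1 := hle (s.two y (s'.QT hy) t ht hyi hti)
    exact htQ ((Subgroup.mul_mem_cancel_left _ hy).mp h1)
  have heq : Q i = Q (!i) := le_antisymm hle hle'
  have hb := h.core' i (X := Q i) s.QT s.PQ (by rw [heq]; exact s'.PQ)
  apply s.r1
  have h1 := s.YQ s.rY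
  rwa [hb, mem_bot] at h1

theorem other (h : Am T Z P Q Y r) {i : Bool} (hi : Y i ≤ Q (!i)) : Y (!i) ≤ Q i := by
  have s := h.side i
  have s' := h.side (!i)
  intro y hy
  refine s.CY (Subgroup.mem_inf.mpr ⟨s'.YT hy, ?_⟩)
  have h1 : Y i ≤ centralizer (Y (!i) : Set G) := hi.trans s'.QY
  rw [le_centralizer_iff] at h1
  exact h1 hy

theorem all_of (h : Am T Z P Q Y r) {i : Bool} (hi : Y i ≤ Q (!i)) : ∀ j, Y j ≤ Q (!j) := by
  intro j
  rcases Bool.eq_or_eq_not j i with hj | hj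
  · rw [hj]; exact hi
  · rw [hj, Bool.not_not]; exact h.other hi

theorem h2' (h2 : ∀ i, Y i ≤ Q (!i)) (i : Bool) : Y (!i) ≤ Q i := by
  have := h2 (!i); rwa [Bool.not_not] at this

/-- `r_j` is centralized by `P_i` if `Y_i Y_j` is normal in `P_i`. -/
theorem rfix (h : Am T Z P Q Y r) (h2 : ∀ i, Y i ≤ Q (!i)) (i : Bool)
    (hn : P i ≤ normalizer ((Y i ⊔ Y (!i) : Subgroup G) : Set G)) :
    P i ≤ centralizer ({r (!i)} : Set G) := by
  have s := h.side i
  have s' := h.side (!i)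
  obtain ⟨w, hw, hwZ⟩ := s'.Yne
  obtain ⟨q, hq, hqj⟩ := Set.not_subset.mp (h.Q_not_le i)
  have hwq : ⁅w, q⁆ = r (!i) := s'.rc w hw q (s.QT hq) hwZ hqj
  rw [le_centralizer_singleton_iff]
  intro p hp
  have h1 : p * w * p⁻¹ ∈ Y i ⊔ Y (!i) :=
    (mem_normalizer_iff.mp (hn hp) w).mp (le_sup_right (a := Y i) hw)
  have hnorm : Y i ≤ normalizer (Y (!i) : Set G) :=
    (s.YT.trans s'.TP).trans s'.PY
  rw [sup_comm, H54.Basic.mem_sup_iff hnorm] at h1
  obtain ⟨b, hb, a, ha, hab⟩ := h1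
  have hq' : p * q * p⁻¹ ∈ Q i := (mem_normalizer_iff.mp (s.PQ hp) q).mp hq
  have hcomm : ⁅p * w * p⁻¹, p * q * p⁻¹⁆ = p * r (!i) * p⁻¹ := by
    rw [← hwq]; simp only [commutatorElement_def]; group
  have haq : Commute a (p * q * p⁻¹) := (commute_of_mem_centralizer (s.QY hq') ha).symm
  have h3 : ⁅p * w * p⁻¹, p * q * p⁻¹⁆ = ⁅b, p * q * p⁻¹⁆ := by
    rw [← hab]
    simp only [commutatorElement_def]
    have : a * (p * q * p⁻¹) * a⁻¹ = p * q * p⁻¹ := by rw [haq.eq]; group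
    calc b * a * (p * q * p⁻¹) * (b * a)⁻¹ * (p * q * p⁻¹)⁻¹
        = b * (a * (p * q * p⁻¹) * a⁻¹) * b⁻¹ * (p * q * p⁻¹)⁻¹ := by group
      _ = _ := by rw [this]
  have h4 := s'.comm_or hb (s.QT hq')
  rw [← h3, hcomm] at h4
  rcases h4 with h4 | h4
  · exfalso
    apply s'.r1
    have : r (!i) = p⁻¹ * (p * r (!i) * p⁻¹) * p := by group
    rw [this, h4]; group
  · calc p * r (!i) = p * r (!i) * p⁻¹ * p := by group
      _ = r (!i) * p := by rw [h4]

/-- normality criterion -/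
theorem norm (h : Am T Z P Q Y r) (i : Bool) {x : G}
    (hx : x ∈ P i) (hxQ : x ∉ Q i) {V : Subgroup G} (hPV : P i ≤ normalizer (V : Set G))
    (hYV : Y (!i) ≤ V) (hv : ∀ v ∈ V, ⁅v, x⁆ ∈ Y i) :
    P i ≤ normalizer ((Y i ⊔ Y (!i) : Subgroup G) : Set G) := by
  have s := h.side i
  have s' := h.side (!i)
  set X := P i ⊓ H13.Quad.actTriv V (Y i) with hXdef
  have hXn : P i ≤ normalizer (X : Set G) :=
    H1.Coprime2.le_normalizer_inf Subgroup.le_normalizer
      (H13.Quad.le_normalizer_actTriv hPV s.PY)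
  have hxX : x ∈ X :=
    Subgroup.mem_inf.mpr ⟨hx, H13.Quad.mem_actTriv.mpr ⟨hPV hx, s.PY hx, hv⟩⟩
  obtain ⟨y, hy, hyT⟩ := s.not_of_normal inf_le_left hXn hxX hxQ
  apply s.max y (Subgroup.mem_inf.mp hy).1 hyT
  · exact le_trans (le_inf (s.TP.trans s.PY) (s'.TP.trans s'.PY)) normalizer_sup_le
  · have hyv := (H13.Quad.mem_actTriv.mp (Subgroup.mem_inf.mp hy).2).2.2
    have hyi := (Subgroup.mem_inf.mp hy).1
    have key : ∀ z ∈ X, cj z (Y i ⊔ Y (!i)) ≤ Y i ⊔ Y (!i) := by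
      intro z hz
      have hzv := (H13.Quad.mem_actTriv.mp (Subgroup.mem_inf.mp hz).2).2.2
      rw [cj_sup]
      refine sup_le ?_ ?_
      · rw [cj_eq_of_mem_normalizer (s.PY (Subgroup.mem_inf.mp hz).1)]; exact le_sup_left
      · intro g hg
        rw [mem_cj] at hg
        have h1 : ⁅z⁻¹ * g * z, z⁆ ∈ Y i := hzv _ (hYV hg)
        have e : g = ⁅z⁻¹ * g * z, z⁆⁻¹ * (z⁻¹ * g * z) := by
          rw [commutatorElement_def]; group
        rw [e]
        exact Subgroup.mul_mem _ ((le_sup_left : Y i ≤ _) (Subgroup.inv_mem _ h1))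
          ((le_sup_right : Y (!i) ≤ _) hg)
    have h1 := key y hy
    have h2 := key y⁻¹ (X.inv_mem hy)
    apply mem_normalizer_of_cj_eq
    apply le_antisymm h1
    rw [le_cj_iff]; exact h2

end Am

end H54.Amal
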