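import Cfsg.Agent.Lib.H54.Amal1

set_option autoImplicit false
set_option linter.dupNamespace false
set_option linter.unusedSectionVars false
set_option maxHeartbeats 400000

/-!
The `(S_3, S_3)`-amalgam: Thompson subgroup arguments.
-/

namespace H54.Amal

open Subgroup H52.Syl H54.MaxEA H54.JTh
open scoped commutatorElement

universe u

variable {G : Type u} [Group G]

/-- `⟨Z^L⟩` -/
def cl (L Z : Subgroup G) : Subgroup G :=
  closure {x | ∃ g ∈ L, ∃ w ∈ Z, x = g * w * g⁻¹}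

theorem conj_mem_cl {L Z : Subgroup G} {g w : G} (hg : g ∈ L) (hw : w ∈ Z) :
    g * w * g⁻¹ ∈ cl L Z := subset_closure ⟨g, hg, w, hw, rfl⟩

theorem le_cl (L Z : Subgroup G) : Z ≤ cl L Z := by
  intro z hz
  have := conj_mem_cl L.one_mem hz
  simpa using this

theorem cl_le {L Z X : Subgroup G} (h : ∀ g ∈ L, ∀ w ∈ Z, g * w * g⁻¹ ∈ X) : cl L Z ≤ X := by
  rw [cl, closure_le]
  rintro _ ⟨g, hg, w, hw, rfl⟩
  exact h g hg w hw

theorem le_norm_cl (L Z : Subgroup G) : L ≤ normalizer ((cl L Z : Subgroup G) : Set G) := by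
  have key : ∀ l ∈ L, cj l (cl L Z) ≤ cl L Z := by
    intro l hl
    rw [cj_le_iff]
    apply cl_le
    intro g hg w hw
    rw [mem_cj]
    have := conj_mem_cl (L.mul_mem hl hg) hw
    have e : l⁻¹⁻¹ * (g * w * g⁻¹) * l⁻¹ = l * g * w * (l * g)⁻¹ := by group
    rw [e]; exact this
  intro l hl
  apply mem_normalizer_of_cj_eq
  apply le_antisymm (key l hl)
  rw [le_cj_iff]; exact key _ (L.inv_mem hl)

theorem isEA_cl {L Z : Subgroup G} (hsq : ∀ w ∈ Z, w * w = 1)
    (hc : ∀ g ∈ L, ∀ w ∈ Z, ∀ w' ∈ Z, Commute w (g * w' * g⁻¹)) :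
    Cfsg.IsElementaryAbelian 2 (cl L Z) := by
  apply H13.ElemAb.closure
  · rintro _ ⟨g, hg, w, hw, rfl⟩ _ ⟨g', hg', w', hw', rfl⟩
    have h1 := hc (g⁻¹ * g') (L.mul_mem (L.inv_mem hg) hg') w hw w' hw'
    calc g * w * g⁻¹ * (g' * w' * g'⁻¹)
        = g * (w * (g⁻¹ * g' * w' * (g⁻¹ * g')⁻¹)) * g⁻¹ := by group
      _ = g * ((g⁻¹ * g' * w' * (g⁻¹ * g')⁻¹) * w) * g⁻¹ := by rw [h1.eq]
      _ = _ := by group
  · rintro _ ⟨g, hg, w, hw, rfl⟩
    have e : (g * w * g⁻¹) ^ 2 = g * (w * w) * g⁻¹ := by rw [pow_two]; group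
    rw [e, hsq w hw]; group

theorem isEA_of {A : Subgroup G} (hc : A ≤ centralizer (A : Set G)) (hsq : ∀ a ∈ A, a * a = 1) :
    Cfsg.IsElementaryAbelian 2 A := by
  rw [H13.ElemAb.iff_le_centralizer]
  exact ⟨hc, fun a ha => by rw [pow_two]; exact hsq a ha⟩

theorem isEA_sup_zpowers {B : Subgroup G} {x : G} (hB : Cfsg.IsElementaryAbelian 2 B)
    (hx : x ∈ centralizer (B : Set G)) (hx2 : x * x = 1) :
    Cfsg.IsElementaryAbelian 2 (B ⊔ zpowers x) := by
  apply H13.ElemAb.sup hB (H13.ElemAb.zpowers (by rw [pow_two]; exact hx2))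
  rw [le_centralizer_iff, zpowers_le]; exact hx

theorem two_mul_card_le [Finite G] {B C : Subgroup G} (hBC : B ≤ C) {x : G} (hx : x ∉ B)
    (hxC : x ∈ C) : 2 * Nat.card B ≤ Nat.card C := by
  obtain ⟨k, hk⟩ := card_dvd_of_le hBC
  have hpos : 0 < Nat.card B := Nat.card_pos
  have hpos' : 0 < Nat.card C := Nat.card_pos
  rcases Nat.lt_or_ge k 2 with hlt | hge
  · exfalso
    interval_cases k
    · omega
    · apply hx
      rw [eq_of_le_of_card_ge hBC (by omega)]; exact hxC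
  · rw [hk]; nlinarith

theorem card_le_two_mul [Finite G] {A Q : Subgroup G}
    (h : ∀ x ∈ A, ∀ y ∈ A, x ∉ Q → y ∉ Q → x * y ∈ Q) :
    Nat.card A ≤ 2 * Nat.card ↥(A ⊓ Q) := by
  by_cases hAQ : A ≤ Q
  · rw [inf_eq_left.mpr hAQ]; omega
  · obtain ⟨t, ht, htQ⟩ := Set.not_subset.mp hAQ
    have h1 : (A ⊓ Q).relIndex A = 2 := by
      rw [inf_relIndex_left, relIndex_eq_two_iff]
      refine ⟨t, ht, fun b hb => ?_⟩
      by_cases hbQ : b ∈ Q
      · right
        refine ⟨hbQ, fun hcon => htQ ?_⟩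
        exact (Q.mul_mem_cancel_left hbQ).mp hcon
      · left
        exact ⟨h b hb t ht hbQ htQ, hbQ⟩
    have h2 := H13.Replace.card_eq_mul_relIndex (inf_le_left : A ⊓ Q ≤ A)
    rw [h1] at h2
    omega

theorem mem_sup_zpowers {B : Subgroup G} {x y : G} (hx : x ∈ centralizer (B : Set G))
    (hx2 : x * x = 1) (hy : y ∈ B ⊔ zpowers x) : y ∈ B ∨ ∃ b ∈ B, y = b * x := by
  have h1 : zpowers x ≤ normalizer (B : Set G) := by
    rw [zpowers_le]; exact H52.Syl.centralizer_le_normalizer B hx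
  rw [H54.Basic.mem_sup_iff h1] at hy
  obtain ⟨b, hb, a, ha, rfl⟩ := hy
  obtain ⟨n, rfl⟩ := mem_zpowers_iff.mp ha
  rcases Int.even_or_odd n with ⟨k, hk⟩ | ⟨k, hk⟩
  · left
    have : x ^ n = 1 := by rw [hk, ← two_mul, zpow_mul, zpow_ofNat, pow_two, hx2, one_zpow]
    rw [this, mul_one]; exact hb
  · right
    refine ⟨b, hb, ?_⟩
    have : x ^ n = x := by
      rw [hk, zpow_add, zpow_mul, zpow_ofNat, pow_two, hx2, one_zpow, zpow_one, one_mul]
    rw [this]

/-- replacement -/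
theorem Side.rep [Finite G] {T Z P Q Y : Subgroup G} {r : G} (s : Side T Z P Q Y r)
    {A : Subgroup G} (hA : A ∈ MaxEA T) (hAQ : ¬ A ≤ Q) : (A ⊓ Q) ⊔ Y ∈ MaxEA T := by
  obtain ⟨t, ht, htQ⟩ := Set.not_subset.mp hAQ
  obtain ⟨u, hu, huZ⟩ := s.Yne
  apply mem_of_card_le hA
  · exact sup_le (inf_le_left.trans hA.1) s.YT
  · apply H13.ElemAb.sup (H13.ElemAb.of_le hA.2.1 inf_le_left) (isEA_of s.Yab s.Ysq)
    exact inf_le_right.trans s.QY
  · have h1 : u ∉ A ⊓ Q := by
      intro hcon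
      apply huZ
      exact s.mem_Z hu (hA.1 ht) htQ (H13.ElemAb.comm hA.2.1 (Subgroup.mem_inf.mp hcon).1 ht)
    have h2 := two_mul_card_le (le_sup_left : A ⊓ Q ≤ (A ⊓ Q) ⊔ Y) h1 (mem_sup_right hu)
    have h3 := card_le_two_mul (A := A) (Q := Q) (fun x hx y hy hxQ hyQ =>
      s.two x (hA.1 hx) y (hA.1 hy) hxQ hyQ)
    omega

/-- amalgam with Thompson subgroup hypotheses -/
structure AmJ (T Z : Subgroup G) (P Q Y : Bool → Subgroup G) (r : Bool → G) : Prop
    extends Am T Z P Q Y r where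
  jne : ∀ i, ∃ A ∈ MaxEA T, ¬ A ≤ Q i
  jz : ∀ x ∈ T, x * x = 1 → (∀ A ∈ MaxEA T, x ∈ centralizer (A : Set G)) → x ∈ Z

namespace AmJ

variable {T Z : Subgroup G} {P Q Y : Bool → Subgroup G} {r : Bool → G}

theorem exists_A [Finite G] (h : AmJ T Z P Q Y r) (h2 : ∀ i, Y i ≤ Q (!i)) (i : Bool) :
    ∃ A ∈ MaxEA T, A ≤ Q i ∧ ¬ A ≤ Q (!i) := by
  by_contra hcon
  push Not at hcon
  have s := h.side i
  have s' := h.side (!i)
  have h2i : Y (!i) ≤ Q i := Am.h2' h2 i
  set V := cl (P i) (Y (!i)) with hV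
  have hVA : ∀ A ∈ MaxEA T, A ≤ Q i → V ≤ A := by
    intro A hA hAQ
    apply cl_le
    intro g hg w hw
    have hA' : cj g⁻¹ A ∈ MaxEA T := by
      have h1 : cj g⁻¹ A ≤ Q i := by
        have := cj_mono (g := g⁻¹) hAQ
        rwa [cj_eq_of_mem_normalizer (inv_mem_normalizer (s.PQ hg))] at this
      exact mem_of_card_le hA (h1.trans s.QT) (H13.ElemAb.map hA.2.1 _) (by rw [card_cj])
    have hA'Q : cj g⁻¹ A ≤ Q i := by
      have := cj_mono (g := g⁻¹) hAQ
      rwa [cj_eq_of_mem_normalizer (inv_mem_normalizer (s.PQ hg))] at this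
    have h3 : w ∈ cj g⁻¹ A := by
      apply mem_of_centralizes hA' (s'.YT hw)
      · have h4 := (hcon _ hA' hA'Q).trans s'.QY
        rw [le_centralizer_iff] at h4
        exact h4 hw
      · rw [pow_two]; exact s'.Ysq w hw
    rw [mem_cj, inv_inv] at h3
    exact h3
  have hga : ∀ A ∈ MaxEA T, ∀ a ∈ A, ∀ v ∈ V, ⁅v, a⁆ = 1 ∨ ⁅v, a⁆ = r i := by
    intro A hA a ha v hv
    by_cases hAQ : A ≤ Q i
    · left
      exact commutatorElement_eq_one_iff_commute.mpr (H13.ElemAb.comm hA.2.1 (hVA A hA hAQ hv) ha)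
    · have hA' := s.rep hA hAQ
      have hv' : v ∈ (A ⊓ Q i) ⊔ Y i := hVA _ hA' (sup_le inf_le_right s.YQ) hv
      have hn : A ⊓ Q i ≤ normalizer (Y i : Set G) := (inf_le_left.trans hA.1).trans
        (s.TP.trans s.PY)
      rw [sup_comm, H54.Basic.mem_sup_iff hn] at hv'
      obtain ⟨y, hy, b, hb, rfl⟩ := hv'
      have hba : Commute b a := H13.ElemAb.comm hA.2.1 (Subgroup.mem_inf.mp hb).1 ha
      have e : ⁅y * b, a⁆ = ⁅y, a⁆ := by
        simp only [commutatorElement_def]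
        calc y * b * a * (y * b)⁻¹ * a⁻¹ = y * (b * a) * b⁻¹ * y⁻¹ * a⁻¹ := by group
          _ = y * (a * b) * b⁻¹ * y⁻¹ * a⁻¹ := by rw [hba.eq]
          _ = _ := by group
      rw [e]
      exact s.comm_or hy (hA.1 ha)
  obtain ⟨A, hA, hAQ⟩ := h.jne i
  obtain ⟨a, ha, haQ⟩ := Set.not_subset.mp hAQ
  have hn := h.norm i (s.TP (hA.1 ha)) haQ (V := V) (le_norm_cl _ _) (le_cl _ _) (by
    intro v hv
    rcases hga A hA a ha v hv with h1 | h1
    · rw [h1]; exact one_mem _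
    · rw [h1]; exact s.rY)
  have hr := h.rfix h2 i hn
  have hrne : r i ≠ r (!i) := by
    intro he
    rw [← he] at hr
    exact s.rP hr
  obtain ⟨w, hw, hwZ⟩ := s'.Yne
  apply hwZ
  apply h.jz w (s'.YT hw) (s'.Ysq w hw)
  intro A hA
  rw [mem_centralizer_iff]
  intro a ha
  have h1 := hga A hA a ha w (le_cl _ _ hw)
  have h3 := s'.comm_or hw (hA.1 ha)
  have h4 : ⁅w, a⁆ = 1 := by
    rcases h1 with h1 | h1
    · exact h1
    · rcases h3 with h3 | h3
      · exact h3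
      · exact absurd (h1.symm.trans h3) hrne
  exact (commutatorElement_eq_one_iff_commute.mp h4).symm.eq

/-- the key centralizing property -/
theorem star [Finite G] (h : AmJ T Z P Q Y r) (h2 : ∀ i, Y i ≤ Q (!i)) (i : Bool) :
    P i ≤ centralizer ({r (!i)} : Set G) := by
  by_contra hcon
  have s := h.side i
  have s' := h.side (!i)
  have h2i : Y (!i) ≤ Q i := Am.h2' h2 i
  have hYQ : ∀ g ∈ P i, ∀ w ∈ Y (!i), g * w * g⁻¹ ∈ Q i := fun g hg w hw =>
    (mem_normalizer_iff.mp (s.PQ hg) w).mp (h2i hw)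
  have hYQ' : ∀ g ∈ P i, ∀ w ∈ Q i, g⁻¹ * w * g ∈ Q i := fun g hg w hw => by
    have := (mem_normalizer_iff.mp (inv_mem_normalizer (s.PQ hg)) w).mp hw
    simpa using this
  have hsq : ∀ g w : G, w * w = 1 → (g * w * g⁻¹) * (g * w * g⁻¹) = 1 := by
    intro g w hw
    calc (g * w * g⁻¹) * (g * w * g⁻¹) = g * (w * w) * g⁻¹ := by group
      _ = 1 := by rw [hw]; group
  -- abelian case
  have hab : ∀ g ∈ P i, ∀ w ∈ Y (!i), ∀ w' ∈ Y (!i), Commute w (g * w' * g⁻¹) := by
    intro g hg w hw w' hw'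
    by_contra hne
    have h1 : ⁅w, g * w' * g⁻¹⁆ = r (!i) := by
      rcases s'.comm_or hw (s.QT (hYQ g hg w' hw')) with h3 | h3
      · exact absurd (commutatorElement_eq_one_iff_commute.mp h3) hne
      · exact h3
    have h4 : ⁅w', g⁻¹ * w * g⁆ = r (!i) := by
      rcases s'.comm_or hw' (s.QT (hYQ' g hg w (h2i hw))) with h3 | h3
      · exfalso
        apply hne
        have h5 := commutatorElement_eq_one_iff_commute.mp h3
        have h6 : w' * (g⁻¹ * w * g) = (g⁻¹ * w * g) * w' := h5.eq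
        show w * (g * w' * g⁻¹) = g * w' * g⁻¹ * w
        calc w * (g * w' * g⁻¹) = g * ((g⁻¹ * w * g) * w') * g⁻¹ := by group
          _ = g * (w' * (g⁻¹ * w * g)) * g⁻¹ := by rw [h6]
          _ = _ := by group
      · exact h3
    have h5 : g * r (!i) * g⁻¹ = r (!i) := by
      have e : g * ⁅w', g⁻¹ * w * g⁆ * g⁻¹ = ⁅w, g * w' * g⁻¹⁆⁻¹ := by
        simp only [commutatorElement_def]; group
      rw [h4, h1] at e
      rw [e]
      exact (eq_inv_of_mul_eq_one_left s'.rsq).symm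
    apply hcon
    apply s.le_cent_of hg (x := g)
    · intro hgT
      apply hne
      have h6 : g * w' * g⁻¹ ∈ Y (!i) := (mem_normalizer_iff.mp (s'.PY (s'.TP hgT)) w').mp hw'
      exact (commute_of_mem_centralizer (s'.Yab h6) hw).symm
    · intro t ht; exact s'.Tr ht
    · calc g * r (!i) = g * r (!i) * g⁻¹ * g := by group
        _ = r (!i) * g := by rw [h5]
  set V := cl (P i) (Y (!i)) with hV
  have hVea : Cfsg.IsElementaryAbelian 2 V := isEA_cl s'.Ysq hab
  have hVQ : V ≤ Q i := cl_le hYQ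
  obtain ⟨A, hA, hAj, hAi⟩ := h.exists_A h2 (!i)
  rw [Bool.not_not] at hAi
  obtain ⟨t, ht, htQ⟩ := Set.not_subset.mp hAi
  obtain ⟨u, hu, huZ⟩ := s.Yne
  have hAea := hA.2.1
  have hAc : ∀ a ∈ A, ∀ b ∈ A, Commute a b := fun a ha b hb => H13.ElemAb.comm hAea ha hb
  have hcard1 := card_le_two_mul (A := A) (Q := Q i) (fun x hx y hy hxQ hyQ =>
      s.two x (hA.1 hx) y (hA.1 hy) hxQ hyQ)
  have huc : u ∈ centralizer ((A ⊓ Q i : Subgroup G) : Set G) := by
    have h3 := (inf_le_right : A ⊓ Q i ≤ Q i).trans s.QY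
    rw [le_centralizer_iff] at h3
    exact h3 hu
  have huA : u ∉ A := fun hcon' => huZ (s.mem_Z hu (hA.1 ht) htQ (hAc u hcon' t ht))
  have hmax : ∀ B : Subgroup G, B ≤ T → Cfsg.IsElementaryAbelian 2 B → Nat.card B ≤ Nat.card A :=
    hA.2.2
  -- claim (i)
  have claim1 : ∀ q ∈ A ⊓ Q i, ∀ g ∈ P i, ∀ w ∈ Y (!i), Commute q (g * w * g⁻¹) := by
    intro q hq g hg w hw
    obtain ⟨hqA, hqQ⟩ := Subgroup.mem_inf.mp hq
    by_contra hne
    have hgT : g ∉ T := by
      intro hgT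
      apply hne
      have h6 : g * w * g⁻¹ ∈ Y (!i) := (mem_normalizer_iff.mp (s'.PY (s'.TP hgT)) w).mp hw
      exact (commute_of_mem_centralizer (s'.QY (hAj hqA)) h6)
    set v := g * w * g⁻¹ with hv
    set v' := t * v * t⁻¹ with hv'
    set r' := g * r (!i) * g⁻¹ with hr'
    have hvV : v ∈ V := conj_mem_cl hg hw
    have hv'V : v' ∈ V := by
      have : v' = (t * g) * w * (t * g)⁻¹ := by rw [hv', hv]; group
      rw [this]
      exact conj_mem_cl ((P i).mul_mem (s.TP (hA.1 ht)) hg) hw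
    have hvq : ⁅v, q⁆ = r' := by
      have e : ⁅v, q⁆ = g * ⁅w, g⁻¹ * q * g⁆ * g⁻¹ := by
        rw [hv]; simp only [commutatorElement_def]; group
      rcases s'.comm_or hw (s.QT (hYQ' g hg q hqQ)) with h3 | h3
      · exfalso
        apply hne
        rw [h3] at e
        have h4 : ⁅v, q⁆ = 1 := by rw [e]; group
        exact (commutatorElement_eq_one_iff_commute.mp h4).symm
      · rw [e, h3]
    have hr'1 : r' ≠ 1 := by
      intro h3
      apply s'.r1
      have : r (!i) = g⁻¹ * r' * g := by rw [hr']; group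
      rw [this, h3]; group
    have htq : t * q * t⁻¹ = q := by rw [(hAc t ht q hqA).eq]; group
    have hv'q : ⁅v', q⁆ = t * r' * t⁻¹ := by
      have e : ⁅v', q⁆ = t * ⁅v, t⁻¹ * q * t⁆ * t⁻¹ := by
        rw [hv']; simp only [commutatorElement_def]; group
      have e2 : t⁻¹ * q * t = q := by
        calc t⁻¹ * q * t = t⁻¹ * (t * q * t⁻¹) * t := by rw [htq]
          _ = q := by group
      rw [e, e2, hvq]
    have hrr : t * r' * t⁻¹ ≠ r' := by
      intro h3
      apply hcon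
      apply s.le_cent_of (x := g⁻¹ * t * g)
        ((P i).mul_mem ((P i).mul_mem ((P i).inv_mem hg) (s.TP (hA.1 ht))) hg)
      · intro h4
        exact htQ (s.nT g hg hgT t (hA.1 ht) h4)
      · intro t' ht'; exact s'.Tr ht'
      · have h4 : t * r' = r' * t := by
          calc t * r' = t * r' * t⁻¹ * t := by group
            _ = r' * t := by rw [h3]
        rw [hr'] at h4
        calc g⁻¹ * t * g * r (!i) = g⁻¹ * (t * (g * r (!i) * g⁻¹)) * g := by group
          _ = g⁻¹ * ((g * r (!i) * g⁻¹) * t) * g := by rw [h4]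
          _ = _ := by group
    -- the big elementary abelian group
    set A₀ := (A ⊓ Q i) ⊓ cj g (Q (!i)) with hA₀
    have hcard2 : Nat.card ↥(A ⊓ Q i) ≤ 2 * Nat.card A₀ := card_le_two_mul (A := A ⊓ Q i) (Q := cj g (Q (!i))) (by
      intro x hx y hy hxQ hyQ
      rw [mem_cj] at hxQ hyQ ⊢
      have h3 := s'.two _ (s.QT (hYQ' g hg x (Subgroup.mem_inf.mp hx).2)) _
        (s.QT (hYQ' g hg y (Subgroup.mem_inf.mp hy).2)) hxQ hyQ
      have e : g⁻¹ * x * g * (g⁻¹ * y * g) = g⁻¹ * (x * y) * g := by group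
      rwa [e] at h3)
    have hA₀A : A₀ ≤ A := inf_le_left.trans inf_le_left
    have hA₀Q : A₀ ≤ Q i := inf_le_left.trans inf_le_right
    have hu0 : u ∈ centralizer (A₀ : Set G) := by
      have h3 := hA₀Q.trans s.QY
      rw [le_centralizer_iff] at h3
      exact h3 hu
    have hv0 : ∀ a ∈ A₀, Commute v a := by
      intro a ha
      have h3 : g⁻¹ * a * g ∈ Q (!i) := mem_cj.mp (Subgroup.mem_inf.mp ha).2
      have h4 := commute_of_mem_centralizer (s'.QY h3) hw
      show v * a = a * v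
      rw [hv]
      calc g * w * g⁻¹ * a = g * (w * (g⁻¹ * a * g)) * g⁻¹ := by group
        _ = g * ((g⁻¹ * a * g) * w) * g⁻¹ := by rw [h4.symm.eq]
        _ = _ := by group
    have hv'0 : ∀ a ∈ A₀, Commute v' a := by
      intro a ha
      have h3 := hv0 a ha
      have h4 : t * a * t⁻¹ = a := by rw [(hAc t ht a (hA₀A ha)).eq]; group
      show v' * a = a * v'
      rw [hv']
      calc t * v * t⁻¹ * a = t * v * t⁻¹ * (t * a * t⁻¹) := by rw [h4]
        _ = t * (v * a) * t⁻¹ := by group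
        _ = t * (a * v) * t⁻¹ := by rw [h3.eq]
        _ = (t * a * t⁻¹) * (t * v * t⁻¹) := by group
        _ = _ := by rw [h4]
    have hvu : Commute v u := (commute_of_mem_centralizer (s.QY (hVQ hvV)) hu)
    have hv'u : Commute v' u := (commute_of_mem_centralizer (s.QY (hVQ hv'V)) hu)
    have hvv' : Commute v v' := H13.ElemAb.comm hVea hvV hv'V
    have hvsq : v * v = 1 := hsq g w (s'.Ysq w hw)
    have hv'sq : v' * v' = 1 := hsq t v hvsq
    set B₁ := A₀ ⊔ zpowers u with hB₁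
    set B₂ := B₁ ⊔ zpowers v with hB₂
    set B₃ := B₂ ⊔ zpowers v' with hB₃
    have ea0 : Cfsg.IsElementaryAbelian 2 A₀ := H13.ElemAb.of_le hAea hA₀A
    have ea1 : Cfsg.IsElementaryAbelian 2 B₁ := isEA_sup_zpowers ea0 hu0 (s.Ysq u hu)
    have cent1 : ∀ x : G, (∀ a ∈ A₀, Commute x a) → Commute x u →
        x ∈ centralizer (B₁ : Set G) := by
      intro x h3 h4
      rw [hB₁, H13.Replace.centralizer_sup]
      refine Subgroup.mem_inf.mpr ⟨?_, ?_⟩
      · rw [mem_centralizer_iff]; intro a ha; exact (h3 a ha).symm.eq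
      · rw [WOf.centralizer_zpowers']
        exact mem_centralizer_singleton_iff.mpr h4.eq
    have hvB₁ : v ∈ centralizer (B₁ : Set G) := cent1 v hv0 hvu
    have hv'B₁ : v' ∈ centralizer (B₁ : Set G) := cent1 v' hv'0 hv'u
    have ea2 : Cfsg.IsElementaryAbelian 2 B₂ := isEA_sup_zpowers ea1 hvB₁ hvsq
    have hv'B₂ : v' ∈ centralizer (B₂ : Set G) := by
      rw [hB₂, H13.Replace.centralizer_sup]
      refine Subgroup.mem_inf.mpr ⟨hv'B₁, ?_⟩
      rw [WOf.centralizer_zpowers']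
      exact mem_centralizer_singleton_iff.mpr hvv'.symm.eq
    have ea3 : Cfsg.IsElementaryAbelian 2 B₃ := isEA_sup_zpowers ea2 hv'B₂ hv'sq
    have hqB₁ : q ∈ centralizer (B₁ : Set G) := cent1 q (fun a ha => hAc q hqA a (hA₀A ha))
      (commute_of_mem_centralizer (s.QY hqQ) hu)
    have n1 : u ∉ A₀ := fun h3 => huA (hA₀A h3)
    have n2 : v ∉ B₁ := by
      intro h3
      apply hne
      exact commute_of_mem_centralizer hqB₁ h3
    have n3 : v' ∉ B₂ := by
      intro h3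
      rcases mem_sup_zpowers hvB₁ hvsq h3 with h4 | ⟨b, hb, h4⟩
      · have h5 := commute_of_mem_centralizer hqB₁ h4
        have h6 : ⁅v', q⁆ = 1 := commutatorElement_eq_one_iff_commute.mpr h5.symm
        rw [hv'q] at h6
        apply hr'1
        calc r' = t⁻¹ * (t * r' * t⁻¹) * t := by group
          _ = 1 := by rw [h6]; group
      · apply hrr
        rw [← hv'q]
        have hbq : Commute b q := (commute_of_mem_centralizer hqB₁ hb).symm
        have hbv : Commute b v := (commute_of_mem_centralizer hvB₁ hb).symm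
        have hbr : Commute b r' := by
          rw [← hvq, commutatorElement_def]
          exact ((hbv.mul_right hbq).mul_right hbv.inv_right).mul_right hbq.inv_right
        rw [h4, commutatorElement_def]
        calc b * v * q * (b * v)⁻¹ * q⁻¹ = b * (v * q * v⁻¹ * q⁻¹) * (q * b⁻¹ * q⁻¹) := by group
          _ = b * r' * (q * b⁻¹ * q⁻¹) := by rw [← hvq, commutatorElement_def]
          _ = b * r' * (b⁻¹ * q * q⁻¹) := by rw [hbq.symm.inv_right.eq]
          _ = b * r' * b⁻¹ := by group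
          _ = r' * b * b⁻¹ := by rw [hbr.eq]
          _ = r' := by group
    have c1 : 2 * Nat.card A₀ ≤ Nat.card B₁ := two_mul_card_le (le_sup_left : A₀ ≤ B₁) n1 (mem_sup_right (mem_zpowers u))
    have c2 : 2 * Nat.card B₁ ≤ Nat.card B₂ := two_mul_card_le (le_sup_left : B₁ ≤ B₂) n2 (mem_sup_right (mem_zpowers v))
    have c3 : 2 * Nat.card B₂ ≤ Nat.card B₃ := two_mul_card_le (le_sup_left : B₂ ≤ B₃) n3 (mem_sup_right (mem_zpowers v'))
    have hB₃T : B₃ ≤ T := by
      refine sup_le (sup_le (sup_le (hA₀A.trans hA.1) ?_) ?_) ?_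
      · rw [zpowers_le]; exact s.YT hu
      · rw [zpowers_le]; exact s.QT (hVQ hvV)
      · rw [zpowers_le]; exact s.QT (hVQ hv'V)
    have c4 := hmax B₃ hB₃T ea3
    have hpos : 0 < Nat.card A₀ := Nat.card_pos
    omega
  -- claim (ii)
  have hVc : V ≤ centralizer ((A ⊓ Q i : Subgroup G) : Set G) := by
    rw [le_centralizer_iff]
    intro q hq
    rw [mem_centralizer_iff]
    intro v hv
    have h3 : V ≤ centralizer ({q} : Set G) := by
      apply cl_le
      intro g hg w hw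
      exact mem_centralizer_singleton_iff.mpr (claim1 q hq g hg w hw).symm.eq
    exact mem_centralizer_singleton_iff.mp (h3 hv)
  have claim2 : ∀ v ∈ V, v ∈ (A ⊓ Q i) ⊔ zpowers u := by
    intro v hv
    by_contra hvB
    set B := (A ⊓ Q i) ⊔ zpowers u with hB
    have eaB : Cfsg.IsElementaryAbelian 2 B :=
      isEA_sup_zpowers (H13.ElemAb.of_le hAea inf_le_left) huc (s.Ysq u hu)
    have hvB' : v ∈ centralizer (B : Set G) := by
      rw [hB, H13.Replace.centralizer_sup]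
      refine Subgroup.mem_inf.mpr ⟨hVc hv, ?_⟩
      rw [WOf.centralizer_zpowers']
      exact mem_centralizer_singleton_iff.mpr (commute_of_mem_centralizer (s.QY (hVQ hv)) hu).eq
    have hv2 : v * v = 1 := by
      have := (H13.ElemAb.iff_le_centralizer.mp hVea).2 v hv
      rwa [pow_two] at this
    have ea' := isEA_sup_zpowers eaB hvB' hv2
    have n1 : u ∉ A ⊓ Q i := fun h3 => huA (Subgroup.mem_inf.mp h3).1
    have c1 : 2 * Nat.card ↥(A ⊓ Q i) ≤ Nat.card B := two_mul_card_le (le_sup_left : A ⊓ Q i ≤ B) n1 (mem_sup_right (mem_zpowers u))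
    have c2 := two_mul_card_le (le_sup_left : B ≤ B ⊔ zpowers v) hvB
      (mem_sup_right (mem_zpowers v))
    have hBT : B ⊔ zpowers v ≤ T := by
      refine sup_le (sup_le (inf_le_left.trans hA.1) ?_) ?_
      · rw [zpowers_le]; exact s.YT hu
      · rw [zpowers_le]; exact s.QT (hVQ hv)
    have c4 := hmax _ hBT ea'
    have hpos : 0 < Nat.card ↥(A ⊓ Q i) := Nat.card_pos
    omega
  apply hcon
  apply h.rfix h2 i
  apply h.norm i (s.TP (hA.1 ht)) htQ (V := V) (le_norm_cl _ _) (le_cl _ _)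
  intro v hv
  have hut : ⁅u, t⁆ ∈ Y i := by
    rcases s.comm_or hu (hA.1 ht) with h3 | h3
    · rw [h3]; exact one_mem _
    · rw [h3]; exact s.rY
  rcases mem_sup_zpowers huc (s.Ysq u hu) (claim2 v hv) with h3 | ⟨b, hb, h3⟩
  · have h4 := hAc v (Subgroup.mem_inf.mp h3).1 t ht
    rw [commutatorElement_eq_one_iff_commute.mpr h4]; exact one_mem _
  · have hbt := hAc b (Subgroup.mem_inf.mp hb).1 t ht
    have e : ⁅v, t⁆ = b * ⁅u, t⁆ * b⁻¹ := by
      rw [h3]; simp only [commutatorElement_def]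
      calc b * u * t * (b * u)⁻¹ * t⁻¹ = b * (u * t * u⁻¹) * (b⁻¹ * t⁻¹) := by group
        _ = b * (u * t * u⁻¹) * (t⁻¹ * b⁻¹) := by rw [hbt.inv_inv.eq]
        _ = _ := by group
    rw [e]
    exact (mem_normalizer_iff.mp (s.PY (s.PQ_le' (Subgroup.mem_inf.mp hb).2)) _).mp hut

end AmJ

end H54.Amal
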