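import Cfsg.Agent.Lib.H54.Amal2

set_option autoImplicit false
set_option linter.dupNamespace false
set_option linter.unusedSectionVars false
set_option maxHeartbeats 400000

/-!
The `(S_3, S_3)`-amalgam: distance two.
-/

namespace H54.Amal

open Subgroup H52.Syl H54.MaxEA H54.JTh
open scoped commutatorElement

universe u

variable {G : Type u} [Group G]

theorem sq_of_invol {a b : G} (ha : a * a = 1) (hb : b * b = 1) : (a * b) * (a * b) = ⁅a, b⁆ := by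
  rw [commutatorElement_def, inv_eq_of_mul_eq_one_left ha, inv_eq_of_mul_eq_one_left hb]; group

theorem conj_sq (g : G) {w : G} (hw : w * w = 1) : (g * w * g⁻¹) * (g * w * g⁻¹) = 1 := by
  calc (g * w * g⁻¹) * (g * w * g⁻¹) = g * (w * w) * g⁻¹ := by group
    _ = 1 := by rw [hw]; group

namespace Am

variable {T Z : Subgroup G} {P Q Y : Bool → Subgroup G} {r : Bool → G}

/-- consequence of a non-commuting pair of conjugates of `Y (!i)` under `P i` -/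
theorem nonab (h : Am T Z P Q Y r) (h2 : ∀ i, Y i ≤ Q (!i)) {i : Bool} {g w w₀ : G}
    (hg : g ∈ P i) (hw : w ∈ Y (!i)) (hw₀ : w₀ ∈ Y (!i)) (hne : ¬ Commute w (g * w₀ * g⁻¹)) :
    g ∉ T ∧ w₀ ∉ Z ∧ ∀ x ∈ P i, x ∉ T → ∀ w₁ ∈ Y (!i), w₁ ∉ Z → x * w₁ * x⁻¹ ∉ Q (!i) := by
  have s := h.side i
  have s' := h.side (!i)
  have h2i : Y (!i) ≤ Q i := h2' h2 i
  have hgT : g ∉ T := by
    intro hgT
    apply hne
    have h6 : g * w₀ * g⁻¹ ∈ Y (!i) := (mem_normalizer_iff.mp (s'.PY (s'.TP hgT)) w₀).mp hw₀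
    exact (commute_of_mem_centralizer (s'.Yab h6) hw).symm
  have hzQ : ∀ z ∈ Z, g * z * g⁻¹ ∈ Q (!i) := by
    intro z hz
    exact h2 i ((mem_normalizer_iff.mp (s.PY hg) z).mp (s.ZY hz))
  have hgQ : g * w₀ * g⁻¹ ∉ Q (!i) := by
    intro hcon
    apply hne
    exact (commute_of_mem_centralizer (s'.QY hcon) hw).symm
  have hw₀Z : w₀ ∉ Z := fun hcon => hgQ (hzQ w₀ hcon)
  refine ⟨hgT, hw₀Z, ?_⟩
  have key : ∀ w₁ ∈ Y (!i), w₁ ∉ Z → g * w₁ * g⁻¹ ∉ Q (!i) := by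
    intro w₁ hw₁ hw₁Z hcon
    have h1 := s'.zidx w₁ hw₁ w₀ hw₀ hw₁Z hw₀Z
    have h3 := hzQ _ h1
    have e : g * (w₁ * w₀) * g⁻¹ = (g * w₁ * g⁻¹) * (g * w₀ * g⁻¹) := by group
    rw [e, (Q (!i)).mul_mem_cancel_left hcon] at h3
    exact hgQ h3
  intro x hx hxT w₁ hw₁ hw₁Z hcon
  obtain ⟨t₁, ht₁, t₂, ht₂, he⟩ := s.dc g hg x hx hgT hxT
  have h3 : t₂ * w₁ * t₂⁻¹ ∈ Y (!i) := (mem_normalizer_iff.mp (s'.PY (s'.TP ht₂)) w₁).mp hw₁
  have h4 : t₂ * w₁ * t₂⁻¹ ∉ Z := by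
    intro h5
    apply hw₁Z
    have h6 : Commute t₂ (t₂ * w₁ * t₂⁻¹) := commute_of_mem_centralizer (s.ZT ht₂) h5
    have e : w₁ = t₂ * w₁ * t₂⁻¹ := by
      have h7 : t₂ * (t₂ * w₁ * t₂⁻¹) = t₂ * w₁ := by rw [h6.eq]; group
      exact (mul_left_cancel h7).symm
    rw [e]; exact h5
  apply key _ h3 h4
  have h5 : x * w₁ * x⁻¹ = t₁ * (g * (t₂ * w₁ * t₂⁻¹) * g⁻¹) * t₁⁻¹ := by rw [he]; group
  rw [h5] at hcon
  have h6 := (mem_normalizer_iff.mp (inv_mem_normalizer (s'.PQ (s'.TP ht₁))) _).mp hcon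
  have e : t₁⁻¹ * (t₁ * (g * (t₂ * w₁ * t₂⁻¹) * g⁻¹) * t₁⁻¹) * t₁⁻¹⁻¹ =
    g * (t₂ * w₁ * t₂⁻¹) * g⁻¹ := by group
  rwa [e] at h6

/-- the commutator of `y^x` and `y` -/
theorem nonab_comm (h : Am T Z P Q Y r) (h2 : ∀ i, Y i ≤ Q (!i))
    (hstar : ∀ i, P i ≤ centralizer ({r (!i)} : Set G)) {i : Bool} {g w w₀ x : G}
    (hg : g ∈ P i) (hw : w ∈ Y (!i)) (hw₀ : w₀ ∈ Y (!i)) (hne : ¬ Commute w (g * w₀ * g⁻¹))
    (hx : x ∈ T) (hxQ : x ∉ Q i) :
    ⁅x * (g * w₀ * g⁻¹) * x⁻¹, g * w₀ * g⁻¹⁆ = r (!i) := by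
  have s := h.side i
  have s' := h.side (!i)
  have h2i : Y (!i) ≤ Q i := h2' h2 i
  obtain ⟨hgT, hw₀Z, hall⟩ := h.nonab h2 hg hw hw₀ hne
  set k := g⁻¹ * x * g with hk
  have hkP : k ∈ P i := (P i).mul_mem ((P i).mul_mem ((P i).inv_mem hg) (s.TP hx)) hg
  have hkT : k ∉ T := fun hcon => hxQ (s.nT g hg hgT x hx hcon)
  have h3 := hall k hkP hkT w₀ hw₀ hw₀Z
  have h4 : k * w₀ * k⁻¹ ∈ T :=
    s.QT ((mem_normalizer_iff.mp (s.PQ hkP) w₀).mp (h2i hw₀))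
  have h5 := s'.rc w₀ hw₀ _ h4 hw₀Z h3
  have e : ⁅x * (g * w₀ * g⁻¹) * x⁻¹, g * w₀ * g⁻¹⁆ = g * ⁅w₀, k * w₀ * k⁻¹⁆⁻¹ * g⁻¹ := by
    rw [hk]; simp only [commutatorElement_def]; group
  have hgr : g * r (!i) = r (!i) * g := le_centralizer_singleton_iff.mp (hstar i) g hg
  have hri : (r (!i))⁻¹ = r (!i) := inv_eq_of_mul_eq_one_left s'.rsq
  rw [e, h5, hri, hgr]; group

end Am

namespace AmJ

variable {T Z : Subgroup G} {P Q Y : Bool → Subgroup G} {r : Bool → G}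

theorem r_ne [Finite G] (h : AmJ T Z P Q Y r) (h2 : ∀ i, Y i ≤ Q (!i)) (i : Bool) :
    r i ≠ r (!i) := by
  intro he
  apply (h.side i).rP
  rw [he]; exact h.star h2 i

/-- conjugates of `Y (!i)` under `P i` commute -/
theorem abel [Finite G] (h : AmJ T Z P Q Y r) (h2 : ∀ i, Y i ≤ Q (!i)) (i : Bool) :
    ∀ g ∈ P i, ∀ w ∈ Y (!i), ∀ w₀ ∈ Y (!i), Commute w (g * w₀ * g⁻¹) := by
  intro g hg w hw w₀ hw₀
  by_contra hne
  have s := h.side i
  have s' := h.side (!i)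
  have hstar := h.star h2
  have h2i : Y (!i) ≤ Q i := Am.h2' h2 i
  obtain ⟨hgT, hw₀Z, -⟩ := h.nonab h2 hg hw hw₀ hne
  have hyQi : g * w₀ * g⁻¹ ∈ Q i := (mem_normalizer_iff.mp (s.PQ hg) w₀).mp (h2i hw₀)
  have hyQ' : g * w₀ * g⁻¹ ∉ Q (!i) := by
    intro hcon
    exact hne (commute_of_mem_centralizer (s'.QY hcon) hw).symm
  have hyT : g * w₀ * g⁻¹ ∈ T := s.QT hyQi
  have hysq : (g * w₀ * g⁻¹) * (g * w₀ * g⁻¹) = 1 := conj_sq g (s'.Ysq w₀ hw₀)
  by_cases hab : ∀ g' ∈ P (!i), ∀ z ∈ Y i, ∀ z₀ ∈ Y i, Commute z (g' * z₀ * g'⁻¹)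
  · -- the other side is abelian
    set V := cl (P (!i)) (Y i) with hV
    have hVQ' : V ≤ Q (!i) := cl_le (fun g' hg' z hz =>
      (mem_normalizer_iff.mp (s'.PQ hg') z).mp (h2 i hz))
    have hVQ : V ≤ Q i := by
      apply cl_le
      intro g' hg' z hz
      refine s.CY (Subgroup.mem_inf.mpr ⟨s'.QT (hVQ' (conj_mem_cl hg' hz)), ?_⟩)
      rw [mem_centralizer_iff]
      intro z' hz'
      exact (hab g' hg' z' hz' z hz).eq
    have hcomm : ∀ v ∈ Q i, ⁅v, g * w₀ * g⁻¹⁆ ∈ Y (!i) := by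
      intro v hv
      have h3 : g⁻¹ * v * g ∈ T := by
        apply s.QT
        have := (mem_normalizer_iff.mp (inv_mem_normalizer (s.PQ hg)) v).mp hv
        simpa using this
      have e : ⁅v, g * w₀ * g⁻¹⁆ = g * ⁅w₀, g⁻¹ * v * g⁆⁻¹ * g⁻¹ := by
        simp only [commutatorElement_def]; group
      rw [e]
      have hgr : g * r (!i) = r (!i) * g := le_centralizer_singleton_iff.mp (hstar i) g hg
      have hri : (r (!i))⁻¹ = r (!i) := inv_eq_of_mul_eq_one_left s'.rsq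
      rcases s'.comm_or hw₀ h3 with h4 | h4
      · rw [h4]
        have : g * (1 : G)⁻¹ * g⁻¹ = 1 := by group
        rw [this]; exact one_mem _
      · rw [h4, hri, hgr]
        have : r (!i) * g * g⁻¹ = r (!i) := by group
        rw [this]; exact s'.rY
    have hnn : Y (!!i) = Y i := by rw [Bool.not_not]
    have hn : P (!i) ≤ normalizer ((Y (!i) ⊔ Y i : Subgroup G) : Set G) := by
      have := h.norm (!i) (s'.TP hyT) hyQ' (V := V) (le_norm_cl _ _)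
        (by rw [hnn]; exact le_cl _ _) (fun v hv => hcomm v (hVQ hv))
      rwa [hnn] at this
    -- D = Q i ⊓ Q (!i) is normal in P (!i)
    set D := Q (!i) ⊓ centralizer ((Y (!i) ⊔ Y i : Subgroup G) : Set G) with hD
    have hDn : P (!i) ≤ normalizer (D : Set G) :=
      H1.Coprime2.le_normalizer_inf s'.PQ
        (hn.trans (H13.Replace.normalizer_le_normalizer_centralizer _))
    have hDQ : D ≤ Q i := by
      intro d hd
      obtain ⟨hd1, hd2⟩ := Subgroup.mem_inf.mp hd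
      refine s.CY (Subgroup.mem_inf.mpr ⟨s'.QT hd1, ?_⟩)
      exact centralizer_le (fun _ h => (le_sup_right : Y i ≤ Y (!i) ⊔ Y i) h) hd2
    have hQD : Q i ⊓ Q (!i) ≤ D := by
      refine le_inf inf_le_right ?_
      rw [H13.Replace.centralizer_sup]
      exact le_inf (inf_le_right.trans s'.QY) (inf_le_left.trans s.QY)
    set X := P (!i) ⊓ H13.Quad.actTriv D (Y (!i)) with hX
    have hXn : P (!i) ≤ normalizer (X : Set G) :=
      H1.Coprime2.le_normalizer_inf Subgroup.le_normalizer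
        (H13.Quad.le_normalizer_actTriv hDn s'.PY)
    have hyX : g * w₀ * g⁻¹ ∈ X := Subgroup.mem_inf.mpr ⟨s'.TP hyT,
      H13.Quad.mem_actTriv.mpr ⟨hDn (s'.TP hyT), s'.PY (s'.TP hyT),
        fun d hd => hcomm d (hDQ hd)⟩⟩
    obtain ⟨p, hpX, hpT⟩ := s'.not_of_normal inf_le_left hXn hyX hyQ'
    obtain ⟨hpP, hpA⟩ := Subgroup.mem_inf.mp hpX
    have hpA' := (H13.Quad.mem_actTriv.mp hpA).2.2
    -- the element d
    obtain ⟨t, ht, htQ⟩ := Set.not_subset.mp (h.Q_not_le (!i))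
    rw [Bool.not_not] at htQ
    have htT : t ∈ T := s'.QT ht
    set y := g * w₀ * g⁻¹ with hy
    set y' := t * y * t⁻¹ with hy'
    have hyy : ⁅y', y⁆ = r (!i) := h.nonab_comm h2 hstar hg hw hw₀ hne htT htQ
    have hy'sq : y' * y' = 1 := conj_sq t hysq
    have hd2 : (y' * y) * (y' * y) = r (!i) := by rw [sq_of_invol hy'sq hysq, hyy]
    have hdi : y' * y ∈ Q i :=
      (Q i).mul_mem ((mem_normalizer_iff.mp (s.PQ (s.TP htT)) y).mp hyQi) hyQi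
    have hdi' : y' * y ∈ Q (!i) := by
      have e : y' * y = t * (y * t⁻¹ * y⁻¹) := by
        rw [inv_eq_of_mul_eq_one_left hysq, hy']; group
      rw [e]
      exact (Q (!i)).mul_mem ht
        ((mem_normalizer_iff.mp (s'.PQ (s'.TP hyT)) _).mp ((Q (!i)).inv_mem ht))
    have hdD : y' * y ∈ D := hQD (Subgroup.mem_inf.mpr ⟨hdi, hdi'⟩)
    have h5 := hpA' _ hdD
    apply s'.rP
    apply s'.le_cent_of hpP hpT
    · intro t ht; exact s'.Tr ht
    · set d := y' * y with hd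
      have hz : p * d * p⁻¹ = ⁅d, p⁆⁻¹ * d := by rw [commutatorElement_def]; group
      have hz' : (⁅d, p⁆⁻¹ : G) ∈ Y (!i) := inv_mem h5
      have hcz : Commute d (⁅d, p⁆⁻¹) := commute_of_mem_centralizer (s'.QY hdi') hz'
      have h6 : (p * d * p⁻¹) * (p * d * p⁻¹) = r (!i) := by
        rw [hz]
        calc ⁅d, p⁆⁻¹ * d * (⁅d, p⁆⁻¹ * d) = ⁅d, p⁆⁻¹ * (d * ⁅d, p⁆⁻¹) * d := by group
          _ = ⁅d, p⁆⁻¹ * (⁅d, p⁆⁻¹ * d) * d := by rw [hcz.eq]
          _ = (⁅d, p⁆⁻¹ * ⁅d, p⁆⁻¹) * (d * d) := by group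
          _ = r (!i) := by rw [s'.Ysq _ hz', hd2, one_mul]
      have h7 : (p * d * p⁻¹) * (p * d * p⁻¹) = p * r (!i) * p⁻¹ := by
        rw [← hd2]; group
      rw [h7] at h6
      calc p * r (!i) = p * r (!i) * p⁻¹ * p := by group
        _ = r (!i) * p := by rw [h6]
  · -- both sides nonabelian
    push Not at hab
    obtain ⟨g', hg', z, hz, z₀, hz₀, hne'⟩ := hab
    have hnn : Y (!!i) = Y i := by rw [Bool.not_not]
    have hnnr : r (!!i) = r i := by rw [Bool.not_not]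
    have hxQ' : g' * z₀ * g'⁻¹ ∈ Q (!i) := (mem_normalizer_iff.mp (s'.PQ hg') z₀).mp (h2 i hz₀)
    have hxQi : g' * z₀ * g'⁻¹ ∉ Q i := by
      intro hcon
      exact hne' (commute_of_mem_centralizer (s.QY hcon) hz).symm
    have hxT : g' * z₀ * g'⁻¹ ∈ T := s'.QT hxQ'
    have hxsq : (g' * z₀ * g'⁻¹) * (g' * z₀ * g'⁻¹) = 1 := conj_sq g' (s.Ysq z₀ hz₀)
    have e1 := h.nonab_comm h2 hstar hg hw hw₀ hne hxT hxQi
    have e2 := h.nonab_comm (i := !i) h2 hstar hg' (by rw [hnn]; exact hz)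
      (by rw [hnn]; exact hz₀) hne' hyT hyQ'
    rw [hnnr] at e2
    set y := g * w₀ * g⁻¹ with hy
    set x := g' * z₀ * g'⁻¹ with hx
    have hxi : x⁻¹ = x := inv_eq_of_mul_eq_one_left hxsq
    have hyi : y⁻¹ = y := inv_eq_of_mul_eq_one_left hysq
    have k1 : (x * y * x⁻¹) * y * ((x * y * x⁻¹) * y) = r (!i) := by
      rw [sq_of_invol (conj_sq x hysq) hysq, e1]
    have k2 : (y * x * y⁻¹) * x * ((y * x * y⁻¹) * x) = r i := by
      rw [sq_of_invol (conj_sq y hxsq) hxsq, e2]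
    rw [hxi] at k1
    rw [hyi] at k2
    -- (xyxy)^2 = r (!i), (yxyx)^2 = r i
    have k3 : (x * y * x * y) * (y * x * y * x) = 1 := by
      calc (x * y * x * y) * (y * x * y * x) = x * y * x * (y * y) * x * y * x := by group
        _ = x * y * (x * x) * y * x := by rw [hysq]; group
        _ = x * (y * y) * x := by rw [hxsq]; group
        _ = x * x := by rw [hysq]; group
        _ = 1 := hxsq
    have k4 : r (!i) * r i = 1 := by
      rw [← k1, ← k2]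
      calc (x * y * x * y * (x * y * x * y)) * (y * x * y * x * (y * x * y * x))
          = (x * y * x * y) * ((x * y * x * y) * (y * x * y * x)) * (y * x * y * x) := by group
        _ = 1 := by rw [k3, mul_one, k3]
    apply h.r_ne h2 i
    have h8 : r (!i) = (r i)⁻¹ := eq_inv_of_mul_eq_one_left k4
    rw [h8]
    exact (inv_eq_of_mul_eq_one_left s.rsq).symm

end AmJ

end H54.Amal
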