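import Cfsg.Agent.Lib.H54.Amal3

set_option autoImplicit false
set_option linter.dupNamespace false
set_option linter.unusedSectionVars false
set_option maxHeartbeats 400000

/-!
The `(S_3, S_3)`-amalgam: the coset graph.
-/

namespace H54.Amal

open Subgroup H52.Syl H54.MaxEA H54.JTh
open scoped commutatorElement

universe u

variable {G : Type u} [Group G]

theorem cj_le_normalizer {k : G} {A B : Subgroup G} (h : A ≤ normalizer (B : Set G)) :
    cj k A ≤ normalizer ((cj k B : Subgroup G) : Set G) := by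
  rw [← cj_normalizer]; exact cj_mono h

theorem cj_le_centralizer {k : G} {A B : Subgroup G} (h : A ≤ centralizer (B : Set G)) :
    cj k A ≤ centralizer ((cj k B : Subgroup G) : Set G) := by
  rw [← cj_centralizer]; exact cj_mono h

theorem conj_mul' (k x y : G) : k⁻¹ * x * k * (k⁻¹ * y * k) = k⁻¹ * (x * y) * k := by group

theorem cj_cent_singleton {k c : G} {A : Subgroup G} :
    cj k A ≤ centralizer ({k * c * k⁻¹} : Set G) ↔ A ≤ centralizer ({c} : Set G) := by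
  rw [le_centralizer_singleton_iff, le_centralizer_singleton_iff]
  constructor
  · intro h a ha
    have h1 := h (k * a * k⁻¹) (conj_mem_cj ha)
    calc a * c = k⁻¹ * (k * a * k⁻¹ * (k * c * k⁻¹)) * k := by group
      _ = k⁻¹ * ((k * c * k⁻¹) * (k * a * k⁻¹)) * k := by rw [h1]
      _ = c * a := by group
  · intro h a ha
    have h1 := h _ (mem_cj.mp ha)
    calc a * (k * c * k⁻¹) = k * ((k⁻¹ * a * k) * c) * k⁻¹ := by group
      _ = k * (c * (k⁻¹ * a * k)) * k⁻¹ := by rw [h1]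
      _ = _ := by group

theorem Side.cj {T Z P Q Y : Subgroup G} {r : G} (s : Side T Z P Q Y r) (k : G) :
    Side (cj k T) (cj k Z) (H52.Syl.cj k P) (H52.Syl.cj k Q) (H52.Syl.cj k Y) (k * r * k⁻¹) where
  TP := cj_mono s.TP
  QT := cj_mono s.QT
  PQ := cj_le_normalizer s.PQ
  two := by
    intro x hx y hy hxQ hyQ
    rw [mem_cj] at *
    rw [← conj_mul']
    exact s.two _ hx _ hy hxQ hyQ
  ne := by
    obtain ⟨t, ht, htQ⟩ := s.ne
    refine ⟨k * t * k⁻¹, conj_mem_cj ht, ?_⟩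
    rw [mem_cj]
    have : k⁻¹ * (k * t * k⁻¹) * k = t := by group
    rwa [this]
  max := by
    intro x hx hxT X hX hxX
    rw [mem_cj] at hx hxT
    rw [cj_le_iff]
    apply s.max _ hx hxT
    · rw [← cj_le_iff]; exact hX
    · rw [mem_cj]
      have : k⁻¹⁻¹ * (k⁻¹ * x * k) * k⁻¹ = x := by group
      rwa [this]
  neT := by
    obtain ⟨t, ht, htQ⟩ := s.neT
    refine ⟨k * t * k⁻¹, conj_mem_cj ht, ?_⟩
    rw [mem_cj]
    have : k⁻¹ * (k * t * k⁻¹) * k = t := by group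
    rwa [this]
  nT := by
    intro x hx hxT y hy h
    rw [mem_cj] at *
    apply s.nT _ hx hxT _ hy
    have : (k⁻¹ * x * k)⁻¹ * (k⁻¹ * y * k) * (k⁻¹ * x * k) = k⁻¹ * (x⁻¹ * y * x) * k := by group
    rwa [this]
  dc := by
    intro x hx y hy hxT hyT
    rw [mem_cj] at hx hy hxT hyT
    obtain ⟨t₁, ht₁, t₂, ht₂, he⟩ := s.dc _ hx _ hy hxT hyT
    refine ⟨k * t₁ * k⁻¹, conj_mem_cj ht₁, k * t₂ * k⁻¹, conj_mem_cj ht₂, ?_⟩
    calc y = k * (k⁻¹ * y * k) * k⁻¹ := by group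
      _ = k * (t₁ * (k⁻¹ * x * k) * t₂) * k⁻¹ := by rw [he]
      _ = _ := by group
  PY := cj_le_normalizer s.PY
  YQ := cj_mono s.YQ
  Ysq := by
    intro y hy
    rw [mem_cj] at hy
    have h1 := s.Ysq _ hy
    calc y * y = k * ((k⁻¹ * y * k) * (k⁻¹ * y * k)) * k⁻¹ := by group
      _ = 1 := by rw [h1]; group
  QY := cj_le_centralizer s.QY
  CY := by
    rw [← cj_centralizer, ← cj_inf]; exact cj_mono s.CY
  ZY := cj_mono s.ZY
  ZT := cj_le_centralizer s.ZT
  zidx := by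
    intro x hx y hy hxZ hyZ
    rw [mem_cj] at *
    rw [← conj_mul']
    exact s.zidx _ hx _ hy hxZ hyZ
  Yne := by
    obtain ⟨t, ht, htQ⟩ := s.Yne
    refine ⟨k * t * k⁻¹, conj_mem_cj ht, ?_⟩
    rw [mem_cj]
    have : k⁻¹ * (k * t * k⁻¹) * k = t := by group
    rwa [this]
  rZ := conj_mem_cj s.rZ
  r1 := by
    intro h
    apply s.r1
    calc r = k⁻¹ * (k * r * k⁻¹) * k := by group
      _ = 1 := by rw [h]; group
  rc := by
    intro y hy t ht hyZ htQ
    rw [mem_cj] at hy ht hyZ htQ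
    have h1 := s.rc _ hy _ ht hyZ htQ
    rw [← h1]
    simp only [commutatorElement_def]; group
  rP := by
    rw [cj_cent_singleton]; exact s.rP

namespace Am

variable {T Z : Subgroup G} {P Q Y : Bool → Subgroup G} {r : Bool → G}

theorem inf_eq (h : Am T Z P Q Y r) (i : Bool) : P i ⊓ P (!i) = T := by
  apply le_antisymm _ (le_inf (h.side i).TP (h.side (!i)).TP)
  intro x hx
  obtain ⟨hx1, hx2⟩ := Subgroup.mem_inf.mp hx
  by_contra hxT
  have h1 := (h.side i).max x hx1 hxT (P (!i)) (h.side (!i)).TP hx2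
  have hb := h.core' i (X := Q (!i)) (h.side (!i)).QT (h1.trans (h.side (!i)).PQ) (h.side (!i)).PQ
  apply (h.side (!i)).r1
  have h3 := (h.side (!i)).YQ (h.side (!i)).rY
  rwa [hb, mem_bot] at h3

end Am

/-- objects attached to vertices -/
def vv (F : Bool → Subgroup G) (v : Bool × G) : Subgroup G := cj v.2 (F v.1)

/-- adjacency -/
def Adj (P : Bool → Subgroup G) (v w : Bool × G) : Prop :=
  w.1 = !v.1 ∧ ∃ k, v.2⁻¹ * k ∈ P v.1 ∧ w.2⁻¹ * k ∈ P w.1

theorem Adj.symm {P : Bool → Subgroup G} {v w : Bool × G} (h : Adj P v w) : Adj P w v := by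
  obtain ⟨h1, k, hk1, hk2⟩ := h
  refine ⟨?_, k, hk2, hk1⟩
  rw [h1, Bool.not_not]

/-- translate -/
def tr (x : G) (v : Bool × G) : Bool × G := (v.1, x * v.2)

theorem vv_tr (F : Bool → Subgroup G) (x : G) (v : Bool × G) : vv F (tr x v) = cj x (vv F v) := by
  rw [vv, vv, tr, cj_cj]

theorem Adj.tr {P : Bool → Subgroup G} {v w : Bool × G} (h : Adj P v w) (x : G) :
    Adj P (tr x v) (Amal.tr x w) := by
  obtain ⟨h1, k, hk1, hk2⟩ := h
  refine ⟨h1, x * k, ?_, ?_⟩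
  · have : (x * v.2)⁻¹ * (x * k) = v.2⁻¹ * k := by group
    show (x * v.2)⁻¹ * (x * k) ∈ P v.1
    rw [this]; exact hk1
  · have : (x * w.2)⁻¹ * (x * k) = w.2⁻¹ * k := by group
    show (x * w.2)⁻¹ * (x * k) ∈ P w.1
    rw [this]; exact hk2

theorem Adj.tr_right {P : Bool → Subgroup G} {v w : Bool × G} (h : Adj P v w) {x : G}
    (hx : x ∈ vv P v) : Adj P v (Amal.tr x w) := by
  obtain ⟨h1, k, hk1, hk2⟩ := h
  refine ⟨h1, x * k, ?_, ?_⟩
  · rw [vv, mem_cj] at hx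
    have : v.2⁻¹ * (x * k) = (v.2⁻¹ * x * v.2) * (v.2⁻¹ * k) := by group
    rw [this]; exact (P v.1).mul_mem hx hk1
  · have : (x * w.2)⁻¹ * (x * k) = w.2⁻¹ * k := by group
    show (x * w.2)⁻¹ * (x * k) ∈ P w.1
    rw [this]; exact hk2

theorem cj_eq_of {H F : Subgroup G} (hHF : H ≤ normalizer (F : Set G)) {g k : G}
    (h : g⁻¹ * k ∈ H) : cj g F = cj k F := by
  have h1 := cj_eq_of_mem_normalizer (hHF h)
  conv_lhs => rw [← h1]
  rw [cj_cj]; congr 1; group

theorem conj_eq_of {H : Subgroup G} {c : G} (hHc : H ≤ centralizer ({c} : Set G)) {g k : G}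
    (h : g⁻¹ * k ∈ H) : g * c * g⁻¹ = k * c * k⁻¹ := by
  have h1 := le_centralizer_singleton_iff.mp hHc _ h
  calc g * c * g⁻¹ = g * (c * (g⁻¹ * k)) * k⁻¹ := by group
    _ = g * ((g⁻¹ * k) * c) * k⁻¹ := by rw [h1]
    _ = _ := by group

/-- data of an edge -/
structure Edge (P Q Y : Bool → Subgroup G) (c : Bool × G → G) (v w : Bool × G) : Prop where
  sides : ∃ Z', Side (vv P v ⊓ vv P w) Z' (vv P v) (vv Q v) (vv Y v) (c w) ∧
    Side (vv P v ⊓ vv P w) Z' (vv P w) (vv Q w) (vv Y w) (c v)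
  yq : vv Y v ≤ vv Q w
  yq' : vv Y w ≤ vv Q v
  cc : vv P v ≤ centralizer ({c v} : Set G)
  cc' : vv P w ≤ centralizer ({c w} : Set G)
  core : ∀ X : Subgroup G, X ≤ vv P v ⊓ vv P w → vv P v ≤ normalizer (X : Set G) →
    vv P w ≤ normalizer (X : Set G) → X = ⊥
  nn : vv P v ≤ normalizer ((vv Y v ⊔ vv Y w : Subgroup G) : Set G) ↔
    P v.1 ≤ normalizer ((Y v.1 ⊔ Y (!v.1) : Subgroup G) : Set G)

/-- hypotheses for the graph argument -/
structure Gr (T Z : Subgroup G) (P Q Y : Bool → Subgroup G) (r : Bool → G) : Prop where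
  am : Am T Z P Q Y r
  h2 : ∀ i, Y i ≤ Q (!i)
  star : ∀ i, P i ≤ centralizer ({r (!i)} : Set G)
  abel : ∀ i, ∀ g ∈ P i, ∀ w ∈ Y (!i), ∀ w₀ ∈ Y (!i), Commute w (g * w₀ * g⁻¹)

namespace Gr

variable {T Z : Subgroup G} {P Q Y : Bool → Subgroup G} {r : Bool → G}

/-- the central involution at a vertex -/
def cc (r : Bool → G) (v : Bool × G) : G := v.2 * r (!v.1) * v.2⁻¹

theorem edge (h : Gr T Z P Q Y r) {v w : Bool × G} (ha : Adj P v w) :
    Edge P Q Y (cc r) v w := by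
  obtain ⟨h1, k, hk1, hk2⟩ := ha
  obtain ⟨i, g⟩ := v
  obtain ⟨j, g'⟩ := w
  simp only at h1 hk1 hk2
  subst h1
  have s := h.am.side i
  have s' := h.am.side (!i)
  have e1 : vv P (i, g) = cj k (P i) := cj_eq_of Subgroup.le_normalizer hk1
  have e2 : vv Q (i, g) = cj k (Q i) := cj_eq_of s.PQ hk1
  have e3 : vv Y (i, g) = cj k (Y i) := cj_eq_of s.PY hk1
  have e1' : vv P (!i, g') = cj k (P (!i)) := cj_eq_of Subgroup.le_normalizer hk2
  have e2' : vv Q (!i, g') = cj k (Q (!i)) := cj_eq_of s'.PQ hk2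
  have e3' : vv Y (!i, g') = cj k (Y (!i)) := cj_eq_of s'.PY hk2
  have ec : cc r (i, g) = k * r (!i) * k⁻¹ := conj_eq_of (h.star i) hk1
  have ec' : cc r (!i, g') = k * r i * k⁻¹ := by
    have := conj_eq_of (h.star (!i)) hk2
    rw [Bool.not_not] at this
    simp only [cc, Bool.not_not]
    exact this
  have hT : vv P (i, g) ⊓ vv P (!i, g') = cj k T := by
    rw [e1, e1', ← cj_inf, h.am.inf_eq]
  constructor
  · refine ⟨cj k Z, ?_, ?_⟩
    · rw [hT, e1, e2, e3, ec']; exact s.cj k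
    · rw [hT, e1', e2', e3', ec]; exact s'.cj k
  · rw [e3, e2']; exact cj_mono (h.h2 i)
  · rw [e3', e2]; exact cj_mono (Am.h2' h.h2 i)
  · rw [e1, ec, cj_cent_singleton]; exact h.star i
  · rw [e1', ec', cj_cent_singleton]
    have := h.star (!i)
    rwa [Bool.not_not] at this
  · intro X hX hX1 hX2
    rw [hT, ← inv_inv k, ← cj_le_iff] at hX
    have h3 := h.am.core' i (X := cj k⁻¹ X) hX
      (by
        rw [e1, ← inv_inv k, cj_le_iff, inv_inv] at hX1
        rw [← cj_normalizer]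
        simpa using hX1)
      (by
        rw [e1', ← inv_inv k, cj_le_iff, inv_inv] at hX2
        rw [← cj_normalizer]
        simpa using hX2)
    have h4 : X = cj k ⊥ := by rw [← h3, cj_cj_inv]
    rw [h4]
    exact Subgroup.map_bot _
  · show vv P (i, g) ≤ normalizer ((vv Y (i, g) ⊔ vv Y (!i, g') : Subgroup G) : Set G) ↔
      P i ≤ normalizer ((Y i ⊔ Y (!i) : Subgroup G) : Set G)
    rw [e1, e3, e3', ← cj_sup, ← cj_normalizer, cj_le_cj_iff]

theorem nbr_conj (h : Gr T Z P Q Y r) {u v w : Bool × G} (h1 : Adj P u v) (h2 : Adj P u w) :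
    ∃ p ∈ vv P u, vv Y v = cj p (vv Y w) ∧ vv Q v = cj p (vv Q w) := by
  obtain ⟨a1, k, hk1, hk2⟩ := h1
  obtain ⟨b1, l, hl1, hl2⟩ := h2
  have s' := h.am.side v.1
  have hvw : v.1 = w.1 := by rw [a1, b1]
  refine ⟨k * l⁻¹, ?_, ?_, ?_⟩
  · rw [vv, mem_cj]
    have : u.2⁻¹ * (k * l⁻¹) * u.2 = (u.2⁻¹ * k) * (u.2⁻¹ * l)⁻¹ := by group
    rw [this]
    exact (P u.1).mul_mem hk1 ((P u.1).inv_mem hl1)
  · rw [vv, vv, cj_eq_of s'.PY hk2, ← hvw, cj_eq_of s'.PY (g := w.2) (k := l)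
      (by rw [hvw]; exact hl2), cj_cj]
    congr 1; group
  · rw [vv, vv, cj_eq_of s'.PQ hk2, ← hvw, cj_eq_of s'.PQ (g := w.2) (k := l)
      (by rw [hvw]; exact hl2), cj_cj]
    congr 1; group

end Gr

/-- walks -/
def W (P : Bool → Subgroup G) : ℕ → Bool × G → Bool × G → Prop
  | 0, v, w => v = w
  | n + 1, v, w => ∃ u, Adj P v u ∧ W P n u w

namespace W

variable {P : Bool → Subgroup G}

theorem snoc {n : ℕ} : ∀ {v u w : Bool × G}, W P n v u → Adj P u w → W P (n + 1) v w := by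
  induction n with
  | zero =>
    intro v u w h1 h2
    change v = u at h1
    subst h1
    exact ⟨w, h2, rfl⟩
  | succ n ih =>
    intro v u w h1 h2
    obtain ⟨x, hx, h3⟩ := h1
    exact ⟨x, hx, ih h3 h2⟩

theorem symm {n : ℕ} : ∀ {v w : Bool × G}, W P n v w → W P n w v := by
  induction n with
  | zero => intro v w h; exact Eq.symm h
  | succ n ih =>
    intro v w h
    obtain ⟨x, hx, h3⟩ := h
    exact snoc (ih h3) hx.symm

theorem unsnoc {n : ℕ} {v w : Bool × G} (h : W P (n + 1) v w) : ∃ u, W P n v u ∧ Adj P u w := by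
  obtain ⟨u, hu, h1⟩ := symm h
  exact ⟨u, symm h1, hu.symm⟩

theorem trans {n m : ℕ} : ∀ {v u w : Bool × G}, W P n v u → W P m u w → W P (n + m) v w := by
  induction n with
  | zero =>
    intro v u w h1 h2
    change v = u at h1
    subst h1
    rwa [Nat.zero_add]
  | succ n ih =>
    intro v u w h1 h2
    obtain ⟨x, hx, h3⟩ := h1
    rw [Nat.add_right_comm]
    exact ⟨x, hx, ih h3 h2⟩

theorem tr {n : ℕ} (x : G) : ∀ {v w : Bool × G}, W P n v w → W P n (tr x v) (Amal.tr x w) := by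
  induction n with
  | zero =>
    intro v w h
    change v = w at h
    subst h; rfl
  | succ n ih =>
    intro v w h
    obtain ⟨y, hy, h3⟩ := h
    exact ⟨Amal.tr x y, hy.tr x, ih h3⟩

end W

end H54.Amal
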