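import Cfsg.Agent.Lib.H54.Amal4

set_option autoImplicit false
set_option linter.dupNamespace false
set_option linter.unusedSectionVars false
set_option maxHeartbeats 400000

/-!
The `(S_3, S_3)`-amalgam: the coset graph argument.
-/

namespace H54.Amal

open Subgroup H52.Syl H54.MaxEA H54.JTh
open scoped commutatorElement

universe u

variable {G : Type u} [Group G]

namespace Gr

variable {T Z : Subgroup G} {P Q Y : Bool → Subgroup G} {r : Bool → G}

theorem Q_le_P (h : Gr T Z P Q Y r) {u w : Bool × G} (ha : Adj P u w) : vv Q u ≤ vv P w := by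
  obtain ⟨Z', s, s'⟩ := (h.edge ha).sides
  exact s.QT.trans inf_le_right

theorem mem_Q_of (h : Gr T Z P Q Y r) {u w : Bool × G} (ha : Adj P u w) {x : G}
    (hx : x ∈ vv Q u) (hc : x ∈ centralizer ((vv Y w : Subgroup G) : Set G)) : x ∈ vv Q w := by
  obtain ⟨Z', s, s'⟩ := (h.edge ha).sides
  exact s'.CY (Subgroup.mem_inf.mpr ⟨s.QT hx, hc⟩)

theorem comm2 (h : Gr T Z P Q Y r) {u v w : Bool × G} (h1 : Adj P u v) (h2 : Adj P u w) :
    vv Y v ≤ centralizer ((vv Y w : Subgroup G) : Set G) := by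
  obtain ⟨a1, k, hk1, hk2⟩ := h1
  obtain ⟨b1, l, hl1, hl2⟩ := h2
  obtain ⟨i, g⟩ := u
  obtain ⟨j, g1⟩ := v
  obtain ⟨j', g2⟩ := w
  simp only at a1 b1 hk1 hk2 hl1 hl2
  subst a1
  subst b1
  have s' := h.am.side (!i)
  have e1 : vv Y (!i, g1) = cj k (Y (!i)) := cj_eq_of s'.PY hk2
  have e2 : vv Y (!i, g2) = cj l (Y (!i)) := cj_eq_of s'.PY hl2
  rw [e1, e2]
  intro y hy
  rw [mem_centralizer_iff]
  intro z hz
  have hz' := mem_cj.mp hz
  have hy' := mem_cj.mp hy
  have hp : l⁻¹ * k ∈ P i := by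
    have : l⁻¹ * k = (g⁻¹ * l)⁻¹ * (g⁻¹ * k) := by group
    rw [this]
    exact (P i).mul_mem ((P i).inv_mem hl1) hk1
  have h3 := h.abel i (l⁻¹ * k) hp _ hz' _ hy'
  have e : l⁻¹ * k * (k⁻¹ * y * k) * (l⁻¹ * k)⁻¹ = l⁻¹ * y * l := by group
  rw [e] at h3
  calc z * y = l * ((l⁻¹ * z * l) * (l⁻¹ * y * l)) * l⁻¹ := by group
    _ = l * ((l⁻¹ * y * l) * (l⁻¹ * z * l)) * l⁻¹ := by rw [h3.eq]
    _ = y * z := by group

theorem QY (h : Gr T Z P Q Y r) (v : Bool × G) :
    vv Q v ≤ centralizer ((vv Y v : Subgroup G) : Set G) := cj_le_centralizer (h.am.side v.1).QY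

theorem YQ (h : Gr T Z P Q Y r) (v : Bool × G) : vv Y v ≤ vv Q v := cj_mono (h.am.side v.1).YQ

theorem PQ (h : Gr T Z P Q Y r) (v : Bool × G) :
    vv P v ≤ normalizer ((vv Q v : Subgroup G) : Set G) := cj_le_normalizer (h.am.side v.1).PQ

theorem PY (h : Gr T Z P Q Y r) (v : Bool × G) :
    vv P v ≤ normalizer ((vv Y v : Subgroup G) : Set G) := cj_le_normalizer (h.am.side v.1).PY

theorem Y_ne (h : Gr T Z P Q Y r) (v : Bool × G) : vv Y v ≠ ⊥ := by
  intro hb
  have s := h.am.side v.1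
  apply s.r1
  have h1 : v.2 * r v.1 * v.2⁻¹ ∈ vv Y v := conj_mem_cj s.rY
  rw [hb, mem_bot] at h1
  calc r v.1 = v.2⁻¹ * (v.2 * r v.1 * v.2⁻¹) * v.2 := by group
    _ = 1 := by rw [h1]; group

theorem small (h : Gr T Z P Q Y r) {n : ℕ} (hn : n < 3) {v w : Bool × G} (hw : W P n v w) :
    vv Y v ≤ vv Q w := by
  interval_cases n
  · change v = w at hw
    subst hw
    exact h.YQ v
  · obtain ⟨u, hu, hw⟩ := hw
    change u = w at hw
    subst hw
    exact (h.edge hu).yq
  · obtain ⟨u, hu, u', hu', hw⟩ := hw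
    change u' = w at hw
    subst hw
    intro y hy
    exact h.mem_Q_of hu' ((h.edge hu).yq hy) (h.comm2 hu.symm hu' hy)

/-- exchanging the role of `x, a` -/
theorem comm_mem (h : Gr T Z P Q Y r) {u w : Bool × G} (ha : Adj P u w) {a x y : G}
    {A : Subgroup G} (haA : a ∈ A) (ha1 : a ∈ vv Q u) (ha2 : a ∉ vv Q w) (hy : y ∈ vv Q u)
    (hx : x ∈ vv Y w) (hxA : x ∈ normalizer (A : Set G)) : ⁅x, y⁆ ∈ A := by
  obtain ⟨Z', s, s'⟩ := (h.edge ha).sides
  by_cases hyw : y ∈ vv Q w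
  · have h1 := commute_of_mem_centralizer (h.QY w hyw) hx
    rw [commutatorElement_eq_one_iff_commute.mpr h1.symm]; exact one_mem _
  · have h1 := s'.two a (s.QT ha1) y (s.QT hy) ha2 hyw
    have h2 := commute_of_mem_centralizer (h.QY w h1) hx
    have e : ⁅x, y⁆ = (x * a⁻¹ * x⁻¹) * a := by
      rw [commutatorElement_def]
      calc x * y * x⁻¹ * y⁻¹ = x * a⁻¹ * ((a * y) * x⁻¹) * y⁻¹ := by group
        _ = x * a⁻¹ * (x⁻¹ * (a * y)) * y⁻¹ := by rw [h2.inv_right.eq]
        _ = _ := by group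
    rw [e]
    exact A.mul_mem ((mem_normalizer_iff.mp hxA _).mp (A.inv_mem haA)) haA

section crit

variable {n : ℕ}

theorem crit_symm (h : Gr T Z P Q Y r)
    (hmin : ∀ m < n + 3, ∀ v w, W P m v w → vv Y v ≤ vv Q w) {v w : Bool × G}
    (hw : W P (n + 3) v w) (hne : ¬ vv Y v ≤ vv Q w) : ¬ vv Y w ≤ vv Q v := by
  intro hcon
  apply hne
  obtain ⟨u, hu, huw⟩ := W.unsnoc hw
  intro y hy
  apply h.mem_Q_of huw (hmin _ (by omega) _ _ hu hy)
  have h1 : vv Y w ≤ centralizer ((vv Y v : Subgroup G) : Set G) := hcon.trans (h.QY v)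
  rw [le_centralizer_iff] at h1
  exact h1 hy

theorem not_nn (h : Gr T Z P Q Y r)
    (hmin : ∀ m < n + 3, ∀ v w, W P m v w → vv Y v ≤ vv Q w) {v w : Bool × G}
    (hw : W P (n + 3) v w) (hne : ¬ vv Y v ≤ vv Q w) :
    ¬ P (!v.1) ≤ normalizer ((Y (!v.1) ⊔ Y (!!v.1) : Subgroup G) : Set G) := by
  intro hcon
  apply hne
  obtain ⟨v1, hv1, v2, hv2, hw2⟩ := hw
  have hv1' : v1.1 = !v.1 := hv1.1
  have h1 : vv P v1 ≤ normalizer ((vv Y v1 ⊔ vv Y v2 : Subgroup G) : Set G) := by
    rw [(h.edge hv2).nn, hv1']; exact hcon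
  obtain ⟨p, hp, h3, -⟩ := h.nbr_conj hv1.symm hv2
  rw [h3]
  have h4 : cj p (vv Y v2) ≤ vv Y v1 ⊔ vv Y v2 := by
    rw [← cj_eq_of_mem_normalizer (h1 hp)]
    exact cj_mono le_sup_right
  refine h4.trans (sup_le ?_ ?_)
  · exact hmin (n + 2) (by omega) _ _ ⟨v2, hv2, hw2⟩
  · exact hmin (n + 1) (by omega) _ _ hw2

theorem exists_x (h : Gr T Z P Q Y r)
    (hmin : ∀ m < n + 3, ∀ v w, W P m v w → vv Y v ≤ vv Q w) {v w : Bool × G}
    (hw : W P (n + 3) v w) (hne : ¬ vv Y v ≤ vv Q w) :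
    ∃ x ∈ vv Y w, x ∉ vv Q v ∧ x ∈ vv P v ∧ ∃ δ, Adj P v δ ∧ x ∉ vv P δ := by
  obtain ⟨x, hx, hxv⟩ := Set.not_subset.mp (h.crit_symm hmin hw hne)
  obtain ⟨v1, hv1, hw1⟩ := hw
  have hx1 : x ∈ vv Q v1 := hmin (n + 2) (by omega) _ _ hw1.symm hx
  have hxP : x ∈ vv P v := h.Q_le_P hv1.symm hx1
  have hxP1 : x ∈ vv P v1 := by
    obtain ⟨Z', s, s'⟩ := (h.edge hv1).sides
    exact s'.PQ_le' hx1
  refine ⟨x, hx, hxv, hxP, ?_⟩
  obtain ⟨Z', s, s'⟩ := (h.edge hv1).sides
  obtain ⟨p, hp, hpT⟩ := s.neT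
  refine ⟨tr p v1, hv1.tr_right hp, ?_⟩
  rw [vv_tr, mem_cj]
  intro h3
  apply hxv
  apply s.nT p hp hpT x (Subgroup.mem_inf.mpr ⟨hxP, hxP1⟩)
  refine Subgroup.mem_inf.mpr ⟨?_, h3⟩
  exact (vv P v).mul_mem ((vv P v).mul_mem ((vv P v).inv_mem hp) hxP) hp

theorem no_crit (h : Gr T Z P Q Y r)
    (hmin : ∀ m < n + 3, ∀ v w, W P m v w → vv Y v ≤ vv Q w) {α α' : Bool × G}
    (hw : W P (n + 3) α α') : vv Y α ≤ vv Q α' := by
  by_contra hne
  obtain ⟨x, hx, hxα, hxP, δ, hδ, hxδ⟩ := h.exists_x hmin hw hne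
  obtain ⟨β', hβ1, hβ2⟩ := W.unsnoc hw
  obtain ⟨u, hu1, hu2⟩ := W.unsnoc hβ1
  obtain ⟨t, ht1, ht2⟩ := W.unsnoc hu1
  have hxx : x * x = 1 := by
    obtain ⟨Z', s, s'⟩ := (h.edge hβ2).sides
    exact s'.Ysq x hx
  have hxinv : x⁻¹ = x := inv_eq_of_mul_eq_one_left hxx
  have hδ1 : δ.1 = !α.1 := hδ.1
  -- maximality at α
  have hmaxα : ∀ X : Subgroup G, vv P α ⊓ vv P δ ≤ X → x ∈ X → vv P α ≤ X := by
    intro X hX hxX
    obtain ⟨Z', s, s'⟩ := (h.edge hδ).sides
    exact s.max x hxP (fun hcon => hxδ (Subgroup.mem_inf.mp hcon).2) X hX hxX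
  have key : ∃ γ, Adj P δ γ ∧ ¬ vv Y γ ≤ vv Q u := by
    by_cases hδβ : vv Y δ ≤ vv Q β'
    · -- the non critical case
      obtain ⟨a, ha, haα⟩ := Set.not_subset.mp hne
      have haβ : a ∈ vv Q β' := hmin (n + 2) (by omega) _ _ hβ1 ha
      have hxN : x ∈ normalizer ((vv Y α : Subgroup G) : Set G) := h.PY α hxP
      -- N(α)
      have hNα : vv P α ≤ normalizer ((vv Y α ⊔ vv Y δ : Subgroup G) : Set G) := by
        apply hmaxα
        · exact le_trans (le_inf (inf_le_left.trans (h.PY α)) (inf_le_right.trans (h.PY δ)))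
            normalizer_sup_le
        · have h1 : cj x (vv Y α ⊔ vv Y δ) ≤ vv Y α ⊔ vv Y δ := by
            rw [cj_sup]
            refine sup_le ?_ ?_
            · rw [cj_eq_of_mem_normalizer hxN]; exact le_sup_left
            · intro g hg
              rw [mem_cj] at hg
              have h2 := h.comm_mem hβ2 ha haβ haα (hδβ hg) hx hxN
              have e : g = ⁅x, x⁻¹ * g * x⁆ * (x⁻¹ * g * x) := by
                rw [commutatorElement_def]; group
              rw [e]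
              exact Subgroup.mul_mem _ ((le_sup_left : vv Y α ≤ _) h2)
                ((le_sup_right : vv Y δ ≤ _) hg)
          apply mem_normalizer_of_cj_eq
          apply le_antisymm h1
          rw [le_cj_iff, hxinv]; exact h1
      have hNN : P α.1 ≤ normalizer ((Y α.1 ⊔ Y (!α.1) : Subgroup G) : Set G) :=
        (h.edge hδ).nn.mp hNα
      have htype : α'.1 = α.1 := by
        by_contra hcon
        have h1 : α.1 = !α'.1 := by
          rcases Bool.eq_or_eq_not α.1 α'.1 with h2 | h2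
          · exact absurd h2.symm hcon
          · exact h2
        apply h.not_nn hmin hw.symm (h.crit_symm hmin hw hne)
        rwa [h1] at hNN
      have hu1' : u.1 = α'.1 := by
        rw [hβ2.1, hu2.1, Bool.not_not]
      -- N(u)
      have hNu : vv P u ≤ normalizer ((vv Y u ⊔ vv Y β' : Subgroup G) : Set G) := by
        rw [(h.edge hu2).nn, hu1', htype]; exact hNN
      by_contra hall
      push Not at hall
      -- the normal subgroup V
      set V := cl (vv P δ) (vv Y α) with hV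
      have hYδ : ∀ g ∈ vv P δ, ∀ w ∈ vv Y α, g * w * g⁻¹ ∈ vv Q β' := by
        intro g hg w hw'
        have hadj : Adj P δ (tr g α) := hδ.symm.tr_right hg
        have hmem : g * w * g⁻¹ ∈ vv Y (tr g α) := by
          rw [vv_tr]; exact conj_mem_cj hw'
        have h1 : g * w * g⁻¹ ∈ vv Q u := hall _ hadj hmem
        have h2 : g * w * g⁻¹ ∈ vv Q t := by
          apply hmin (n + 2) (by omega) (tr g α) t _ hmem
          exact ⟨δ, hadj.symm, α, hδ.symm, ht1⟩
        apply h.mem_Q_of hu2 h1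
        have h3 : g * w * g⁻¹ ∈ centralizer ((vv Y u ⊔ vv Y t : Subgroup G) : Set G) := by
          rw [H13.Replace.centralizer_sup]
          exact Subgroup.mem_inf.mpr ⟨h.QY u h1, h.QY t h2⟩
        obtain ⟨p, hp, hp1, -⟩ := h.nbr_conj hu2 ht2.symm
        have hNt : vv P u ≤ normalizer ((vv Y u ⊔ vv Y t : Subgroup G) : Set G) := by
          rw [(h.edge ht2.symm).nn, hu1', htype]; exact hNN
        have h4 : vv Y β' ≤ vv Y u ⊔ vv Y t := by
          rw [hp1]
          rw [← cj_eq_of_mem_normalizer (hNt hp)]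
          exact cj_mono le_sup_right
        exact centralizer_le h4 h3
      have hPV : vv P δ ≤ normalizer (V : Set G) := le_norm_cl _ _
      have hYV : vv Y α ≤ V := le_cl _ _
      have hxV : x ∈ normalizer (V : Set G) := by
        have h1 : V ≤ cj x⁻¹ V := by
          apply cl_le
          intro g hg w hw'
          rw [mem_cj, inv_inv]
          have h2 := h.comm_mem hβ2 ha haβ haα (hYδ g hg w hw') hx hxN
          have e : x * (g * w * g⁻¹) * x⁻¹ = ⁅x, g * w * g⁻¹⁆ * (g * w * g⁻¹) := by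
            rw [commutatorElement_def]; group
          rw [e]
          exact V.mul_mem (hYV h2) (conj_mem_cl hg hw')
        rw [hxinv] at h1
        apply mem_normalizer_of_cj_eq
        apply le_antisymm _ h1
        have h2 := cj_mono (g := x⁻¹) h1
        rw [cj_inv_cj, hxinv] at h2
        exact h2
      have hPα : vv P α ≤ normalizer (V : Set G) := hmaxα _ (inf_le_right.trans hPV) hxV
      have hVT : V ≤ vv P α ⊓ vv P δ := by
        obtain ⟨Z', s, s'⟩ := (h.edge hδ).sides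
        refine le_trans ?_ s'.QT
        apply cl_le
        intro g hg w hw'
        exact (mem_normalizer_iff.mp (h.PQ δ hg) w).mp ((h.edge hδ).yq hw')
      have hVb := (h.edge hδ).core V hVT hPα hPV
      apply h.Y_ne α
      rw [eq_bot_iff, ← hVb]; exact hYV
    · -- the critical case
      have hwδ : W P (n + 3) δ β' := ⟨α, hδ.symm, hβ1⟩
      obtain ⟨y, hy, hyδ, hyP, γ, hγ, hyγ⟩ := h.exists_x hmin hwδ hδβ
      refine ⟨γ, hγ, fun hcon => ?_⟩
      obtain ⟨a, ha, haβ⟩ := Set.not_subset.mp hδβ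
      have hau : a ∈ vv Q u := hmin (n + 2) (by omega) _ _ ⟨α, hδ.symm, hu1⟩ ha
      have hyN : y ∈ normalizer ((vv Y δ : Subgroup G) : Set G) := h.PY δ hyP
      have hyy : y * y = 1 := by
        obtain ⟨Z', s, s'⟩ := (h.edge hu2).sides
        exact s'.Ysq y hy
      have hyinv : y⁻¹ = y := inv_eq_of_mul_eq_one_left hyy
      have hNδ : vv P δ ≤ normalizer ((vv Y δ ⊔ vv Y γ : Subgroup G) : Set G) := by
        obtain ⟨Z', s, s'⟩ := (h.edge hγ).sides
        apply s.max y hyP (fun hcon => hyγ (Subgroup.mem_inf.mp hcon).2)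
        · exact le_trans (le_inf (inf_le_left.trans (h.PY δ)) (inf_le_right.trans (h.PY γ)))
            normalizer_sup_le
        · have h1 : cj y (vv Y δ ⊔ vv Y γ) ≤ vv Y δ ⊔ vv Y γ := by
            rw [cj_sup]
            refine sup_le ?_ ?_
            · rw [cj_eq_of_mem_normalizer hyN]; exact le_sup_left
            · intro g hg
              rw [mem_cj] at hg
              have h2 := h.comm_mem hu2 ha hau haβ (hcon hg) hy hyN
              have e : g = ⁅y, y⁻¹ * g * y⁆ * (y⁻¹ * g * y) := by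
                rw [commutatorElement_def]; group
              rw [e]
              exact Subgroup.mul_mem _ ((le_sup_left : vv Y δ ≤ _) h2)
                ((le_sup_right : vv Y γ ≤ _) hg)
          apply mem_normalizer_of_cj_eq
          apply le_antisymm h1
          rw [le_cj_iff, hyinv]; exact h1
      have hNN := (h.edge hγ).nn.mp hNδ
      apply h.not_nn hmin hw hne
      rwa [hδ1] at hNN
  obtain ⟨γ, hγ, hγu⟩ := key
  -- a noncommuting pair
  have hwt : W P (n + 2) γ t := ⟨δ, hγ.symm, α, hδ.symm, ht1⟩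
  have hwu : W P (n + 2) u δ := by
    have : W P (n + 2) δ u := ⟨α, hδ.symm, hu1⟩
    exact this.symm
  have h1 : ¬ vv Y γ ≤ centralizer ((vv Y u : Subgroup G) : Set G) := by
    intro hcon
    apply hγu
    intro y hy
    exact h.mem_Q_of ht2 (hmin (n + 2) (by omega) _ _ hwt hy) (hcon hy)
  obtain ⟨a, ha, hau⟩ := Set.not_subset.mp h1
  have h2 : ∃ b ∈ vv Y u, ⁅a, b⁆ ≠ 1 := by
    by_contra hcon
    push Not at hcon
    apply hau
    rw [SetLike.mem_coe, mem_centralizer_iff]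
    intro b hb
    exact (commutatorElement_eq_one_iff_commute.mp (hcon b hb)).symm.eq
  obtain ⟨b, hb, hab⟩ := h2
  have hbδ : b ∈ vv Q δ := hmin (n + 2) (by omega) _ _ hwu hb
  have hcδ : ⁅a, b⁆ = cc r δ := by
    obtain ⟨Z', s, s'⟩ := (h.edge hγ).sides
    rcases s'.comm_or ha (s.QT hbδ) with h3 | h3
    · exact absurd h3 hab
    · exact h3
  have haP : a ∈ vv P u := h.Q_le_P ht2 (hmin (n + 2) (by omega) _ _ hwt ha)
  have hcu : cc r δ ∈ vv Y u := by
    rw [← hcδ]
    exact commutatorElement_mem_left (h.PY u haP) hb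
  have hcα' : cc r δ ∈ vv Q α' := by
    apply hmin 2 (by omega) u α' _ hcu
    exact ⟨β', hu2, α', hβ2, rfl⟩
  have hxc : x * cc r δ = cc r δ * x := (commute_of_mem_centralizer (h.QY α' hcα') hx).symm.eq
  have hPδ := (h.edge hδ.symm).cc
  have hPα : vv P α ≤ centralizer ({cc r δ} : Set G) := by
    apply hmaxα _ (inf_le_right.trans hPδ)
    exact mem_centralizer_singleton_iff.mpr hxc
  have hcT : zpowers (cc r δ) ≤ vv P α ⊓ vv P δ := by
    rw [zpowers_le]
    obtain ⟨Z', s, s'⟩ := (h.edge hδ).sides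
    exact s.YT s.rY
  have hb := (h.edge hδ).core _ hcT
    (by
      refine le_trans ?_ (H52.Syl.centralizer_le_normalizer _)
      rw [WOf.centralizer_zpowers']; exact hPα)
    (by
      refine le_trans ?_ (H52.Syl.centralizer_le_normalizer _)
      rw [WOf.centralizer_zpowers']; exact hPδ)
  apply hab
  rw [hcδ]; exact zpowers_eq_bot.mp hb

end crit

theorem all_le (h : Gr T Z P Q Y r) : ∀ n : ℕ, ∀ v w, W P n v w → vv Y v ≤ vv Q w := by
  intro n
  induction n using Nat.strong_induction_on with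
  | _ n ih =>
    intro v w hw
    rcases Nat.lt_or_ge n 3 with hlt | hge
    · exact h.small hlt hw
    · obtain ⟨m, rfl⟩ := Nat.exists_eq_add_of_le' hge
      exact h.no_crit ih hw

/-- the vertices in the orbit reached by a walk -/
def conn (P : Bool → Subgroup G) : Subgroup G where
  carrier := {g | ∃ n, W P n (true, (1 : G)) (true, g)}
  one_mem' := ⟨0, rfl⟩
  mul_mem' := by
    rintro a b ⟨n, hn⟩ ⟨m, hm⟩
    refine ⟨n + m, hn.trans ?_⟩
    have := W.tr a hm
    simpa [tr] using this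
  inv_mem' := by
    rintro a ⟨n, hn⟩
    refine ⟨n, ?_⟩
    have := W.tr a⁻¹ hn.symm
    simpa [tr] using this

theorem le_conn (P : Bool → Subgroup G) (i : Bool) : P i ≤ conn P := by
  intro p hp
  refine ⟨2, (false, 1), ⟨rfl, 1, by simp, by simp⟩, (true, p), ?_, rfl⟩
  cases i
  · exact ⟨rfl, p, by simpa using hp, by simp⟩
  · exact ⟨rfl, 1, by simp, by simpa using hp⟩

theorem contra (h : Gr T Z P Q Y r) : False := by
  have s := h.am.side true
  set N := cl (conn P) (Y true) with hN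
  have hNQ : N ≤ Q true := by
    apply cl_le
    rintro g ⟨n, hn⟩ w hw
    have h1 : g * w * g⁻¹ ∈ vv Y (true, g) := conj_mem_cj hw
    have h2 := h.all_le n _ _ hn.symm h1
    have e : vv Q (true, (1 : G)) = Q true := cj_one _
    rwa [e] at h2
  have hn : ∀ i, P i ≤ normalizer (N : Set G) := fun i => (le_conn P i).trans (le_norm_cl _ _)
  have hb := h.am.core N (hNQ.trans s.QT) hn
  apply s.r1
  have h1 := le_cl (conn P) (Y true) s.rY
  rwa [← hN, hb, mem_bot] at h1

end Gr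

theorem AmJ.not_le [Finite G] {T Z : Subgroup G} {P Q Y : Bool → Subgroup G} {r : Bool → G}
    (h : AmJ T Z P Q Y r) (i : Bool) : ¬ Y i ≤ Q (!i) := by
  intro hi
  have h2 := h.all_of hi
  exact Gr.contra ⟨h.toAm, h2, h.star h2, h.abel h2⟩

end H54.Amal
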