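import Cfsg.Agent.Lib.H54.Amal5

set_option autoImplicit false
set_option linter.dupNamespace false
set_option linter.unusedSectionVars false
set_option maxHeartbeats 400000

/-!
The `(S_3, S_3)`-amalgam: the structure.
-/

namespace H54.Amal

open Subgroup H52.Syl H54.MaxEA H54.JTh
open scoped commutatorElement

universe u

variable {G : Type u} [Group G] [Finite G]

namespace AmJ

variable {T Z : Subgroup G} {P Q Y : Bool → Subgroup G} {r : Bool → G}

theorem exists_y (h : AmJ T Z P Q Y r) (i : Bool) : ∃ y ∈ Y i, y ∉ Q (!i) :=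
  Set.not_subset.mp (h.not_le i)

theorem mul_y (h : AmJ T Z P Q Y r) {i : Bool} {y q : G} (hy : y ∈ Y i) (hyQ : y ∉ Q (!i))
    (hq : q ∈ Q i) (hqQ : q ∉ Q (!i)) : q * y ∈ Q i ⊓ Q (!i) := by
  have s := h.side i
  have s' := h.side (!i)
  exact Subgroup.mem_inf.mpr ⟨(Q i).mul_mem hq (s.YQ hy),
    s'.two q (s.QT hq) y (s.YT hy) hqQ hyQ⟩

theorem sq_mem (h : AmJ T Z P Q Y r) (i : Bool) {q : G} (hq : q ∈ Q i) :
    ∃ d ∈ Q i ⊓ Q (!i), q * q = d * d := by
  have s := h.side i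
  by_cases hqQ : q ∈ Q (!i)
  · exact ⟨q, Subgroup.mem_inf.mpr ⟨hq, hqQ⟩, rfl⟩
  · obtain ⟨y, hy, hyQ⟩ := h.exists_y i
    refine ⟨q * y, h.mul_y hy hyQ hq hqQ, ?_⟩
    have h1 : q * y = y * q := (commute_of_mem_centralizer (s.QY hq) hy).eq
    calc q * q = q * q * (y * y) := by rw [s.Ysq y hy, mul_one]
      _ = q * (q * y) * y := by group
      _ = q * (y * q) * y := by rw [h1]
      _ = _ := by group

theorem sq_one (h : AmJ T Z P Q Y r) (i : Bool) {q : G} (hq : q ∈ Q i) : q * q = 1 := by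
  set D := Q true ⊓ Q false with hD
  have hDi : ∀ i, Q i ⊓ Q (!i) = D := by
    intro i; cases i
    · exact inf_comm _ _
    · rfl
  set N := closure {x : G | ∃ d ∈ D, x = d * d} with hN
  have hNT : N ≤ T := by
    rw [hN, closure_le]
    rintro _ ⟨d, hd, rfl⟩
    have := (h.side true).QT (Subgroup.mem_inf.mp hd).1
    exact T.mul_mem this this
  have hn : ∀ i, P i ≤ normalizer (N : Set G) := by
    intro i
    have key : ∀ p ∈ P i, cj p N ≤ N := by
      intro p hp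
      rw [cj_le_iff, hN, closure_le]
      rintro _ ⟨d, hd, rfl⟩
      rw [← hDi i] at hd
      have h1 : p * d * p⁻¹ ∈ Q i :=
        (mem_normalizer_iff.mp ((h.side i).PQ hp) d).mp (Subgroup.mem_inf.mp hd).1
      obtain ⟨d', hd', he⟩ := h.sq_mem i h1
      rw [hDi i] at hd'
      rw [SetLike.mem_coe, mem_cj]
      have e : p⁻¹⁻¹ * (d * d) * p⁻¹ = d' * d' := by rw [← he]; group
      rw [e]
      exact subset_closure ⟨d', hd', rfl⟩
    intro p hp
    apply mem_normalizer_of_cj_eq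
    apply le_antisymm (key p hp)
    rw [le_cj_iff]; exact key _ ((P i).inv_mem hp)
  have hb := h.core N hNT hn
  obtain ⟨d, hd, he⟩ := h.sq_mem i hq
  rw [hDi i] at hd
  have h1 : d * d ∈ N := subset_closure ⟨d, hd, rfl⟩
  rw [hb, mem_bot] at h1
  rw [he, h1]

theorem comm_of_sq {D : Subgroup G} (h : ∀ d ∈ D, d * d = 1) {a b : G} (ha : a ∈ D)
    (hb : b ∈ D) : Commute a b := by
  have h1 := h _ (D.mul_mem ha hb)
  have ha' := inv_eq_of_mul_eq_one_left (h a ha)
  have hb' := inv_eq_of_mul_eq_one_left (h b hb)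
  have h2 := inv_eq_of_mul_eq_one_left h1
  rw [mul_inv_rev, ha', hb'] at h2
  exact h2.symm

theorem inf_le_Z (h : AmJ T Z P Q Y r) (i : Bool) : Q i ⊓ Q (!i) ≤ Z := by
  have s := h.side i
  have s' := h.side (!i)
  intro x hx
  obtain ⟨hx1, hx2⟩ := Subgroup.mem_inf.mp hx
  have c1 : ∀ t ∈ Q i, Commute x t := fun t ht => comm_of_sq (fun d hd => h.sq_one i hd) hx1 ht
  have c2 : ∀ t ∈ Q (!i), Commute x t := fun t ht =>
    comm_of_sq (fun d hd => h.sq_one (!i) hd) hx2 ht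
  have hT : ∀ t ∈ T, Commute x t := by
    intro t ht
    by_cases hti : t ∈ Q i
    · exact c1 t hti
    · obtain ⟨y, hy, hyQ⟩ := h.exists_y (!i)
      rw [Bool.not_not] at hyQ
      have h1 := s.two t ht y (s'.YT hy) hti hyQ
      have h2 := c1 _ h1
      have h3 := c2 y (s'.YQ hy)
      have e : t = (t * y) * y⁻¹ := by group
      rw [e]
      exact h2.mul_right h3.inv_right
  apply h.jz x (s.QT hx1) (h.sq_one i hx1)
  intro A hA
  rw [mem_centralizer_iff]
  intro a ha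
  exact (hT a (hA.1 ha)).symm.eq

theorem Q_eq (h : AmJ T Z P Q Y r) (i : Bool) : Q i = Y i := by
  have s := h.side i
  apply le_antisymm _ s.YQ
  intro q hq
  by_cases hqQ : q ∈ Q (!i)
  · exact s.ZY (h.inf_le_Z i (Subgroup.mem_inf.mpr ⟨hq, hqQ⟩))
  · obtain ⟨y, hy, hyQ⟩ := h.exists_y i
    have h1 := s.ZY (h.inf_le_Z i (h.mul_y hy hyQ hq hqQ))
    exact ((Y i).mul_mem_cancel_right hy).mp h1

theorem inf_eq_Z (h : AmJ T Z P Q Y r) (i : Bool) : Q i ⊓ Q (!i) = Z := by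
  apply le_antisymm (h.inf_le_Z i)
  exact le_inf ((h.side i).ZY.trans (h.side i).YQ) ((h.side (!i)).ZY.trans (h.side (!i)).YQ)

/-- involutions of `T` -/
theorem invol (h : AmJ T Z P Q Y r) (i : Bool) {t : G} (ht : t ∈ T) (h2 : t * t = 1) :
    t ∈ Q i ∨ t ∈ Q (!i) := by
  have s := h.side i
  have s' := h.side (!i)
  by_contra hcon
  push Not at hcon
  obtain ⟨h1, h3⟩ := hcon
  obtain ⟨y, hy, hyQ⟩ := h.exists_y (!i)
  rw [Bool.not_not] at hyQ
  have hty : t * y ∈ Q i := s.two t ht y (s'.YT hy) h1 hyQ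
  have htyn : t * y ∉ Q (!i) := by
    intro hc
    exact h3 (((Q (!i)).mul_mem_cancel_right (s'.YQ hy)).mp hc)
  -- t = (t y) y with t*t = 1 gives commuting
  have e1 : (t * y) * (t * y) = 1 := h.sq_one i hty
  have ey := s'.Ysq y hy
  have hc : Commute t y := by
    have h5 : (t * y)⁻¹ = t * y := inv_eq_of_mul_eq_one_left e1
    rw [mul_inv_rev, inv_eq_of_mul_eq_one_left h2, inv_eq_of_mul_eq_one_left ey] at h5
    exact h5.symm
  have hc2 : Commute (t * y) y := hc.mul_left (Commute.refl y)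
  -- `t y ∈ Q i` commutes with `y ∈ T ∖ Q i`, so it is in Z
  have h6 : t * y ∈ Y i := by rw [← h.Q_eq i]; exact hty
  have h7 := s.mem_Z h6 (s'.YT hy) hyQ hc2
  exact htyn (s'.YQ (s'.ZY h7))

end AmJ

end H54.Amal
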