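import Cfsg.Agent.Lib.H54.Split2

set_option autoImplicit false
set_option linter.dupNamespace false
set_option linter.unusedSectionVars false
set_option maxHeartbeats 400000

/-!
`Ω₁(Z(J)) = (Ω₁(Z(J)) ∩ C(K)) × (Ω₁(Z(J)) ∩ W_K)`.
-/

namespace H54.Setup

open Subgroup H54.PreComp H52.PRes H52.PCore H52.Syl H52.Sub H54.JTh
open H54.MaxEA H54.WOf H54.KP
open scoped commutatorElement

universe u

variable {G : Type u} [Group G] [Finite G]

local notation "O₂" => Cfsg.pCoreOf 2
local notation "ΩZ" => Cfsg.omegaCenterOf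
local notation "wOf" => Cfsg.wOf
local notation "JT" => Cfsg.thompsonSubgroupOf 2

theorem JComp.split {J K : Subgroup G} (hJ2 : IsPGroup 2 J) (hK : JComp J K) : SplitData J K := by
  obtain ⟨S, A, B, hS, hJS, hJTS, hPS, hA, hAK, hAt, hB, hWB, f1, hmax⟩ := hK.exists_A₁ hJ2
  obtain ⟨hc2, hWCJ⟩ := hK.card_two hJ2
  have hWJ := hK.W_le_J hJ2
  have hKP := hK.pre.toKP
  have hAJ : A ≤ J := by rw [← hJTS]; exact le_thompsonOf hA
  set A₁ := B ⊔ wOf K with hA₁
  have hA₁m : A₁ ∈ MaxEA S := by have := hmax 1 (one_mem K); rwa [cj_one] at this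
  have hA₁J : ∀ k ∈ K, cj k A₁ ≤ J := fun k hk => by
    rw [← hJTS]; exact le_thompsonOf (hmax k hk)
  have hZJ := omega_le J
  have hZc := omega_le_centralizer J
  have hZt : ΩZ J ≤ H13.Quad.actTriv K (O₂ K) :=
    hKP.mem_actTriv_of_centralizes (K_le_norm K) (not_le_centralizer_wOf hKP hK.wne)
      (hZJ.trans hK.pre.le_normalizer) (hZc.trans (centralizer_le hWJ))
  have hZA : ∀ k ∈ K, cj k (ΩZ J) ≤ A₁ := by
    intro k hk y hy
    rw [mem_cj] at hy
    have hyS : y ∈ S := by
      have h1 := mem_conj_of_actTriv hPS (hZt hy) (hJS (hZJ hy)) hk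
      have e : k * (k⁻¹ * y * k) * k⁻¹ = y := by group
      rwa [e] at h1
    apply mem_of_centralizes hA₁m hyS
    · rw [mem_centralizer_iff]
      intro a ha
      have h1 : k⁻¹ * a * k ∈ J := by
        apply hA₁J k⁻¹ (inv_mem hk)
        rw [mem_cj]
        have e : (k⁻¹)⁻¹ * (k⁻¹ * a * k) * k⁻¹ = a := by group
        rwa [e]
      have h2 := mem_centralizer_iff.mp (hZc hy) _ h1
      calc a * y = k * ((k⁻¹ * a * k) * (k⁻¹ * y * k)) * k⁻¹ := by group
        _ = k * ((k⁻¹ * y * k) * (k⁻¹ * a * k)) * k⁻¹ := by rw [h2]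
        _ = y * a := by group
    · have h1 := (mem_omega.mp hy).2.2
      have e : y ^ 2 = k * ((k⁻¹ * y * k) ^ 2) * k⁻¹ := by
        rw [pow_two, pow_two]; group
      rw [e, h1]; group
  set V := V₂ K (ΩZ J) with hV
  have hVA : V ≤ A₁ := iSup_le fun k => hZA k k.2
  have hZV : ΩZ J ≤ V := le_V₂ _ _
  have hKV : K ≤ normalizer (V : Set G) := K_le_norm_V₂ _ _
  have hJV : J ≤ normalizer (V : Set G) := le_norm_V₂ hK.pre.le_normalizer
    (Subgroup.le_normalizer.trans (normalizer_le_normalizer_omega J))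
  have hVe : Cfsg.IsElementaryAbelian 2 V := H13.ElemAb.of_le hA₁m.2.1 hVA
  have hV2 := H13.ElemAb.isPGroup hVe
  have hVc := H13.ElemAb.le_centralizer hVe
  have hWe := isEA_wOf K
  have hWfix := wOf_inf hKP
  -- W ≤ V
  have hWV : wOf K ≤ V := by
    have h1 : V ⊓ wOf K = wOf K := by
      apply irred hKP (core_le_centralizer K) hWfix hK.card inf_le_right
        (H1.Coprime2.le_normalizer_inf hKV (K_le_norm K))
      intro h2
      have h3 : ΩZ J ⊓ wOf K ≤ V ⊓ wOf K := inf_le_inf_right _ hZV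
      rw [h2, le_bot_iff] at h3
      rw [h3, card_bot] at hc2
      omega
    rw [← h1]; exact inf_le_left
  -- index of C_V(x)
  obtain ⟨x, hxA, hx⟩ := Set.not_subset.mp hAt
  have hxK := hAK hxA
  have hCx : (V ⊓ centralizer ({x} : Set G)).relIndex V ≤ 2 := by
    set E := A₁ ⊓ centralizer ({x} : Set G) with hE
    have hBE : B ≤ E := by
      refine le_inf le_sup_left ?_
      intro b hb
      rw [mem_centralizer_singleton_iff]
      rw [hB] at hb
      exact H13.ElemAb.comm hA.2.1 (Subgroup.mem_inf.mp hb).1 hxA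
    have hWc : Nat.card (wOf K) = 2 * 2 := by rw [hK.card]
    have hWi : (wOf K ⊓ centralizer (A : Set G)).relIndex (wOf K) = 2 := by
      have h1 := H13.Replace.card_eq_mul_relIndex
        (inf_le_left : wOf K ⊓ centralizer (A : Set G) ≤ wOf K)
      rw [f1, hWc] at h1
      exact (Nat.eq_of_mul_eq_mul_left (by norm_num) h1).symm
    have hA₁c := H13.ElemAb.le_centralizer hA₁m.2.1
    have hEn : centralizer (A₁ : Set G) ≤ normalizer (E : Set G) :=
      le_trans (centralizer_le (fun _ h => (Subgroup.mem_inf.mp h).1))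
        (H52.Syl.centralizer_le_normalizer E)
    have hEi : E.relIndex A₁ ≤ 2 := by
      rw [← hWi]
      apply relIndex_le_of_sup inf_le_left
      · exact sup_le_sup hBE le_rfl
      · exact le_sup_right
      · exact (le_sup_right.trans hA₁c).trans hEn
      · refine le_inf (le_inf ?_ ?_) inf_le_left
        · exact inf_le_left.trans le_sup_right
        · refine inf_le_right.trans (centralizer_le ?_)
          simpa using hxA
    refine le_trans ?_ hEi
    have h1 : V ⊓ centralizer ({x} : Set G) = E ⊓ V := by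
      rw [hE, inf_comm A₁, inf_assoc, inf_eq_right.mpr hVA, inf_comm]
    rw [h1, inf_relIndex_right]
    have h2 := Subgroup.relIndex_le_of_le_right (H := E) hVA relIndex_ne
    exact h2
  obtain ⟨D', hD'K, hD'P, hD'odd, hVD'card⟩ := exists_D' hKP hxK hx hKV hVe hCx
  have hD'sup := hKP.sup_eq hD'K hD'P
  have hD'V : D' ≤ normalizer (V : Set G) := hD'K.trans hKV
  have hWD' : wOf K ≤ ⁅V, D'⁆ := by
    rw [← comm_wOf hKP, KP.comm_eq hD'sup (K_le_norm K) (core_le_centralizer K)]
    exact commutator_mono hWV le_rfl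
  have hVD' : ⁅V, D'⁆ = wOf K := (eq_of_le_of_card_ge hWD' (by rw [hK.card]; exact hVD'card)).symm
  -- [V,K] ≤ W
  have hVK : ⁅V, K⁆ ≤ wOf K := by
    have h1 : K ⊓ H13.Quad.actTriv V (wOf K) = K := by
      apply hKP.eq_of_normal inf_le_left
      · exact H1.Coprime2.le_normalizer_inf Subgroup.le_normalizer
          (H13.Quad.le_normalizer_actTriv hKV (K_le_norm K))
      · intro hcon
        apply hD'P
        refine le_trans (le_inf hD'K ?_) hcon
        exact H13.Quad.le_actTriv hD'V (hD'K.trans (K_le_norm K)) hVD'.le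
    have h2 : K ≤ H13.Quad.actTriv V (wOf K) := by
      conv_lhs => rw [← h1]
      exact inf_le_right
    exact (commutator_mono le_rfl h2).trans (H13.Quad.commutator_actTriv_le V (wOf K))
  have hPZn : O₂ K ≤ normalizer ((ΩZ J : Subgroup G) : Set G) := by
    refine hPS.trans ?_
    have h1 : S ≤ normalizer (J : Set G) := by
      conv_rhs => rw [← hJTS]
      exact Subgroup.le_normalizer.trans (H13.SylowN.normalizer_le_normalizer_thompsonOf S)
    exact h1.trans (normalizer_le_normalizer_omega J)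
  have hPC : O₂ K ≤ centralizer ((ΩZ J : Subgroup G) : Set G) := by
    rw [le_centralizer_iff]
    intro z hz
    rw [← zpowers_le, le_centralizer_iff, centralizer_zpowers']
    have hzV := hZV hz
    refine core_commutes (W := wOf K) (X := ΩZ J ⊓ wOf K) (core_le_centralizer K)
      (H13.ElemAb.le_centralizer hWe) hWfix (fun k hk => hVK (commutator_mem_commutator hzV hk))
      hc2.le inf_le_right ?_
    intro p hp
    refine Subgroup.mem_inf.mpr ⟨?_, hVK (commutator_mem_commutator hzV (pCoreOf_le K hp))⟩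
    have e : ⁅z, p⁆ = z * (p * z⁻¹ * p⁻¹) := by rw [commutatorElement_def]; group
    rw [e]
    exact mul_mem hz (H54.Basic.mul_inv_mem_of_mem_normalizer (hPZn hp) (inv_mem hz))
  have hPV : O₂ K ≤ centralizer (V : Set G) := by
    rw [le_centralizer_iff]
    refine iSup_le fun k => ?_
    rw [le_centralizer_iff]
    have h1 := cj_mono (g := (k : G)) hPC
    rwa [cj_centralizer, cj_eq_of_mem_normalizer (le_normalizer_pCoreOf K k.2)] at h1
  refine ⟨hPC, ?_⟩
  have hsup := hKP.comm_sup hKV hV2 hPV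
  have hnorm : centralizer (V : Set G) ≤
      normalizer ((V ⊓ centralizer (K : Set G) : Subgroup G) : Set G) :=
    le_trans (centralizer_le (fun _ h => (Subgroup.mem_inf.mp h).1))
      (H52.Syl.centralizer_le_normalizer _)
  intro z hz
  have hzV := hZV hz
  have hle : ⁅V, K⁆ ≤ normalizer ((V ⊓ centralizer (K : Set G) : Subgroup G) : Set G) :=
    ((hVK.trans hWV).trans hVc).trans hnorm
  rw [← hsup, sup_comm] at hzV
  obtain ⟨c, hc, w, hw, rfl⟩ := (H54.Basic.mem_sup_iff hle).mp hzV
  have hwW := hVK hw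
  have hcV := (Subgroup.mem_inf.mp hc).1
  have hcK := (Subgroup.mem_inf.mp hc).2
  have hwc : ∀ j ∈ J, j * w * j⁻¹ = w := by
    intro j hj
    have hjz : j * (c * w) * j⁻¹ = c * w := by
      have := mem_centralizer_iff.mp (hZc hz) j hj
      rw [this]; group
    have h1 : j * w * j⁻¹ ∈ wOf K :=
      H54.Basic.mul_inv_mem_of_mem_normalizer (hK.J_le_normW hj) hwW
    have h2 : j * c * j⁻¹ ∈ centralizer (K : Set G) :=
      H54.Basic.mul_inv_mem_of_mem_normalizer
        (H1.Coprime2.le_normalizer_centralizer hK.pre.le_normalizer hj) hcK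
    have h3 : (j * w * j⁻¹) * w⁻¹ = (j * c * j⁻¹)⁻¹ * c := by
      have h4 : (j * c * j⁻¹) * (j * w * j⁻¹) = c * w := by
        rw [← hjz]; group
      calc (j * w * j⁻¹) * w⁻¹ = (j * c * j⁻¹)⁻¹ * ((j * c * j⁻¹) * (j * w * j⁻¹)) * w⁻¹ := by group
        _ = (j * c * j⁻¹)⁻¹ * (c * w) * w⁻¹ := by rw [h4]
        _ = _ := by group
    have h5 : (j * w * j⁻¹) * w⁻¹ ∈ wOf K ⊓ centralizer (K : Set G) := by
      refine Subgroup.mem_inf.mpr ⟨mul_mem h1 (inv_mem hwW), ?_⟩
      rw [h3]
      exact mul_mem (inv_mem h2) hcK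
    rw [hWfix, mem_bot] at h5
    exact mul_inv_eq_one.mp h5
  have hwZ : w ∈ ΩZ J := by
    apply hWCJ
    refine Subgroup.mem_inf.mpr ⟨hwW, ?_⟩
    rw [mem_centralizer_iff]
    intro j hj
    calc j * w = (j * w * j⁻¹) * j := by group
      _ = w * j := by rw [hwc j hj]
  have hcZ : c ∈ ΩZ J := by
    have := mul_mem hz (inv_mem hwZ)
    have e : c * w * w⁻¹ = c := by group
    rwa [e] at this
  exact mul_mem (mem_sup_left (Subgroup.mem_inf.mpr ⟨hcZ, hcK⟩))
    (mem_sup_right (Subgroup.mem_inf.mpr ⟨hwZ, hwW⟩))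

theorem JComp.split_eq {J K : Subgroup G} (hJ2 : IsPGroup 2 J) (hK : JComp J K) :
    (ΩZ J ⊓ ((K ⊔ J) ⊓ centralizer ((K ⊔ J : Subgroup G) : Set G))) ⊔ (ΩZ J ⊓ wOf K) = ΩZ J := by
  apply le_antisymm (sup_le inf_le_left inf_le_left)
  refine (hK.split hJ2).le.trans (sup_le_sup ?_ le_rfl)
  refine le_inf inf_le_left (le_inf ?_ ?_)
  · exact inf_le_left.trans ((omega_le J).trans le_sup_right)
  · rw [H13.Replace.centralizer_sup]
    exact le_inf inf_le_right (inf_le_left.trans (omega_le_centralizer J))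

end H54.Setup
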