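import Cfsg.Agent.Lib.H54.Unique
import Cfsg.Agent.Lib.H54.Split3

set_option autoImplicit false
set_option linter.dupNamespace false
set_option linter.unusedSectionVars false
set_option maxHeartbeats 400000

/-!
The center of `J(T)`: basic facts relative to the unique maximal 2-local overgroup.
-/

namespace H54.Setup

open Subgroup H54.PreComp H52.PRes H52.PCore H52.Syl H52.Sub H54.JTh
open H54.MaxEA H54.WOf H54.KP
open scoped commutatorElement

universe u

variable {G : Type u} [Group G] [Finite G]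

local notation "O₂" => Cfsg.pCoreOf 2
local notation "ΩZ" => Cfsg.omegaCenterOf
local notation "wOf" => Cfsg.wOf
local notation "JT" => Cfsg.thompsonSubgroupOf 2

/-- `L` is the unique maximal 2-local subgroup over `K J`. -/
structure UL (J K L : Subgroup G) : Prop where
  mx : Cfsg.IsMaximalTwoLocal L
  KL : K ≤ L
  JL : J ≤ L
  uniq : ∀ L' : Subgroup G, Cfsg.IsMaximalTwoLocal L' → K ≤ L' → J ≤ L' → L' = L

theorem ul_of {M T K : Subgroup G} (h : MS M T) (hK : Out M T K) {L : Subgroup G}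
    (hL : Cfsg.IsMaximalTwoLocal L) (hle : K ⊔ JT T ≤ L) :
    UL (JT T) K L ∧ SylIn 2 T L ∧ normalizer (K : Set G) ≤ L := by
  obtain ⟨L', h1, h2, h3, h4, h5, h6⟩ := h.exists_unique hK
  have h7 := h3 L hL hle
  subst h7
  exact ⟨⟨hL, le_sup_left.trans hle, le_sup_right.trans hle,
    fun L' hL' hK' hJ' => h3 L' hL' (sup_le hK' hJ')⟩, h5, h6⟩

theorem isMaxTwoLocal_cj {L : Subgroup G} (hL : Cfsg.IsMaximalTwoLocal L) (g : G) :
    Cfsg.IsMaximalTwoLocal (cj g L) := by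
  have h2 : ∀ (N : Subgroup G) (g : G), Cfsg.IsTwoLocal N → Cfsg.IsTwoLocal (cj g N) := by
    rintro N g ⟨X, hX, hX1, rfl⟩
    refine ⟨cj g X, isPGroup_cj hX, ?_, by rw [cj_normalizer]⟩
    intro h
    apply hX1
    have := card_cj g X
    rw [h, card_bot] at this
    exact card_eq_one.mp this.symm
  refine ⟨h2 _ g hL.1, fun N hN hle => ?_⟩
  have h3 := hL.2 (cj g⁻¹ N) (h2 _ _ hN) (by rw [le_cj_iff, inv_inv]; exact hle)
  rw [← h3, cj_cj_inv]

theorem core_of_max {L : Subgroup G} (hL : Cfsg.IsMaximalTwoLocal L) :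
    normalizer ((O₂ L : Subgroup G) : Set G) = L :=
  hL.2 _ (isTwoLocal_norm (isPGroup_pCoreOf L) (Glob.core_ne_bot hL.1)) (le_normalizer_pCoreOf L)

theorem normalizer_max {L : Subgroup G} (hL : Cfsg.IsMaximalTwoLocal L) :
    normalizer (L : Set G) ≤ L := by
  conv_rhs => rw [← core_of_max hL]
  exact normalizer_le_normalizer_pCoreOf L

namespace UL

variable {J K L : Subgroup G}

theorem le_of_twoLocal (h : UL J K L) {N : Subgroup G} (hN : Cfsg.IsTwoLocal N) (hK : K ≤ N)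
    (hJ : J ≤ N) : N ≤ L := by
  obtain ⟨L', hL', hNL⟩ := exists_maxTwoLocal hN
  have := h.uniq L' hL' (hK.trans hNL) (hJ.trans hNL)
  rwa [this] at hNL

theorem ul_cj (h : UL J K L) (g : G) :
    UL (H52.Syl.cj g J) (H52.Syl.cj g K) (H52.Syl.cj g L) := by
  refine ⟨isMaxTwoLocal_cj h.mx g, cj_mono h.KL, cj_mono h.JL, fun L' hL' hK' hJ' => ?_⟩
  have h1 := h.uniq (H52.Syl.cj g⁻¹ L') (isMaxTwoLocal_cj hL' _) (by rw [le_cj_iff, inv_inv]; exact hK')
    (by rw [le_cj_iff, inv_inv]; exact hJ')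
  rw [← h1, cj_cj_inv]

/-- `N_G(X) ≤ L` for `1 ≠ X ≤ Z₀ ∩ C(K)`. -/
theorem norm_le (h : UL J K L) {X : Subgroup G} (hX : X ≤ ΩZ J ⊓ centralizer (K : Set G))
    (hX1 : X ≠ ⊥) : normalizer (X : Set G) ≤ L := by
  have hX2 : IsPGroup 2 X := (isPGroup_omega J).to_le (hX.trans inf_le_left)
  apply h.le_of_twoLocal (isTwoLocal_norm hX2 hX1)
  · refine le_trans ?_ (H52.Syl.centralizer_le_normalizer X)
    rw [le_centralizer_iff]
    exact hX.trans inf_le_right
  · refine le_trans ?_ (H52.Syl.centralizer_le_normalizer X)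
    rw [le_centralizer_iff]
    exact (hX.trans inf_le_left).trans (omega_le_centralizer J)

theorem inf_cj_eq_bot (h : UL J K L) {x : G} (hxJ : x ∈ normalizer (J : Set G)) (hxL : x ∉ L) :
    (ΩZ J ⊓ centralizer (K : Set G)) ⊓ H52.Syl.cj x (ΩZ J ⊓ centralizer (K : Set G)) = ⊥ := by
  by_contra hne
  set X := (ΩZ J ⊓ centralizer (K : Set G)) ⊓ H52.Syl.cj x (ΩZ J ⊓ centralizer (K : Set G)) with hX
  have h1 : normalizer (X : Set G) ≤ L := h.norm_le inf_le_left hne
  have h2 : H52.Syl.cj x K ≤ L := by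
    refine le_trans ?_ h1
    refine le_trans ?_ (H52.Syl.centralizer_le_normalizer X)
    rw [le_centralizer_iff]
    refine inf_le_right.trans ?_
    rw [cj_inf, cj_centralizer]
    exact inf_le_right
  have h3 : H52.Syl.cj x J ≤ L := by rw [cj_eq_of_mem_normalizer hxJ]; exact h.JL
  have h4 := h.uniq (H52.Syl.cj x⁻¹ L) (isMaxTwoLocal_cj h.mx _) (by rw [le_cj_iff, inv_inv]; exact h2)
    (by rw [le_cj_iff, inv_inv]; exact h3)
  apply hxL
  have h5 := normalizer_max h.mx (mem_normalizer_of_cj_eq h4)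
  have := inv_mem h5
  rwa [inv_inv] at this

end UL

theorem omega_ne_bot {X : Subgroup G} (hX : IsPGroup 2 X) (h1 : X ≠ ⊥) : ΩZ X ≠ ⊥ := by
  have h2 := fix_ne_bot (A := X) (W := X) hX hX Subgroup.le_normalizer h1
  have h3 : IsPGroup 2 ↥(X ⊓ centralizer (X : Set G)) := hX.to_le inf_le_left
  obtain ⟨n, hn⟩ := IsPGroup.iff_card.mp h3
  have h4 : 2 ∣ Nat.card ↥(X ⊓ centralizer (X : Set G)) := by
    rw [hn]
    rcases Nat.eq_zero_or_pos n with h0 | h0
    · exfalso
      rw [h0, pow_zero] at hn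
      exact h2 (card_eq_one.mp hn)
    · exact dvd_pow_self 2 (by omega)
  obtain ⟨x, hx⟩ := exists_prime_orderOf_dvd_card' 2 h4
  intro h5
  have h6 : (x : G) ∈ ΩZ X := by
    rw [mem_omega]
    refine ⟨(Subgroup.mem_inf.mp x.2).1, (Subgroup.mem_inf.mp x.2).2, ?_⟩
    have := pow_orderOf_eq_one x
    rw [hx] at this
    exact congrArg Subtype.val this
  rw [h5, mem_bot] at h6
  have h7 : x = 1 := Subtype.ext h6
  rw [h7, orderOf_one] at hx
  omega

/-- the index of `Z₁` -/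
theorem JComp.card_Z₀ {J K : Subgroup G} (hJ2 : IsPGroup 2 J) (hK : JComp J K) :
    Nat.card (ΩZ J) = Nat.card ↥(ΩZ J ⊓ centralizer (K : Set G)) * 2 := by
  have h1 := (hK.split hJ2).le
  have h2 : (ΩZ J ⊓ centralizer (K : Set G)) ⊔ (ΩZ J ⊓ wOf K) = ΩZ J :=
    le_antisymm (sup_le inf_le_left inf_le_left) h1
  have hΩc := H13.ElemAb.le_centralizer (isEA_omega J)
  have h3 := H13.Thompson.card_sup_mul_card_inf (A := ΩZ J ⊓ centralizer (K : Set G))
    (B := ΩZ J ⊓ wOf K) (by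
      refine le_trans ((inf_le_left : _ ≤ ΩZ J).trans hΩc) ?_
      refine le_trans (centralizer_le ?_) (H52.Syl.centralizer_le_normalizer (ΩZ J ⊓ wOf K))
      exact fun _ h => (Subgroup.mem_inf.mp h).1)
  have h4 : (ΩZ J ⊓ centralizer (K : Set G)) ⊓ (ΩZ J ⊓ wOf K) = ⊥ := by
    rw [eq_bot_iff, ← wOf_inf hK.pre.toKP]
    exact le_inf (inf_le_right.trans inf_le_right) (inf_le_left.trans inf_le_right)
  rw [h2, h4, card_bot, mul_one, (hK.card_two hJ2).1] at h3
  exact h3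

/-- `K J` is not 2-closed. -/
theorem JComp.not_le_norm {J K : Subgroup G} (hJ2 : IsPGroup 2 J) (hK : JComp J K)
    (S : Sylow 2 G) (hKS : K ≤ normalizer ((S : Subgroup G) : Set G))
    (hJS : J ≤ normalizer ((S : Subgroup G) : Set G)) : False := by
  have h1 : J ≤ S := by
    have h2 : IsPGroup 2 ↥(J ⊔ (S : Subgroup G)) := hJ2.to_sup_of_normal_right' S.isPGroup' hJS
    have h3 := S.is_maximal' h2 le_sup_right
    rw [← h3]; exact le_sup_left
  apply hK.pre.card_ne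
  apply S.isPGroup'.to_le
  calc K = ⁅K, J⁆ := hK.pre.comm.symm
    _ ≤ ⁅K, (S : Subgroup G)⁆ := commutator_mono le_rfl h1
    _ ≤ _ := H1.Coprime2.commutator_le_right hKS

theorem JComp.not_omega_le (hg : Glob G) {J K : Subgroup G} (hJ2 : IsPGroup 2 J) (hK : JComp J K)
    (S : Sylow 2 G) : ¬ ΩZ (S : Subgroup G) ≤ ΩZ J ⊓ centralizer (K : Set G) := by
  intro h
  apply hK.not_le_norm hJ2 S
  · refine le_trans ?_ (hg.cz S)
    rw [le_centralizer_iff]; exact h.trans inf_le_right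
  · refine le_trans ?_ (hg.cz S)
    rw [le_centralizer_iff]
    exact (h.trans inf_le_left).trans (omega_le_centralizer J)

/-- `Z ≤ Z₀` -/
theorem omega_le_omega (hg : Glob G) {T L : Subgroup G} (hT : SylIn 2 T L)
    (hL : Cfsg.IsTwoLocal L) {S : Subgroup G} (hTS : T ≤ S) :
    ΩZ S ≤ ΩZ T ∧ ΩZ T ≤ ΩZ (JT T) := by
  have h1 := (Glob.Z_le hT (hg.char2 hL) hTS).trans hT.pCoreOf_le
  refine ⟨?_, ?_⟩
  · intro x hx
    have hx' := mem_omega.mp hx
    rw [mem_omega]
    exact ⟨h1 hx, centralizer_le hTS hx'.2.1, hx'.2.2⟩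
  · intro x hx
    obtain ⟨hx1, hx2, hx3⟩ := mem_omega.mp hx
    have h2 : x ∈ centralizer ((JT T : Subgroup G) : Set G) :=
      centralizer_le (H13.SylowN.thompsonOf_le T) hx2
    rw [mem_omega]
    refine ⟨?_, h2, hx3⟩
    obtain ⟨A, hA⟩ := exists_mem T
    exact le_thompsonOf hA (mem_of_centralizes hA hx1 (centralizer_le (le_thompsonOf hA) h2) hx3)

end H54.Setup
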