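import Cfsg.Agent.Lib.H54.Center1

set_option autoImplicit false
set_option linter.dupNamespace false
set_option linter.unusedSectionVars false
set_option maxHeartbeats 400000

/-!
The case analysis for the center of `J(T)`.
-/

namespace H54.Setup

open Subgroup H54.PreComp H52.PRes H52.PCore H52.Syl H52.Sub H54.JTh
open H54.MaxEA H54.WOf H54.KP
open scoped commutatorElement

universe u

variable {G : Type u} [Group G] [Finite G]

local notation "O₂" => Cfsg.pCoreOf 2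
local notation "ΩZ" => Cfsg.omegaCenterOf
local notation "wOf" => Cfsg.wOf
local notation "JT" => Cfsg.thompsonSubgroupOf 2

theorem exists_x {T L : Subgroup G} (hTL : SylIn 2 T L) {S : Sylow 2 G} (hTS : T ≤ S)
    (hne : T ≠ S) : ∃ x ∈ (S : Subgroup G), x ∈ normalizer (T : Set G) ∧ x ∉ L := by
  have hlt : T < S := lt_of_le_of_ne hTS hne
  have h1 := H2.PGrp.lt_inf_normalizer S.isPGroup' hlt
  obtain ⟨x, hx, hxT⟩ := SetLike.exists_of_lt h1
  refine ⟨x, (Subgroup.mem_inf.mp hx).1, (Subgroup.mem_inf.mp hx).2, ?_⟩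
  intro hxL
  apply hxT
  have h2 : (S : Subgroup G) ⊓ L = T := hTL.max inf_le_right (S.isPGroup'.to_le inf_le_left)
    (le_inf hTS hTL.le)
  rw [← h2]
  exact Subgroup.mem_inf.mpr ⟨(Subgroup.mem_inf.mp hx).1, hxL⟩

theorem normT_le_normJ (T : Subgroup G) :
    normalizer (T : Set G) ≤ normalizer ((JT T : Subgroup G) : Set G) :=
  H13.SylowN.normalizer_le_normalizer_thompsonOf T

theorem two_subgroups_card {Z₀ A B : Subgroup G} (he : Z₀ ≤ centralizer (Z₀ : Set G))
    (hA : A ≤ Z₀) (hB : B ≤ Z₀) (hAB : A ⊓ B = ⊥) : Nat.card A * Nat.card B ≤ Nat.card Z₀ := by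
  have h3 := H13.Thompson.card_sup_mul_card_inf (A := A) (B := B) (by
      refine le_trans (hA.trans he) ?_
      exact le_trans (centralizer_le hB) (H52.Syl.centralizer_le_normalizer B))
  rw [hAB, card_bot, mul_one] at h3
  rw [← h3]
  exact card_le_of_le (sup_le hA hB)

section

variable {J K L : Subgroup G}

theorem UL.card_le_four (h : UL J K L) (hJ2 : IsPGroup 2 J) (hK : JComp J K) {x : G}
    (hxJ : x ∈ normalizer (J : Set G)) (hxL : x ∉ L) :
    Nat.card ↥(ΩZ J ⊓ centralizer (K : Set G)) ≤ 2 ∧ Nat.card (ΩZ J) ≤ 4 := by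
  have h1 := h.inf_cj_eq_bot hxJ hxL
  have hc := hK.card_Z₀ hJ2
  have h2 : H52.Syl.cj x (ΩZ J) = ΩZ J :=
    cj_eq_of_mem_normalizer (normalizer_le_normalizer_omega J hxJ)
  have h3 := two_subgroups_card (H13.ElemAb.le_centralizer (isEA_omega J))
    (A := ΩZ J ⊓ centralizer (K : Set G))
    (B := H52.Syl.cj x (ΩZ J ⊓ centralizer (K : Set G))) inf_le_left (by
      conv_rhs => rw [← h2]
      exact cj_mono inf_le_left) h1
  rw [card_cj, hc] at h3
  have hpos : 0 < Nat.card ↥(ΩZ J ⊓ centralizer (K : Set G)) := Nat.card_pos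
  have h4 : Nat.card ↥(ΩZ J ⊓ centralizer (K : Set G)) ≤ 2 :=
    Nat.le_of_mul_le_mul_left h3 hpos
  exact ⟨h4, by omega⟩

end

theorem card_le_two_exists {X : Subgroup G} (h : Nat.card X = 2) :
    ∃ z ∈ X, z ≠ 1 ∧ ∀ y ∈ X, y = 1 ∨ y = z := by
  classical
  have h1 : X ≠ ⊥ := by rintro rfl; rw [card_bot] at h; omega
  obtain ⟨z, hz1⟩ := ne_bot_iff_exists_ne_one.mp h1
  refine ⟨z, z.2, fun h => hz1 (Subtype.ext h), ?_⟩
  intro y hy
  by_contra hcon
  push Not at hcon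
  have h2 : ({1, z, ⟨y, hy⟩} : Finset X).card ≤ Nat.card X := by
    have : Fintype X := Fintype.ofFinite X
    rw [Nat.card_eq_fintype_card]
    exact Finset.card_le_univ _
  have h3 : ({1, z, ⟨y, hy⟩} : Finset X).card = 3 := by
    rw [Finset.card_insert_of_notMem, Finset.card_pair]
    · intro h; exact hcon.2 (congrArg Subtype.val h).symm
    · simp only [Finset.mem_insert, Finset.mem_singleton, not_or]
      exact ⟨fun h => hz1 h.symm, fun h => hcon.1 (congrArg Subtype.val h).symm⟩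
  omega

/-- action on a four-group `{1, z, z₁, z z₁}` of an element fixing `z`. -/
theorem four_act {Z₀ : Subgroup G} (h4 : Nat.card Z₀ = 4) (he : Cfsg.IsElementaryAbelian 2 Z₀)
    {z z₁ n : G} (hz : z ∈ Z₀) (hz₁ : z₁ ∈ Z₀) (hz1 : z ≠ 1) (hz₁1 : z₁ ≠ 1) (hne : z₁ ≠ z)
    (hn : n ∈ normalizer (Z₀ : Set G)) (hnz : n * z * n⁻¹ = z) :
    n * z₁ * n⁻¹ = z₁ ∨ n * z₁ * n⁻¹ = z * z₁ := by
  have h1 : n * z₁ * n⁻¹ ∈ Z₀ := H54.Basic.mul_inv_mem_of_mem_normalizer hn hz₁
  have hzz : z * z = 1 := by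
    have := (H13.ElemAb.iff_mem.mp he).2 z hz
    rwa [pow_two] at this
  rcases H54.Transv.mem_four h4 hz hz₁ hz1 hz₁1 hne hzz h1 with h | h | h | h
  · exfalso; apply hz₁1
    have : z₁ = n⁻¹ * (n * z₁ * n⁻¹) * n := by group
    rw [this, h]; group
  · exfalso; apply hne
    have : z₁ = n⁻¹ * (n * z₁ * n⁻¹) * n := by group
    rw [this, h]
    conv_rhs => rw [← mul_one z]
    have h5 : n⁻¹ * z * n = z := by
      conv_lhs => rw [← hnz]
      group
    rw [h5, mul_one]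
  · exact Or.inl h
  · exact Or.inr h

/-- an element of `N(Z₀)` centralizing `z` and `z₁` centralizes the four-group -/
theorem four_cent {Z₀ : Subgroup G} (h4 : Nat.card Z₀ = 4) (he : Cfsg.IsElementaryAbelian 2 Z₀)
    {z z₁ n : G} (hz : z ∈ Z₀) (hz₁ : z₁ ∈ Z₀) (hz1 : z ≠ 1) (hz₁1 : z₁ ≠ 1) (hne : z₁ ≠ z)
    (hnz : n * z * n⁻¹ = z) (hnz₁ : n * z₁ * n⁻¹ = z₁) : n ∈ centralizer (Z₀ : Set G) := by
  have hzz : z * z = 1 := by
    have := (H13.ElemAb.iff_mem.mp he).2 z hz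
    rwa [pow_two] at this
  have c1 : Commute z n := by
    rw [commute_iff_eq]; calc z * n = (n * z * n⁻¹) * n := by rw [hnz]
      _ = n * z := by group
  have c2 : Commute z₁ n := by
    rw [commute_iff_eq]; calc z₁ * n = (n * z₁ * n⁻¹) * n := by rw [hnz₁]
      _ = n * z₁ := by group
  rw [mem_centralizer_iff]
  intro y hy
  rcases H54.Transv.mem_four h4 hz hz₁ hz1 hz₁1 hne hzz hy with h | h | h | h
  · rw [h]; simp
  · rw [h]; exact c1
  · rw [h]; exact c2
  · rw [h]; exact c1.mul_left c2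

theorem conj_fix {X : Subgroup G} {n z : G} (hn : n ∈ centralizer (X : Set G)) (hz : z ∈ X) :
    n * z * n⁻¹ = z := by
  have := mem_centralizer_iff.mp hn z hz
  rw [← this]; group

theorem conj_omega_fix {S : Subgroup G} {s z : G} (hs : s ∈ S) (hz : z ∈ ΩZ S) :
    s * z * s⁻¹ = z :=
  conj_fix (le_centralizer_omega S hs) hz

/-- if `Z = ⟨z⟩` then no conjugate of `z` is in `Z₁`. -/
theorem Zconj (hg : Glob G) {J K : Subgroup G} (hJ2 : IsPGroup 2 J) (hK : JComp J K)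
    {S : Sylow 2 G} {z : G} (hz : ∀ y ∈ ΩZ (S : Subgroup G), y = 1 ∨ y = z) {g : G}
    (h : g * z * g⁻¹ ∈ ΩZ J ⊓ centralizer (K : Set G)) : False := by
  apply hK.not_omega_le hg hJ2 (g • S)
  rw [H54.Basic.coe_sylow_smul]
  have h1 := omega_map_conj g (S : Subgroup G)
  rw [h1]
  rintro _ ⟨y, hy, rfl⟩
  rcases hz y hy with h2 | h2
  · rw [h2, map_one]; exact one_mem _
  · rw [h2]; exact h

section

variable {K L T : Subgroup G} {S : Sylow 2 G}

/-- the conclusion in case 1 -/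
theorem case1 (hg : Glob G) (u : UL (JT T) K L) (hTL : SylIn 2 T L) (hK : JComp (JT T) K)
    (hTS : T ≤ S) (hne : T ≠ S) :
    Nat.card (ΩZ (S : Subgroup G)) = 2 ∧
    ((ΩZ (S : Subgroup G) = ΩZ (JT T) ∧ Nat.card (ΩZ (JT T)) = 2) ∨
      (ΩZ T = ΩZ (JT T) ∧ Nat.card (ΩZ (JT T)) = 4 ∧
        (L ⊓ centralizer ((ΩZ (JT T) : Subgroup G) : Set G)).relIndex
          (normalizer ((ΩZ (JT T) : Subgroup G) : Set G)) = 2)) := by
  have hT2 := hTL.isPGroup
  have hJ2 : IsPGroup 2 (JT T) := hT2.to_le (H13.SylowN.thompsonOf_le T)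
  obtain ⟨hZT, hTZ₀⟩ := omega_le_omega hg hTL u.mx.1 hTS
  have hZZ₀ := hZT.trans hTZ₀
  have hSb : (S : Subgroup G) ≠ ⊥ := by
    intro h
    apply hne
    rw [h, le_bot_iff] at hTS
    rw [hTS, h]
  have hZb := omega_ne_bot S.isPGroup' hSb
  obtain ⟨x, hxS, hxT, hxL⟩ := exists_x hTL hTS hne
  have hxJ := normT_le_normJ T hxT
  obtain ⟨hc1, hc0⟩ := u.card_le_four hJ2 hK hxJ hxL
  have hcc := hK.card_Z₀ hJ2
  have hbot := u.inf_cj_eq_bot hxJ hxL
  have hZcard : 2 ≤ Nat.card (ΩZ (S : Subgroup G)) := by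
    have h1 : Nat.card (ΩZ (S : Subgroup G)) ≠ 1 := fun h => hZb (card_eq_one.mp h)
    have h2 : 0 < Nat.card (ΩZ (S : Subgroup G)) := Nat.card_pos
    omega
  have hpos1 : 0 < Nat.card ↥(ΩZ (JT T) ⊓ centralizer (K : Set G)) := Nat.card_pos
  rcases Nat.lt_or_ge (Nat.card ↥(ΩZ (JT T) ⊓ centralizer (K : Set G))) 2 with hlt | hge
  · -- |Z₀| = 2
    have h2 : Nat.card (ΩZ (JT T)) = 2 := by omega
    have h3 : ΩZ (S : Subgroup G) = ΩZ (JT T) := eq_of_le_of_card_ge hZZ₀ (by omega)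
    exact ⟨by rw [h3, h2], Or.inl ⟨h3, h2⟩⟩
  · have h2 : Nat.card ↥(ΩZ (JT T) ⊓ centralizer (K : Set G)) = 2 := by omega
    have h4 : Nat.card (ΩZ (JT T)) = 4 := by omega
    obtain ⟨z₁, hz₁, hz₁1, hz₁g⟩ := card_le_two_exists h2
    have hz₁Z := (Subgroup.mem_inf.mp hz₁).1
    have hxZ : ∀ y ∈ ΩZ (S : Subgroup G), x * y * x⁻¹ = y := fun y hy => conj_omega_fix hxS hy
    have hZZ₁ : ΩZ (S : Subgroup G) ⊓ (ΩZ (JT T) ⊓ centralizer (K : Set G)) = ⊥ := by
      rw [eq_bot_iff, ← hbot]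
      intro y hy
      obtain ⟨hy1, hy2⟩ := Subgroup.mem_inf.mp hy
      refine Subgroup.mem_inf.mpr ⟨hy2, ?_⟩
      rw [← hxZ y hy1]
      exact conj_mem_cj hy2
    have he := isEA_omega (JT T)
    have h5 := two_subgroups_card (H13.ElemAb.le_centralizer he) hZZ₀ inf_le_left hZZ₁
    rw [h2, h4] at h5
    have hZ2 : Nat.card (ΩZ (S : Subgroup G)) = 2 := by omega
    refine ⟨hZ2, Or.inr ?_⟩
    obtain ⟨z, hz, hz1, hzg⟩ := card_le_two_exists hZ2
    have hzZ₀ := hZZ₀ hz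
    have hzz : z * z = 1 := by
      have := (H13.ElemAb.iff_mem.mp he).2 z hzZ₀
      rwa [pow_two] at this
    have hz₁z : z₁ ≠ z := by
      intro h
      have : z ∈ ΩZ (S : Subgroup G) ⊓ (ΩZ (JT T) ⊓ centralizer (K : Set G)) :=
        Subgroup.mem_inf.mpr ⟨hz, by rw [← h]; exact hz₁⟩
      rw [hZZ₁, mem_bot] at this
      exact hz1 this
    have hxN : x ∈ normalizer ((ΩZ (JT T) : Subgroup G) : Set G) :=
      normalizer_le_normalizer_omega _ hxJ
    have hxz := hxZ z hz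
    have hxz₁ : x * z₁ * x⁻¹ = z * z₁ := by
      rcases four_act h4 he hzZ₀ hz₁Z hz1 hz₁1 hz₁z hxN hxz with h | h
      · exfalso
        have : z₁ ∈ (⊥ : Subgroup G) := by
          rw [← hbot]
          refine Subgroup.mem_inf.mpr ⟨hz₁, ?_⟩
          rw [← h]; exact conj_mem_cj hz₁
        exact hz₁1 (mem_bot.mp this)
      · exact h
    -- centralizer of z₁ is in L
    have hCL : ∀ g : G, g * z₁ * g⁻¹ = z₁ → g ∈ L := by
      intro g hgz
      apply u.norm_le le_rfl (fun h => by rw [h, card_bot] at h2; omega)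
      apply H52.Syl.centralizer_le_normalizer
      rw [mem_centralizer_iff]
      intro y hy
      rcases hz₁g y hy with h | h
      · rw [h]; simp
      · rw [h]
        calc z₁ * g = (g * z₁ * g⁻¹) * g := by rw [hgz]
          _ = g * z₁ := by group
    have hkey : ∀ g : G, g * z₁ * g⁻¹ = z * z₁ → g ∈ L → False := by
      intro g hgz hgL
      apply hxL
      have h6 : (x⁻¹ * g) * z₁ * (x⁻¹ * g)⁻¹ = z₁ := by
        calc (x⁻¹ * g) * z₁ * (x⁻¹ * g)⁻¹ = x⁻¹ * (g * z₁ * g⁻¹) * x := by group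
          _ = x⁻¹ * (x * z₁ * x⁻¹) * x := by rw [hgz, hxz₁]
          _ = z₁ := by group
      have h7 := hCL _ h6
      have h8 := mul_mem h7 (inv_mem hgL)
      have e : x⁻¹ * g * g⁻¹ = x⁻¹ := by group
      rw [e] at h8
      have := inv_mem h8
      rwa [inv_inv] at this
    have hTc : T ≤ centralizer ((ΩZ (JT T) : Subgroup G) : Set G) := by
      intro t ht
      have htN : t ∈ normalizer ((ΩZ (JT T) : Subgroup G) : Set G) :=
        normalizer_le_normalizer_omega _ (normT_le_normJ T (Subgroup.le_normalizer ht))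
      have htz : t * z * t⁻¹ = z := conj_omega_fix (hTS ht) hz
      rcases four_act h4 he hzZ₀ hz₁Z hz1 hz₁1 hz₁z htN htz with h | h
      · exact four_cent h4 he hzZ₀ hz₁Z hz1 hz₁1 hz₁z htz h
      · exact absurd (hTL.le ht) (fun htL => hkey t h htL)
    refine ⟨?_, h4, ?_⟩
    · apply le_antisymm hTZ₀
      intro y hy
      rw [mem_omega]
      refine ⟨(H13.SylowN.thompsonOf_le T) (omega_le _ hy), ?_, (H13.ElemAb.iff_mem.mp he).2 y hy⟩
      rw [le_centralizer_iff] at hTc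
      exact hTc hy
    · rw [relIndex_eq_two_iff]
      refine ⟨x, hxN, fun b hb => ?_⟩
      -- b fixes z
      have hzz₁ : z * z₁ ∈ ΩZ (JT T) := mul_mem hzZ₀ hz₁Z
      have hbz : b * z * b⁻¹ = z := by
        have h6 : b * z * b⁻¹ ∈ ΩZ (JT T) := H54.Basic.mul_inv_mem_of_mem_normalizer hb hzZ₀
        rcases H54.Transv.mem_four h4 hzZ₀ hz₁Z hz1 hz₁1 hz₁z hzz h6 with h | h | h | h
        · exfalso; apply hz1
          have : z = b⁻¹ * (b * z * b⁻¹) * b := by group
          rw [this, h]; group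
        · exact h
        · exact absurd (by rw [h]; exact hz₁) (fun h => Zconj hg hJ2 hK hzg (g := b) h)
        · exfalso
          apply Zconj hg hJ2 hK hzg (g := x⁻¹ * b)
          have e : (x⁻¹ * b) * z * (x⁻¹ * b)⁻¹ = z₁ := by
            calc (x⁻¹ * b) * z * (x⁻¹ * b)⁻¹ = x⁻¹ * (b * z * b⁻¹) * x := by group
              _ = x⁻¹ * (x * z₁ * x⁻¹) * x := by rw [h, hxz₁]
              _ = z₁ := by group
          rw [e]; exact hz₁
      have hne2 : z * z₁ ≠ z₁ := by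
        intro h
        apply hz1
        calc z = (z * z₁) * z₁⁻¹ := by group
          _ = 1 := by rw [h]; group
      have hmem : ∀ g : G, g * z * g⁻¹ = z → (g * z₁ * g⁻¹ = z₁ ↔
          g ∈ L ⊓ centralizer ((ΩZ (JT T) : Subgroup G) : Set G)) := by
        intro g hgz
        constructor
        · intro h
          exact Subgroup.mem_inf.mpr ⟨hCL g h, four_cent h4 he hzZ₀ hz₁Z hz1 hz₁1 hz₁z hgz h⟩
        · intro h
          exact conj_fix (Subgroup.mem_inf.mp h).2 hz₁Z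
      have hbxz : (b * x) * z * (b * x)⁻¹ = z := by
        calc (b * x) * z * (b * x)⁻¹ = b * (x * z * x⁻¹) * b⁻¹ := by group
          _ = z := by rw [hxz, hbz]
      have hbxz₁ : (b * x) * z₁ * (b * x)⁻¹ = z * (b * z₁ * b⁻¹) := by
        calc (b * x) * z₁ * (b * x)⁻¹ = b * (x * z₁ * x⁻¹) * b⁻¹ := by group
          _ = b * (z * z₁) * b⁻¹ := by rw [hxz₁]
          _ = (b * z * b⁻¹) * (b * z₁ * b⁻¹) := by group
          _ = _ := by rw [hbz]
      rcases four_act h4 he hzZ₀ hz₁Z hz1 hz₁1 hz₁z hb hbz with h | h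
      · right
        refine ⟨(hmem b hbz).mp h, fun hcon => ?_⟩
        have := (hmem _ hbxz).mpr hcon
        rw [hbxz₁, h] at this
        exact hne2 this
      · left
        refine ⟨(hmem _ hbxz).mp ?_, fun hcon => ?_⟩
        · rw [hbxz₁, h, ← mul_assoc, hzz, one_mul]
        · have := (hmem b hbz).mpr hcon
          rw [h] at this
          exact hne2 this

end

end H54.Setup
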