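import Cfsg.Agent.Lib.H54.Center2

set_option autoImplicit false
set_option linter.dupNamespace false
set_option linter.unusedSectionVars false
set_option maxHeartbeats 400000

/-!
The case `T = S` for the center of `J(T)`.
-/

namespace H54.Setup

open Subgroup H54.PreComp H52.PRes H52.PCore H52.Syl H52.Sub H54.JTh
open H54.MaxEA H54.WOf H54.KP
open scoped commutatorElement

universe u

variable {G : Type u} [Group G] [Finite G]

local notation "O₂" => Cfsg.pCoreOf 2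
local notation "ΩZ" => Cfsg.omegaCenterOf
local notation "wOf" => Cfsg.wOf
local notation "JT" => Cfsg.thompsonSubgroupOf 2

theorem final_four {S : Sylow 2 G} {Z₀ : Subgroup G} (hZ₀ : Cfsg.IsElementaryAbelian 2 Z₀)
    (h4 : Nat.card Z₀ = 4) (hZ : ΩZ (S : Subgroup G) ≤ Z₀) (hZ₀S : Z₀ ≤ S)
    (hSn : (S : Subgroup G) ≤ normalizer (Z₀ : Set G)) {z₁ z₂ : G}
    (hz₁ : z₁ ∈ Z₀) (hz₁1 : z₁ ≠ 1) (hz₂ : z₂ ∈ Z₀) (hz₂1 : z₂ ≠ 1) (h12 : z₁ ≠ z₂)
    (hZ1 : ∀ z, (∀ y ∈ ΩZ (S : Subgroup G), y = 1 ∨ y = z) → z ≠ z₁ ∧ z ≠ z₂)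
    (hs : ∀ s ∈ (S : Subgroup G), s * z₁ * s⁻¹ ≠ z₂) : ΩZ (S : Subgroup G) = Z₀ := by
  by_contra hne
  have hSb : (S : Subgroup G) ≠ ⊥ := by
    intro h
    rw [h, le_bot_iff] at hZ₀S
    rw [hZ₀S, card_bot] at h4
    omega
  have hZb := omega_ne_bot S.isPGroup' hSb
  have hcard : Nat.card (ΩZ (S : Subgroup G)) = 2 := by
    have h1 := card_dvd_of_le hZ
    rw [h4] at h1
    have h2 : Nat.card (ΩZ (S : Subgroup G)) ∈ Nat.divisors 4 := by simp [h1]
    have h5 : Nat.divisors 4 = {1, 2, 4} := by decide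
    rw [h5] at h2
    simp only [Finset.mem_insert, Finset.mem_singleton] at h2
    rcases h2 with h2 | h2 | h2
    · exact absurd (card_eq_one.mp h2) hZb
    · exact h2
    · exact absurd (eq_of_le_of_card_ge hZ (by omega)) hne
  obtain ⟨z, hz, hz1, hzg⟩ := card_le_two_exists hcard
  obtain ⟨g1, g2⟩ := hZ1 z hzg
  have hzZ₀ := hZ hz
  have hzz : z * z = 1 := by
    have := (H13.ElemAb.iff_mem.mp hZ₀).2 z hzZ₀
    rwa [pow_two] at this
  have hz2 : z₂ = z * z₁ := by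
    rcases H54.Transv.mem_four h4 hzZ₀ hz₁ hz1 hz₁1 (fun h => g1 h.symm) hzz hz₂ with h | h | h | h
    · exact absurd h hz₂1
    · exact absurd h.symm g2
    · exact absurd h.symm h12
    · exact h
  have hSc : (S : Subgroup G) ≤ centralizer (Z₀ : Set G) := by
    intro s hsS
    have hsz : s * z * s⁻¹ = z := conj_omega_fix hsS hz
    rcases four_act h4 hZ₀ hzZ₀ hz₁ hz1 hz₁1 (fun h => g1 h.symm) (hSn hsS) hsz with h | h
    · exact four_cent h4 hZ₀ hzZ₀ hz₁ hz1 hz₁1 (fun h => g1 h.symm) hsz h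
    · exact absurd (by rw [h, hz2]) (hs s hsS)
  apply hne
  apply le_antisymm hZ
  intro y hy
  rw [mem_omega]
  refine ⟨hZ₀S hy, ?_, (H13.ElemAb.iff_mem.mp hZ₀).2 y hy⟩
  rw [le_centralizer_iff] at hSc
  exact hSc hy

section

variable {K L : Subgroup G} {S : Sylow 2 G}

theorem cent_le {J : Subgroup G} (u : UL J K L) {z₁ : G}
    (hz₁ : z₁ ∈ ΩZ J ⊓ centralizer (K : Set G)) (hz₁1 : z₁ ≠ 1) {g : G}
    (hg : g * z₁ * g⁻¹ = z₁) : g ∈ L := by
  apply u.norm_le (X := zpowers z₁) (by rwa [zpowers_le]) (by rwa [Ne, zpowers_eq_bot])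
  apply H52.Syl.centralizer_le_normalizer
  rw [centralizer_zpowers', mem_centralizer_singleton_iff]
  calc g * z₁ = (g * z₁ * g⁻¹) * g := by group
    _ = z₁ * g := by rw [hg]

theorem Zne (hg : Glob G) {J : Subgroup G} (hJ2 : IsPGroup 2 J) (hK : JComp J K) {z₁ g : G}
    (hz₁ : z₁ ∈ ΩZ J ⊓ centralizer (K : Set G)) {z : G}
    (hzg : ∀ y ∈ ΩZ (S : Subgroup G), y = 1 ∨ y = z) : z ≠ g * z₁ * g⁻¹ := by
  intro h
  apply Zconj hg hJ2 hK hzg (g := g⁻¹)
  have : g⁻¹ * z * (g⁻¹)⁻¹ = z₁ := by rw [h]; group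
  rw [this]; exact hz₁

theorem case2_common (hSL : (S : Subgroup G) ≤ L) (hg : Glob G) (hL : Cfsg.IsTwoLocal L) :
    SylIn 2 (S : Subgroup G) L ∧ IsPGroup 2 (JT (S : Subgroup G)) ∧
    ΩZ (S : Subgroup G) ≤ ΩZ (JT (S : Subgroup G)) ∧
    (S : Subgroup G) ≤ normalizer ((ΩZ (JT (S : Subgroup G)) : Subgroup G) : Set G) ∧
    ΩZ (JT (S : Subgroup G)) ≤ S := by
  have hTL : SylIn 2 (S : Subgroup G) L := sylIn_of_sylow S hSL
  have hJ2 : IsPGroup 2 (JT (S : Subgroup G)) := S.isPGroup'.to_le (H13.SylowN.thompsonOf_le _)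
  obtain ⟨hZT, hTZ₀⟩ := omega_le_omega hg hTL hL (le_refl (S : Subgroup G))
  refine ⟨hTL, hJ2, hZT.trans hTZ₀, ?_, (omega_le _).trans (H13.SylowN.thompsonOf_le _)⟩
  exact (Subgroup.le_normalizer.trans (normT_le_normJ _)).trans (normalizer_le_normalizer_omega _)

theorem case_two_card (hg : Glob G) (hSL : (S : Subgroup G) ≤ L) (hL : Cfsg.IsTwoLocal L)
    (h2 : Nat.card (ΩZ (JT (S : Subgroup G))) = 2) :
    ΩZ (S : Subgroup G) = ΩZ (JT (S : Subgroup G)) := by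
  obtain ⟨hTL, hJ2, hZZ₀, hSn, hZ₀S⟩ := case2_common hSL hg hL
  have hSb : (S : Subgroup G) ≠ ⊥ := by
    intro h
    rw [h, le_bot_iff] at hZ₀S
    rw [h] at h2
    rw [hZ₀S, card_bot] at h2
    omega
  have hZb := omega_ne_bot S.isPGroup' hSb
  apply eq_of_le_of_card_ge hZZ₀
  rw [h2]
  have h1 : Nat.card (ΩZ (S : Subgroup G)) ≠ 1 := fun h => hZb (card_eq_one.mp h)
  have h2 : 0 < Nat.card (ΩZ (S : Subgroup G)) := Nat.card_pos
  omega

/-- case 2a -/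
theorem case2a (hg : Glob G) (u : UL (JT (S : Subgroup G)) K L) (hSL : (S : Subgroup G) ≤ L)
    (hK : JComp (JT (S : Subgroup G)) K) {x : G}
    (hxJ : x ∈ normalizer ((JT (S : Subgroup G) : Subgroup G) : Set G)) (hxL : x ∉ L) :
    ΩZ (S : Subgroup G) = ΩZ (JT (S : Subgroup G)) ∧ Nat.card (ΩZ (JT (S : Subgroup G))) ≤ 4 := by
  obtain ⟨hTL, hJ2, hZZ₀, hSn, hZ₀S⟩ := case2_common hSL hg u.mx.1
  obtain ⟨hc1, hc0⟩ := u.card_le_four hJ2 hK hxJ hxL
  have hcc := hK.card_Z₀ hJ2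
  have hbot := u.inf_cj_eq_bot hxJ hxL
  have hpos1 : 0 < Nat.card ↥(ΩZ (JT (S : Subgroup G)) ⊓ centralizer (K : Set G)) := Nat.card_pos
  refine ⟨?_, hc0⟩
  rcases Nat.lt_or_ge (Nat.card ↥(ΩZ (JT (S : Subgroup G)) ⊓ centralizer (K : Set G))) 2
    with hlt | hge
  · exact case_two_card hg hSL u.mx.1 (by omega)
  have h2 : Nat.card ↥(ΩZ (JT (S : Subgroup G)) ⊓ centralizer (K : Set G)) = 2 := by omega
  have h4 : Nat.card (ΩZ (JT (S : Subgroup G))) = 4 := by omega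
  obtain ⟨z₁, hz₁, hz₁1, hz₁g⟩ := card_le_two_exists h2
  have hz₁Z := (Subgroup.mem_inf.mp hz₁).1
  have hxN := normalizer_le_normalizer_omega _ hxJ
  refine final_four (isEA_omega _) h4 hZZ₀ hZ₀S hSn hz₁Z hz₁1 (z₂ := x * z₁ * x⁻¹)
    (H54.Basic.mul_inv_mem_of_mem_normalizer hxN hz₁Z) ?_ ?_ ?_ ?_
  · intro h
    apply hz₁1
    have : z₁ = x⁻¹ * (x * z₁ * x⁻¹) * x := by group
    rw [this, h]; group
  · intro h
    have : z₁ ∈ (⊥ : Subgroup G) := by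
      rw [← hbot]
      refine Subgroup.mem_inf.mpr ⟨hz₁, ?_⟩
      rw [h]; exact conj_mem_cj hz₁
    exact hz₁1 (mem_bot.mp this)
  · intro z hzg
    refine ⟨?_, Zne hg hJ2 hK hz₁ hzg⟩
    have := Zne (g := 1) hg hJ2 hK hz₁ hzg
    simpa using this
  · intro s hs hcon
    apply hxL
    have h6 : (x⁻¹ * s) * z₁ * (x⁻¹ * s)⁻¹ = z₁ := by
      calc (x⁻¹ * s) * z₁ * (x⁻¹ * s)⁻¹ = x⁻¹ * (s * z₁ * s⁻¹) * x := by group
        _ = z₁ := by rw [hcon]; group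
    have h7 := cent_le u hz₁ hz₁1 h6
    have h8 := mul_mem h7 (inv_mem (hSL hs))
    have e : x⁻¹ * s * s⁻¹ = x⁻¹ := by group
    rw [e] at h8
    have := inv_mem h8
    rwa [inv_inv] at this

/-- case 2b -/
theorem case2b (hg : Glob G) (u : UL (JT (S : Subgroup G)) K L) (hSL : (S : Subgroup G) ≤ L)
    (hK : JComp (JT (S : Subgroup G)) K) {K' L' : Subgroup G}
    (u' : UL (JT (S : Subgroup G)) K' L') (hK' : JComp (JT (S : Subgroup G)) K') (hne : L ≠ L') :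
    ΩZ (S : Subgroup G) = ΩZ (JT (S : Subgroup G)) ∧ Nat.card (ΩZ (JT (S : Subgroup G))) ≤ 4 := by
  obtain ⟨hTL, hJ2, hZZ₀, hSn, hZ₀S⟩ := case2_common hSL hg u.mx.1
  have hcc := hK.card_Z₀ hJ2
  have hcc' := hK'.card_Z₀ hJ2
  have hnot : ∀ N : Subgroup G, Cfsg.IsTwoLocal N → K ≤ N → K' ≤ N → JT (S : Subgroup G) ≤ N →
      False := by
    intro N hN h1 h2 h3
    obtain ⟨L₂, hL₂, hNL⟩ := exists_maxTwoLocal hN
    apply hne
    rw [← u.uniq L₂ hL₂ (h1.trans hNL) (h3.trans hNL), u'.uniq L₂ hL₂ (h2.trans hNL) (h3.trans hNL)]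
  have hbot : (ΩZ (JT (S : Subgroup G)) ⊓ centralizer (K : Set G)) ⊓
      (ΩZ (JT (S : Subgroup G)) ⊓ centralizer (K' : Set G)) = ⊥ := by
    by_contra hne
    set X := (ΩZ (JT (S : Subgroup G)) ⊓ centralizer (K : Set G)) ⊓
      (ΩZ (JT (S : Subgroup G)) ⊓ centralizer (K' : Set G)) with hX
    have hX2 : IsPGroup 2 X := (isPGroup_omega (JT (S : Subgroup G))).to_le
      (inf_le_left.trans inf_le_left)
    refine hnot (normalizer (X : Set G)) (isTwoLocal_norm hX2 hne) ?_ ?_ ?_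
    · refine le_trans ?_ (H52.Syl.centralizer_le_normalizer X)
      rw [le_centralizer_iff]
      exact inf_le_left.trans inf_le_right
    · refine le_trans ?_ (H52.Syl.centralizer_le_normalizer X)
      rw [le_centralizer_iff]
      exact inf_le_right.trans inf_le_right
    · refine le_trans ?_ (H52.Syl.centralizer_le_normalizer X)
      rw [le_centralizer_iff]
      exact (inf_le_left.trans inf_le_left).trans (omega_le_centralizer _)
  have h5 := two_subgroups_card (H13.ElemAb.le_centralizer (isEA_omega (JT (S : Subgroup G))))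
    inf_le_left inf_le_left hbot
  have hpos1 : 0 < Nat.card ↥(ΩZ (JT (S : Subgroup G)) ⊓ centralizer (K : Set G)) := Nat.card_pos
  have hpos2 : 0 < Nat.card ↥(ΩZ (JT (S : Subgroup G)) ⊓ centralizer (K' : Set G)) := Nat.card_pos
  have hc1 : Nat.card ↥(ΩZ (JT (S : Subgroup G)) ⊓ centralizer (K' : Set G)) ≤ 2 := by
    rw [hcc] at h5
    exact Nat.le_of_mul_le_mul_left h5 hpos1
  have hceq : Nat.card ↥(ΩZ (JT (S : Subgroup G)) ⊓ centralizer (K : Set G)) =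
      Nat.card ↥(ΩZ (JT (S : Subgroup G)) ⊓ centralizer (K' : Set G)) := by omega
  refine ⟨?_, by omega⟩
  rcases Nat.lt_or_ge (Nat.card ↥(ΩZ (JT (S : Subgroup G)) ⊓ centralizer (K' : Set G))) 2
    with hlt | hge
  · exact case_two_card hg hSL u.mx.1 (by omega)
  have h2' : Nat.card ↥(ΩZ (JT (S : Subgroup G)) ⊓ centralizer (K' : Set G)) = 2 := by omega
  have h2 : Nat.card ↥(ΩZ (JT (S : Subgroup G)) ⊓ centralizer (K : Set G)) = 2 := by omega
  have h4 : Nat.card (ΩZ (JT (S : Subgroup G))) = 4 := by omega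
  obtain ⟨z₁, hz₁, hz₁1, hz₁g⟩ := card_le_two_exists h2
  obtain ⟨z₂, hz₂, hz₂1, hz₂g⟩ := card_le_two_exists h2'
  refine final_four (isEA_omega _) h4 hZZ₀ hZ₀S hSn (Subgroup.mem_inf.mp hz₁).1 hz₁1
    (Subgroup.mem_inf.mp hz₂).1 hz₂1 ?_ ?_ ?_
  · intro h
    have : z₁ ∈ (⊥ : Subgroup G) := by
      rw [← hbot]
      exact Subgroup.mem_inf.mpr ⟨hz₁, by rw [h]; exact hz₂⟩
    exact hz₁1 (mem_bot.mp this)
  · intro z hzg
    refine ⟨?_, ?_⟩
    · have := Zne (g := 1) hg hJ2 hK hz₁ hzg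
      simpa using this
    · have := Zne (g := 1) hg hJ2 hK' hz₂ hzg
      simpa using this
  · intro s hs hcon
    -- C(z₂) ≤ L
    have hC : ∀ g : G, g * z₂ * g⁻¹ = z₂ → g ∈ L := by
      intro g hgz
      have h6 : (s⁻¹ * g * s) * z₁ * (s⁻¹ * g * s)⁻¹ = z₁ := by
        calc (s⁻¹ * g * s) * z₁ * (s⁻¹ * g * s)⁻¹ = s⁻¹ * (g * (s * z₁ * s⁻¹) * g⁻¹) * s := by group
          _ = s⁻¹ * (s * z₁ * s⁻¹) * s := by rw [hcon, hgz]
          _ = z₁ := by group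
      have h7 := cent_le u hz₁ hz₁1 h6
      have h8 := mul_mem (mul_mem (hSL hs) h7) (inv_mem (hSL hs))
      have e : s * (s⁻¹ * g * s) * s⁻¹ = g := by group
      rwa [e] at h8
    have hfix : ∀ g ∈ centralizer ({z₂} : Set G), g * z₂ * g⁻¹ = z₂ := by
      intro g hgz
      rw [mem_centralizer_singleton_iff] at hgz
      rw [hgz]; group
    refine hnot L u.mx.1 u.KL ?_ u.JL
    intro k hk
    apply hC
    apply hfix
    rw [mem_centralizer_singleton_iff]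
    exact mem_centralizer_iff.mp (Subgroup.mem_inf.mp hz₂).2 k hk

end

end H54.Setup
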