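import Cfsg.Agent.Lib.H54.NormW

set_option autoImplicit false
set_option linter.dupNamespace false
set_option linter.unusedSectionVars false
set_option maxHeartbeats 400000

/-!
Components with respect to a conjugate.
-/

namespace H54.JTh

open Subgroup H54.SemiAct H54.Transv H54.SolvAct H54.PreComp H52.PRes H52.PCore H52.Syl H52.Sub
open scoped commutatorElement

universe u

section typ

variable {H : Type u} [Group H] [Finite H] {V S J : Subgroup H} [hVn : V.Normal]

local notation "CV" => centralizer (V : Set H)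

theorem comm_comap_eq {K : Subgroup H} :
    ⁅V, (K.map (rho V)).comap (rho V)⁆ = ⁅V, K⁆ := by
  apply le_antisymm
  · rw [commutator_le]
    intro v hv x hx
    rw [mem_comap] at hx
    obtain ⟨k, hk, hkx⟩ := hx
    rw [rho_eq_iff] at hkx
    have e1 : ⁅v, k⁻¹ * x⁆ = 1 := by
      rw [commutatorElement_eq_one_iff_mul_comm]
      exact mem_centralizer_iff.mp hkx v hv
    have e2 : ⁅v, x⁆ = ⁅v, k⁆ * (k * ⁅v, k⁻¹ * x⁆ * k⁻¹) := by
      simp only [commutatorElement_def]; group
    rw [e2, e1]
    simpa using commutator_mem_commutator hv hk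
  · exact commutator_mono le_rfl (le_comap_map _ _)

theorem Hyp.le_normalizer_comm (h : Hyp V S J) {K : Subgroup H} (hKF : K ≤ Fh V)
    (h3 : (K ⊓ CV).relIndex K = 3) (h4 : Nat.card ↥⁅V, K⁆ = 4) :
    J ≤ normalizer ((⁅V, K⁆ : Subgroup H) : Set H) := by
  have hD3 : Nat.card (K.map (rho V)) = 3 := by
    have h1 := card_map_rho (V := V) K
    have h2 := H13.Replace.card_eq_mul_relIndex (inf_le_left : K ⊓ CV ≤ K)
    rw [h3, ← h1, mul_comm] at h2
    exact Nat.eq_of_mul_eq_mul_left Nat.card_pos h2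
  have hD4 : Nat.card ↥⁅im V V, K.map (rho V)⁆ = 4 := by
    rw [commutator_im le_rfl, card_im (commutator_le_left V _), h4]
  have hN : J ≤ normalizer (((K.map (rho V)).comap (rho V) : Subgroup H) : Set H) := by
    refine h.gen_le.trans (sup_le ?_ ?_)
    · rw [closure_le]
      intro s hs
      apply mem_normalizer_comap
      exact mem_normalizer_of_card_three h.act.ff (rho_mem s) (isTv_iff'.mpr hs.2)
        (Subgroup.map_mono hKF) hD3 hD4
    · intro x hx
      apply mem_normalizer_comap
      rw [(rho_eq_one_iff V x).mpr (h.oc hx)]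
      exact one_mem _
  rw [← comm_comap_eq]
  exact H1.Coprime2.le_normalizer_commutator (C_le_normalizer V J) hN

/-- the whole group centralizes `V` if `H = J C(V)`. -/
theorem Hyp.top_le (h : Hyp V S J) (htop : J ⊔ CV = ⊤) : (⊤ : Subgroup H) ≤ CV := by
  have h1 := pCore_quotient_eq_bot_iff.mp h.act.red
  apply h1 ⊤ inferInstance
  rw [← htop]
  exact pMod_of_sup h.pJ (C_le_normalizer _ _)

end typ

end H54.JTh

namespace H54.Setup

open Subgroup H54.PreComp H52.PRes H52.PCore H52.Syl H52.Sub H54.JTh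
open H54.MaxEA H54.WOf H54.KP
open scoped commutatorElement

universe u

variable {G : Type u} [Group G] [Finite G]

local notation "O₂" => Cfsg.pCoreOf 2
local notation "ΩZ" => Cfsg.omegaCenterOf
local notation "wOf" => Cfsg.wOf
local notation "JT" => Cfsg.thompsonSubgroupOf 2

theorem pCoreOf_le_of_subnormal {K H : Subgroup G} (hKH : K ≤ H)
    (hs : (K.subgroupOf H).IsSubnormal) : O₂ K ≤ O₂ H := by
  have h1 := pCoreOf_le_pCore_of_subnormal (p := 2) hs
  have h2 := Subgroup.map_mono (f := H.subtype) h1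
  rwa [← pCoreOf_map H.subtype_injective, map_subgroupOf_eq_of_le hKH] at h2

/-- the overgroup used in the proof -/
theorem Glob.exists_lh (hg : Glob G) {T L H : Subgroup G} (hT : SylIn 2 T L) (hT1 : T ≠ ⊥)
    (hC : centralizer ((O₂ L : Subgroup G) : Set G) ≤ O₂ L) (hHL : H ≤ L) (hQH : O₂ L ≤ H)
    (hJH : JT T ≤ H) :
    ∃ S Z, LH H S (VZ H Z) (JT T) ∧ Z ≤ H := by
  have hJ2 : IsPGroup 2 (JT T) := hT.isPGroup.to_le (H13.SylowN.thompsonOf_le T)
  obtain ⟨S, hS, hJS⟩ := exists_sylIn_le hJH hJ2
  obtain ⟨l, hl, hSl⟩ := hT.exists_conj_le (hS.le.trans hHL) hS.isPGroup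
  set T' := cj l T with hT'
  have hT'L : SylIn 2 T' L := by
    have := hT.cj l
    rwa [cj_of_mem hl] at this
  have hJT' : JT T' = JT T := by
    rw [hT', thompson_cj]
    have h1 : cj l⁻¹ (JT (cj l T)) = JT T := by rw [thompson_cj, cj_inv_cj]
    have h2 : cj l⁻¹ (JT (cj l T)) ≤ cj l T := by rw [h1]; exact hJS.trans hSl
    have h3 := thompson_weak h2
    rw [h1, thompson_cj] at h3
    exact h3.symm
  have hT'1 : T' ≠ ⊥ := by
    intro h
    apply hT1
    have := card_cj l T
    rw [← hT', h, card_bot] at this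
    exact card_eq_one.mp this.symm
  obtain ⟨S₀, hS₀⟩ := hT'L.isPGroup.exists_le_sylow
  have hZQ := Glob.Z_le hT'L hC hS₀
  have hne := Glob.core_ne_bot_of hT'L.le hT'1 hC
  have hLs := hg.solv_of_core hne
  have hSS₀ : S ≤ S₀ := hSl.trans hS₀
  have hJS' : JT S = JT T := by
    rw [← hJT']
    apply thompsonOf_eq_of_le hSl
    rw [hJT']; exact hJS
  refine ⟨S, ΩZ (S₀ : Subgroup G), ?_, hZQ.trans hQH⟩
  rw [← hJS']
  apply lh_mk (H1.Coprime.isSolvable_of_le hHL hLs) hS (isEA_omega _)
  · refine hZQ.trans (le_pCoreOf hQH ?_ (isPGroup_pCoreOf L))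
    exact hHL.trans (le_normalizer_pCoreOf L)
  · exact hSS₀.trans (le_centralizer_omega _)
  · have hST : (S₀ : Subgroup G) ⊓ H = S := hS.max inf_le_right
      (S₀.isPGroup'.to_le inf_le_left) (le_inf hSS₀ hS.le)
    conv_rhs => rw [← hST]
    refine H1.Coprime2.le_normalizer_inf (inf_le_right.trans (hg.cz S₀)) ?_
    exact inf_le_left.trans Subgroup.le_normalizer

theorem Glob.le_normW_of_subnormal (hg : Glob G) {T L K J₀ : Subgroup G} (hT : SylIn 2 T L)
    (hT1 : T ≠ ⊥) (hC : centralizer ((O₂ L : Subgroup G) : Set G) ≤ O₂ L) (hKL : K ≤ L)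
    (hKsn : (K.subgroupOf (K ⊔ JT T)).IsSubnormal) (hJ₀ : IsPGroup 2 J₀) (hK : JComp J₀ K)
    (h0 : ∀ S : Subgroup G, J₀ ≤ S → SylIn 2 S (normalizer ((wOf K : Subgroup G) : Set G)) →
      JT S = J₀) : JT T ≤ normalizer ((wOf K : Subgroup G) : Set G) := by
  set J := JT T with hJ
  have hJT : J ≤ T := H13.SylowN.thompsonOf_le T
  have hJ2 : IsPGroup 2 J := hT.isPGroup.to_le hJT
  set H := K ⊔ J with hH
  have hHL : H ≤ L := sup_le hKL (hJT.trans hT.le)
  set Q := O₂ L with hQ
  set Hh := H ⊔ Q with hHh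
  have hHhL : Hh ≤ L := sup_le hHL (pCoreOf_le L)
  have hHHh : H ≤ Hh := le_sup_left
  have hQHh : Q ≤ Hh := le_sup_right
  have hJHh : J ≤ Hh := le_sup_right.trans hHHh
  have hKH : K ≤ H := le_sup_left
  have hKHh : K ≤ Hh := hKH.trans hHHh
  have hLQ : L ≤ normalizer (Q : Set G) := le_normalizer_pCoreOf L
  obtain ⟨S, Z, hlh, hZH⟩ := hg.exists_lh hT hT1 hC hHhL hQHh hJHh
  set V := VZ Hh Z with hV
  have hn := hlh.hn
  have hKP := hK.pre.toKP
  have hQc : Q ≤ centralizer (V : Set G) := by
    refine le_trans ?_ hlh.V_centralizes_core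
    exact le_pCoreOf hQHh (hHhL.trans hLQ) (isPGroup_pCoreOf L)
  -- O₂ K ≤ C(V)
  have hPV : O₂ K ≤ centralizer (V : Set G) := by
    refine le_trans ?_ hlh.V_centralizes_core
    have h1 : O₂ K ≤ O₂ H := pCoreOf_le_of_subnormal hKH hKsn
    have h2 : O₂ H ⊔ Q ≤ O₂ Hh := by
      apply le_pCoreOf (sup_le_sup (pCoreOf_le H) le_rfl)
      · refine sup_le ?_ ?_
        · exact H1.Coprime2.le_normalizer_sup (le_normalizer_pCoreOf H) (hHL.trans hLQ)
        · exact le_sup_right.trans Subgroup.le_normalizer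
      · have h3 : O₂ H ≤ normalizer (Q : Set G) := (pCoreOf_le H).trans (hHL.trans hLQ)
        exact (isPGroup_pCoreOf H).to_sup_of_normal_right' (isPGroup_pCoreOf L) h3
    exact h1.trans (le_sup_left.trans h2)
  have hVP : V ≤ centralizer ((O₂ K : Subgroup G) : Set G) := by
    rw [le_centralizer_iff]; exact hPV
  have hVK : V ≤ normalizer (K : Set G) := by
    rw [hg.norm_eq hJ₀ hK h0]
    refine (hVP.trans (centralizer_le (wOf_le K))).trans (H52.Syl.centralizer_le_normalizer _)
  have hKV : K ≤ normalizer (V : Set G) := hKHh.trans hlh.L_le_norm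
  have hVe := hlh.V_ea
  have hV2 := H13.ElemAb.isPGroup hVe
  have c1 : ⁅V, K⁆ ≤ K := H1.Coprime2.commutator_le_right hVK
  have c2 : ⁅V, K⁆ ≤ V := H1.Coprime2.commutator_le_left hKV
  have c3 : ⁅V, K⁆ ≤ O₂ K :=
    le_pCoreOf c1 (H1.Coprime2.le_normalizer_commutator_right _ _) (hV2.to_le c2)
  have c4 : ⁅V, K⁆ ≤ ΩZ (O₂ K) := by
    intro x hx
    rw [mem_omega]
    exact ⟨c3 hx, hVP (c2 hx), (H13.ElemAb.iff_mem.mp hVe).2 x (c2 hx)⟩
  have c5 : ⁅V, K⁆ ≤ wOf K := by
    rw [← hKP.comm_comm hKV hV2 hPV]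
    exact commutator_mono c4 le_rfl
  by_cases hA : ⁅V, K⁆ = ⊥
  · -- Case A
    have hKc : K ≤ centralizer (V : Set G) := by
      rw [commutator_comm, commutator_eq_bot_iff_le_centralizer] at hA
      exact hA
    have htop : J.subgroupOf Hh ⊔ centralizer ((V.subgroupOf Hh : Subgroup Hh) : Set Hh) = ⊤ := by
      apply Subgroup.map_injective Hh.subtype_injective
      rw [Subgroup.map_sup, map_subgroupOf_eq_of_le hJHh, LH.centralizer_map hlh.VL,
        ← MonoidHom.range_eq_map, range_subtype]
      apply le_antisymm (sup_le hJHh inf_le_left)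
      have h1 : K ≤ J ⊔ Hh ⊓ centralizer (V : Set G) := (le_inf hKHh hKc).trans le_sup_right
      have h2 : Q ≤ J ⊔ Hh ⊓ centralizer (V : Set G) := (le_inf hQHh hQc).trans le_sup_right
      exact sup_le (sup_le h1 le_sup_left) h2
    have h1 := (hlh.hyp.top_le htop).trans hlh.hyp.C_le
    have h2 := map_le_normalizer_map (f := Hh.subtype) h1
    rw [← MonoidHom.range_eq_map, range_subtype, map_subgroupOf_eq_of_le hJHh] at h2
    have h3 : (J.subgroupOf H).Normal := (normal_subOf_iff le_sup_right).mpr (hHHh.trans h2)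
    have h4 : resOf 2 (K.subgroupOf H) = K.subgroupOf H := by
      apply Subgroup.map_injective H.subtype_injective
      rw [← resOf_map, map_subgroupOf_eq_of_le hKH]
      exact hKP.gen
    have h5 := (subnormal_pGroup_normalizes (A := J.subgroupOf H) (B := K.subgroupOf H)
      h3.isSubnormal hKsn hJ2.comap_subtype h4).1
    have h6 := map_le_normalizer_map (f := H.subtype) h5
    rw [map_subgroupOf_eq_of_le (le_sup_right : J ≤ H), map_subgroupOf_eq_of_le hKH] at h6
    exact h6.trans (normalizer_le_normalizer_wOf K)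
  · -- Case B
    have hVKW : ⁅V, K⁆ = wOf K := irred hKP (core_le_centralizer K) (wOf_inf hKP) hK.card c5
      (H1.Coprime2.le_normalizer_commutator_right _ _) hA
    have hinf : K ⊓ centralizer (V : Set G) = O₂ K := by
      apply le_antisymm _ (le_inf (pCoreOf_le K) hPV)
      by_contra hcon
      have h1 := hKP.eq_of_normal inf_le_left
        (H1.Coprime2.le_normalizer_inf Subgroup.le_normalizer
          (H1.Coprime2.le_normalizer_centralizer hKV)) hcon
      apply hA
      rw [commutator_comm, commutator_eq_bot_iff_le_centralizer, ← h1]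
      exact inf_le_right
    set K' := K.subgroupOf Hh with hK'
    set V' := V.subgroupOf Hh with hV'
    have hinf' : K' ⊓ centralizer (V' : Set Hh) = (O₂ K).subgroupOf Hh := by
      apply Subgroup.map_injective Hh.subtype_injective
      rw [Subgroup.map_inf _ _ _ Hh.subtype_injective, LH.centralizer_map hlh.VL,
        map_subgroupOf_eq_of_le hKHh, ← inf_assoc, inf_eq_left.mpr hKHh, hinf,
        map_subgroupOf_eq_of_le ((pCoreOf_le K).trans hKHh)]
    have hidx : (K' ⊓ centralizer (V' : Set Hh)).relIndex K' = 3 := by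
      rw [hinf', ← relIndex_map_map_of_injective _ _ Hh.subtype_injective,
        map_subgroupOf_eq_of_le hKHh, map_subgroupOf_eq_of_le ((pCoreOf_le K).trans hKHh)]
      exact hKP.idx
    have hcard : Nat.card ↥⁅V', K'⁆ = 4 := by
      rw [← Subgroup.card_map_of_injective Hh.subtype_injective, LH.comm_map hlh.VL hKHh, hVKW,
        hK.card]
    -- K' ≤ Fh
    have hF : K' ≤ SolvAct.Fh V' := by
      have : Fact (Nat.Prime 3) := ⟨Nat.prime_three⟩
      let π := QuotientGroup.mk' (centralizer (V' : Set Hh))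
      have hs : (K'.map π).IsSubnormal := by
        let φ : H →* Hh ⧸ centralizer (V' : Set Hh) := π.comp (inclusion hHHh)
        have hφ : Function.Surjective φ := by
          intro y
          obtain ⟨x, rfl⟩ := QuotientGroup.mk'_surjective _ y
          have hx : (x : G) ∈ H ⊔ Q := x.2
          rw [sup_comm] at hx
          obtain ⟨q, hq, a, ha, hxa⟩ := (H54.Basic.mem_sup_iff (hHL.trans hLQ)).mp hx
          refine ⟨⟨a, ha⟩, ?_⟩
          refine (QuotientGroup.eq).mpr ?_
          rw [mem_centralizer_iff]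
          intro v hv
          apply Subtype.ext
          -- a⁻¹ x = a⁻¹ q a
          have h1 : a⁻¹ * q * a ∈ Q := H54.Basic.inv_mul_mem_of_mem_normalizer (hLQ (hHL ha)) hq
          have h2 := mem_centralizer_iff.mp (hQc h1) v hv
          have h3 : (a⁻¹ * (x : G)) = a⁻¹ * q * a := by rw [← hxa]; group
          change (v : G) * (a⁻¹ * (x : G)) = (a⁻¹ * (x : G)) * v
          rw [h3]; exact h2
        have h1 := hKsn.map hφ
        have h2 : (K.subgroupOf H).map φ = K'.map π := by
          rw [← Subgroup.map_map]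
          congr 1
          apply Subgroup.map_injective Hh.subtype_injective
          rw [map_subgroupOf_eq_of_le hKHh, Subgroup.map_map]
          have : Hh.subtype.comp (inclusion hHHh) = H.subtype := rfl
          rw [this, map_subgroupOf_eq_of_le hKH]
        rwa [h2] at h1
      have h3 : IsPGroup 3 (K'.map π) := by
        apply IsPGroup.of_card (n := 1)
        rw [card_map_mk, pow_one, ← hidx, inf_comm, inf_relIndex_right]
      have h4 := (le_pCore_of_subnormal hs h3).trans (H1.Cores.pCore_le_fittingSubgroup 3)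
      intro x hx
      exact h4 (mem_map_of_mem _ hx)
    have h5 := hlh.hyp.le_normalizer_comm hF hidx hcard
    have h6 := map_le_normalizer_map (f := Hh.subtype) h5
    rwa [map_subgroupOf_eq_of_le hJHh, LH.comm_map hlh.VL hKHh, hVKW] at h6

end H54.Setup
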