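import Cfsg.Agent.Lib.H54.Prob
import Cfsg.Agent.Lib.H25.StrEmb
import Cfsg.Agent.S2947

set_option autoImplicit false
set_option linter.dupNamespace false
set_option linter.unusedSectionVars false
set_option maxHeartbeats 400000

/-!
The remaining case of the center analysis.
-/

namespace H54.Setup

open Subgroup H54.PreComp H52.PRes H52.PCore H52.Syl H52.Sub H54.JTh
open H54.MaxEA H54.WOf H54.KP
open scoped commutatorElement

universe u

variable {G : Type u} [Group G] [Finite G]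

local notation "O₂" => Cfsg.pCoreOf 2
local notation "ΩZ" => Cfsg.omegaCenterOf
local notation "wOf" => Cfsg.wOf
local notation "JT" => Cfsg.thompsonSubgroupOf 2

theorem exists_maxStraddling {M : Subgroup G} (h : (Cfsg.straddlingTwoSubgroups M).Nonempty) :
    ∃ T, T ∈ Cfsg.maxStraddlingTwoSubgroups M := by
  classical
  let f : Subgroup G → ℕ ×ₗ (ℕ ×ₗ ℕ) := fun T =>
    toLex (Cfsg.maxElemAbelianOrder T, toLex (Nat.card ↥(JT T), Nat.card ↥T))
  obtain ⟨T₀, hT₀, hmax⟩ := Set.exists_max_image (Cfsg.straddlingTwoSubgroups M) f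
    (Set.toFinite _) h
  refine ⟨T₀, hT₀, fun T hT => ?_⟩
  have h1 := hmax T hT
  simp only [f, Prod.Lex.le_iff, ofLex_toLex] at h1
  refine ⟨?_, fun he => ⟨?_, fun he2 => ?_⟩⟩
  · rcases h1 with h1 | h1
    · exact h1.le
    · exact h1.1.le
  · rcases h1 with h1 | h1
    · omega
    · rcases h1.2 with h2 | h2
      · exact h2.le
      · exact h2.1.le
  · rcases h1 with h1 | h1
    · omega
    · rcases h1.2 with h2 | h2
      · omega
      · exact h2.2

theorem exists_invol_not_mem {H : Subgroup G} (hH : Cfsg.IsStronglyEmbedded H) :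
    ∃ u : G, orderOf u = 2 ∧ u ∉ H := by
  obtain ⟨t, ht, ht2⟩ := H25.StrEmb.exists_involution hH
  obtain ⟨g, hg⟩ : ∃ g, g ∉ H := by
    by_contra hcon
    push Not at hcon
    exact hH.1 (eq_top_iff.mpr fun g _ => hcon g)
  refine ⟨g * t * g⁻¹, ?_, ?_⟩
  · rw [← ht2]
    exact orderOf_injective (MulAut.conj g).toMonoidHom (MulAut.conj g).injective t
  · intro hcon
    have h1 := hH.2.2 g hg
    have hmem : g * t * g⁻¹ ∈ H ⊓ H.map (MulAut.conj g).toMonoidHom :=
      Subgroup.mem_inf.mpr ⟨hcon, conj_mem_cj ht⟩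
    have h2 : orderOf (⟨g * t * g⁻¹, hmem⟩ : ↥(H ⊓ H.map (MulAut.conj g).toMonoidHom)) = 2 := by
      rw [← Subgroup.orderOf_coe]
      show orderOf (g * t * g⁻¹) = 2
      rw [← ht2]
      exact orderOf_injective (MulAut.conj g).toMonoidHom (MulAut.conj g).injective t
    have h3 := orderOf_dvd_natCard (⟨g * t * g⁻¹, hmem⟩ : ↥(H ⊓ H.map (MulAut.conj g).toMonoidHom))
    rw [h2] at h3
    exact (Nat.not_even_iff_odd.mpr h1) (even_iff_two_dvd.mpr h3)

theorem hgood {M T K L : Subgroup G} {S : Sylow 2 G} (h : MS M T) (hK : Out M T K)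
    (hL : Cfsg.IsMaximalTwoLocal L) (hle : K ⊔ JT T ≤ L) (hTS : T ≤ S) :
    T ≠ S ∨ ¬ normalizer ((JT (S : Subgroup G) : Subgroup G) : Set G) ≤ L ∨
      ∃ L', Cfsg.IsMaximalTwoLocal L' ∧ (S : Subgroup G) ≤ L' ∧ L' ≠ L := by
  by_contra hcon
  push Not at hcon
  obtain ⟨hTSe, hNJ, huniq⟩ := hcon
  obtain ⟨u, hTL, hNL⟩ := ul_of h hK hL hle
  have hSL : (S : Subgroup G) ≤ L := by rw [← hTSe]; exact hTL.le
  have hSsyl : SylIn 2 (S : Subgroup G) L := by rw [← hTSe]; exact hTL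
  have hlh := h.hg.lh hTL h.T1 (h.hg.char2 hL.1) S hTS
  set V := VZ L (ΩZ (S : Subgroup G)) with hVdef
  have hVea := hlh.V_ea
  have hVcore := hlh.V_le_core
  have hLV := hlh.L_le_norm
  have hcomm := hlh.comm_eq_wOf u.KL hK.jc.pre hK.jc.card
  have hWV : wOf K ≤ V := by
    rw [← hcomm]
    exact H1.Coprime2.commutator_le_left (u.KL.trans hLV)
  by_cases hE : Cfsg.straddlingTwoSubgroups L = ∅
  · have hSE := (Cfsg.Agent.S2947.result h.hg.ch h.hg.sv h.hg.cz h.O2G S L hL.1 hNJ).mpr hE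
    have hZne : ΩZ (S : Subgroup G) ≠ ⊥ := by
      apply omega_ne_bot S.isPGroup'
      rw [← hTSe]; exact h.T1
    obtain ⟨z, hz1⟩ := Subgroup.ne_bot_iff_exists_ne_one.mp hZne
    have hz2 : orderOf (z : G) = 2 := by
      rw [orderOf_eq_prime_iff]
      refine ⟨(mem_omega.mp z.2).2.2, fun hc => hz1 (Subtype.ext hc)⟩
    have hZL : ΩZ (S : Subgroup G) ≤ L := (omega_le _).trans hSL
    have hzV : (z : G) ∈ V := le_VZ hZL z.2
    obtain ⟨w, hw2, hwL⟩ := exists_invol_not_mem hSE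
    have hinvV : ∀ i ∈ L, i ^ 2 = 1 → i ∈ V := by
      intro i hi hi2
      by_cases hi1 : i = 1
      · rw [hi1]; exact one_mem _
      · have hio : orderOf i = 2 := by
          rw [orderOf_eq_prime_iff]; exact ⟨hi2, hi1⟩
        obtain ⟨d, hd, hdi⟩ := H25.StrEmb.exists_conj_of_mem hSE hw2 hwL hz2 (hZL z.2) hio hi
        rw [← hdi]
        exact (mem_normalizer_iff.mp (hLV (Subgroup.mem_inf.mp hd).1) _).mp hzV
    have hJV : JT T ≤ V := by
      rw [thompsonOf_eq]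
      apply sSup_le
      intro A hA a ha
      exact hinvV a (hTL.le (hA.1 ha)) ((H13.ElemAb.iff_le_centralizer.mp hA.2.1).2 a ha)
    apply hK.jc.pre.card_ne
    apply (H13.ElemAb.isPGroup (p := 2) hVea).to_le
    calc K = ⁅K, JT T⁆ := hK.jc.pre.comm.symm
      _ ≤ ⁅K, V⁆ := commutator_mono le_rfl hJV
      _ ≤ V := H1.Coprime2.commutator_le_right (u.KL.trans hLV)
  · obtain ⟨T', hT'⟩ := exists_maxStraddling (Set.nonempty_iff_ne_empty.mpr hE)
    have hms : MS L T' := ⟨h.hg, hT', ⟨S, hNJ⟩, hL.1, h.O2G⟩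
    obtain ⟨l, hl, hT'l⟩ := hSsyl.exists_conj_le hms.TM hms.T2
    set S' : Sylow 2 G := l • S with hS'
    have hS'c : (S' : Subgroup G) = cj l (S : Subgroup G) := H54.Basic.coe_sylow_smul l S
    have hT'S' : T' ≤ (S' : Subgroup G) := by rw [hS'c]; exact hT'l
    have hS'L : (S' : Subgroup G) ≤ L := by
      rw [hS'c]
      have := cj_mono (g := l) hSL
      rwa [cj_of_mem hl] at this
    have hne : T' ≠ S' := by
      intro he
      obtain ⟨⟨-, -, -, L'', hL''2, hT'L'', hL''nle⟩, -⟩ := hT'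
      obtain ⟨L₁, hL₁, hle₁⟩ := exists_maxTwoLocal hL''2
      apply hL''nle
      refine hle₁.trans ?_
      have h1 : (S : Subgroup G) ≤ cj l⁻¹ L₁ := by
        rw [le_cj_iff, inv_inv, ← hS'c, ← he]
        exact hT'L''.trans hle₁
      have h2 := huniq _ (isMaxTwoLocal_cj hL₁ l⁻¹) h1
      have h3 : L₁ = cj l L := by rw [← h2, cj_cj_inv]
      rw [h3, cj_of_mem hl]
    obtain ⟨K', hK'⟩ := hms.exists_out
    obtain ⟨L₁, m1, m2, -, -, -, -⟩ := hms.exists_unique hK'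
    obtain ⟨-, K₂, L₂, t⟩ := good hms hK' m1 m2 hT'S' (Or.inl hne)
    have hS'syl : SylIn 2 (S' : Subgroup G) L := sylIn_of_sylow S' hS'L
    exact two_false h.hg t hT'S' hne hK.jc.pre.toKP hK.jc.card hVea (hS'L.trans hLV)
      (hVcore.trans hS'syl.pCoreOf_le) hWV

theorem full {M T K L : Subgroup G} {S : Sylow 2 G} (h : MS M T) (hK : Out M T K)
    (hL : Cfsg.IsMaximalTwoLocal L) (hle : K ⊔ JT T ≤ L) (hTS : T ≤ S) :
    CenterConcl T L S ∧ ∃ K₂ L₂, Two T K L K₂ L₂ :=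
  good h hK hL hle hTS (hgood h hK hL hle hTS)

end H54.Setup
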