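import Cfsg.Agent.Lib.H54.PP
import Cfsg.Agent.Lib.H54.Amal6

set_option autoImplicit false
set_option linter.dupNamespace false
set_option linter.unusedSectionVars false
set_option maxHeartbeats 400000

/-!
The amalgam given by two components.
-/

namespace H54.Setup

open Subgroup H54.PreComp H52.PRes H52.PCore H52.Syl H52.Sub H54.JTh
open H54.MaxEA H54.WOf H54.KP
open scoped commutatorElement

universe u

variable {G : Type u} [Group G] [Finite G]

local notation "O₂" => Cfsg.pCoreOf 2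
local notation "ΩZ" => Cfsg.omegaCenterOf
local notation "wOf" => Cfsg.wOf
local notation "JT" => Cfsg.thompsonSubgroupOf 2

theorem mul_mem_of_index_two {C P : Subgroup G} (h : C.relIndex P = 2) {a b : G} (ha : a ∈ P)
    (hb : b ∈ P) (haC : a ∉ C) (hbC : b ∉ C) : a * b ∈ C := by
  have := mul_inv_mem_of_index_two h ha (P.inv_mem hb) haC
    (fun hcon => hbC (by simpa using C.inv_mem hcon))
  simpa using this

theorem dc_of_index_three {T P : Subgroup G} (hT : T ≤ P) (h3 : T.relIndex P = 3)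
    {x y t : G} (hx : x ∈ P) (hy : y ∈ P) (ht : t ∈ T) (hxT : x ∉ T)
    (hyT : y ∉ T) (htx : x⁻¹ * t * x ∉ T) : ∃ t₁ ∈ T, ∃ t₂ ∈ T, y = t₁ * x * t₂ := by
  by_contra hcon
  push Not at hcon
  have h1 : x⁻¹ * y ∉ T := by
    intro h
    apply hcon 1 T.one_mem _ h
    group
  have h2 : (t * x)⁻¹ * y ∉ T := by
    intro h
    apply hcon t ht _ h
    group
  have hc : Nat.card (P ⧸ T.subgroupOf P) = 3 := h3
  let a0 : P := 1
  let a1 : P := ⟨x, hx⟩
  let a2 : P := ⟨t * x, P.mul_mem (hT ht) hx⟩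
  let a3 : P := ⟨y, hy⟩
  let f : Fin 4 → P ⧸ T.subgroupOf P := ![(a0 : P ⧸ T.subgroupOf P), (a1 : P ⧸ T.subgroupOf P),
    (a2 : P ⧸ T.subgroupOf P), (a3 : P ⧸ T.subgroupOf P)]
  have ne : ∀ {u v : P}, ((u : G)⁻¹ * v ∉ T) →
      (u : P ⧸ T.subgroupOf P) ≠ (v : P ⧸ T.subgroupOf P) := by
    intro u v huv he
    apply huv
    rw [QuotientGroup.eq, mem_subgroupOf] at he
    simpa using he
  have e01 : (a0 : P ⧸ T.subgroupOf P) ≠ a1 := ne (by simpa [a0, a1] using hxT)
  have e02 : (a0 : P ⧸ T.subgroupOf P) ≠ a2 := ne (by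
    simp only [a0, a2, OneMemClass.coe_one, inv_one, one_mul]
    exact fun h => hxT ((T.mul_mem_cancel_left ht).mp h))
  have e03 : (a0 : P ⧸ T.subgroupOf P) ≠ a3 := ne (by simpa [a0, a3] using hyT)
  have e12 : (a1 : P ⧸ T.subgroupOf P) ≠ a2 := ne (by
    simp only [a1, a2]; rw [← mul_assoc]; exact htx)
  have e13 : (a1 : P ⧸ T.subgroupOf P) ≠ a3 := ne (by simpa [a1, a3] using h1)
  have e23 : (a2 : P ⧸ T.subgroupOf P) ≠ a3 := ne (by simpa [a2, a3] using h2)
  have hf : Function.Injective f := by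
    intro i j hij
    fin_cases i <;> fin_cases j <;> simp [f] at hij ⊢ <;>
      first
      | exact absurd hij e01
      | exact absurd hij.symm e01
      | exact absurd hij e02
      | exact absurd hij.symm e02
      | exact absurd hij e03
      | exact absurd hij.symm e03
      | exact absurd hij e12
      | exact absurd hij.symm e12
      | exact absurd hij e13
      | exact absurd hij.symm e13
      | exact absurd hij e23
      | exact absurd hij.symm e23
  have h4 := Nat.card_le_card_of_injective f hf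
  rw [hc, Nat.card_eq_fintype_card, Fintype.card_fin] at h4
  omega

namespace One

variable {T K L : Subgroup G}

theorem idxQ (hg : Glob G) (o : One T K L) : (O₂ (K ⊔ T)).relIndex T = 2 := by
  obtain ⟨h1, h2⟩ := o.core_P hg
  rw [h1]; exact h2

theorem idxT (hg : Glob G) (o : One T K L) : T.relIndex (K ⊔ T) = 3 := by
  have h1 := o.idx_core hg
  rw [← relIndex_mul_relIndex (O₂ (K ⊔ T)) T (K ⊔ T) o.syl_P.pCoreOf_le le_sup_right,
    o.idxQ hg] at h1
  omega

theorem T2 (o : One T K L) : IsPGroup 2 T := o.s.isPGroup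

theorem core_K_le_Q (hg : Glob G) (o : One T K L) : O₂ K ≤ O₂ (K ⊔ T) := by
  apply le_pCoreOf ((pCoreOf_le K).trans le_sup_left) _ (isPGroup_pCoreOf K)
  exact sup_le (le_normalizer_pCoreOf K)
    ((o.T_norm hg).trans (normalizer_le_normalizer_pCoreOf K))

theorem W_le_Q (hg : Glob G) (o : One T K L) : wOf K ≤ O₂ (K ⊔ T) :=
  (wOf_le K).trans (o.core_K_le_Q hg)

theorem exists_r (o : One T K L) : ∃ r ∈ ΩZ T ⊓ wOf K, r ≠ 1 ∧
    ∀ y ∈ ΩZ T ⊓ wOf K, y = 1 ∨ y = r := by
  rw [o.zz]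
  exact card_le_two_exists (o.c.card_two o.J2).1

theorem W_cent (o : One T K L) : wOf K ≤ centralizer ((ΩZ T : Subgroup G) : Set G) := by
  rw [o.zz, ← o.c.split_eq o.J2, H13.Replace.centralizer_sup]
  refine le_inf ?_ ?_
  · refine le_trans ?_ (centralizer_le (fun x hx =>
      (Subgroup.mem_inf.mp (Subgroup.mem_inf.mp hx).2).2))
    rw [le_centralizer_iff]
    apply centralizer_le
    exact fun x hx => (le_sup_left : K ≤ K ⊔ JT T) ((wOf_le K).trans (pCoreOf_le K) hx)
  · refine le_trans (H13.ElemAb.le_centralizer (isEA_wOf K)) (centralizer_le ?_)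
    exact fun x hx => (Subgroup.mem_inf.mp hx).2

theorem side (hg : Glob G) (o : One T K L) {r : G} (hr : r ∈ ΩZ T ⊓ wOf K) (hr1 : r ≠ 1)
    (hrall : ∀ y ∈ ΩZ T ⊓ wOf K, y = 1 ∨ y = r) :
    H54.Amal.Side T (ΩZ T) (K ⊔ T) (O₂ (K ⊔ T)) (wOf K ⊔ ΩZ T) r := by
  have hQT := o.syl_P.pCoreOf_le
  have hQ2 := o.idxQ hg
  have hT3 := o.idxT hg
  have hTK := o.T_norm hg
  have hKPn : K ⊔ T ≤ normalizer ((O₂ (K ⊔ T) : Subgroup G) : Set G) := le_normalizer_pCoreOf _
  have hmax : ∀ x ∈ K ⊔ T, x ∉ T → ∀ X : Subgroup G, T ≤ X → x ∈ X → K ⊔ T ≤ X := by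
    intro x hx hxT X hTX hxX
    rcases Ord3.eq_or_eq_of_relIndex_prime Nat.prime_three
      (le_inf hTX le_sup_right : T ≤ X ⊓ (K ⊔ T)) inf_le_right hT3 with h1 | h1
    · exfalso
      apply hxT
      rw [← h1]; exact Subgroup.mem_inf.mpr ⟨hxX, hx⟩
    · rw [← h1]; exact inf_le_left
  have hneT : ∃ x ∈ K ⊔ T, x ∉ T := by
    by_contra hcon
    push Not at hcon
    have h1 : T.relIndex (K ⊔ T) = 1 := relIndex_eq_one.mpr hcon
    omega
  have hneQ : ∃ t ∈ T, t ∉ O₂ (K ⊔ T) := by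
    by_contra hcon
    push Not at hcon
    have h1 : (O₂ (K ⊔ T)).relIndex T = 1 := relIndex_eq_one.mpr hcon
    omega
  have hnT : ∀ x ∈ K ⊔ T, x ∉ T → ∀ y ∈ T, x⁻¹ * y * x ∈ T → y ∈ O₂ (K ⊔ T) := by
    intro x hx hxT y hy hyx
    have h1 : O₂ (K ⊔ T) ≤ T ⊓ cj x T := by
      refine le_inf hQT ?_
      have := cj_mono (g := x) hQT
      rwa [cj_eq_of_mem_normalizer (hKPn hx)] at this
    rcases Ord3.eq_or_eq_of_relIndex_prime Nat.prime_two h1 inf_le_left hQ2 with h2 | h2
    · have h3 : y ∈ T ⊓ cj x T := Subgroup.mem_inf.mpr ⟨hy, mem_cj.mpr hyx⟩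
      rwa [h2] at h3
    · exfalso
      have h3 : T ≤ cj x T := inf_eq_left.mp h2
      have h4 : x⁻¹ ∈ normalizer (T : Set G) := by
        apply mem_normalizer_of_cj_le
        rw [← le_cj_iff]; exact h3
      have h5 : x ∈ normalizer (T : Set G) := by
        have := (normalizer (T : Set G)).inv_mem h4
        simpa using this
      have h6 := hmax x hx hxT _ Subgroup.le_normalizer h5
      have h7 : T ≤ O₂ (K ⊔ T) := le_pCoreOf le_sup_right h6 o.T2
      obtain ⟨t, ht, htQ⟩ := hneQ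
      exact htQ (h7 ht)
  have hZQ : ΩZ T ≤ O₂ (K ⊔ T) :=
    ((omega_le_centralizer T).trans (centralizer_le hQT)).trans (o.charP hg)
  have hWZ := o.W_cent
  have hWn : T ≤ normalizer ((wOf K : Subgroup G) : Set G) :=
    hTK.trans (normalizer_le_normalizer_wOf K)
  have hWT : wOf K ≤ T := (o.W_le_Q hg).trans hQT
  have hrW := (Subgroup.mem_inf.mp hr).2
  have hrZ := (Subgroup.mem_inf.mp hr).1
  have hTZ : T ≤ centralizer ((ΩZ T : Subgroup G) : Set G) := le_centralizer_omega T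
  have hfix : wOf K ⊓ centralizer (K : Set G) = ⊥ := wOf_inf o.c.pre.toKP
  -- Q centralizes W
  have hQW : O₂ (K ⊔ T) ≤ centralizer ((wOf K : Subgroup G) : Set G) := by
    rw [le_centralizer_iff]
    have h1 := irred o.c.pre.toKP (W := wOf K)
      (X := wOf K ⊓ centralizer ((O₂ (K ⊔ T) : Subgroup G) : Set G)) (core_le_centralizer K) hfix
      o.c.card inf_le_left
      (H1.Coprime2.le_normalizer_inf (K_le_norm K)
        ((le_sup_left.trans hKPn).trans
          (H13.Replace.normalizer_le_normalizer_centralizer _)))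
      (by
        intro hb
        apply hr1
        have h2 : r ∈ wOf K ⊓ centralizer ((O₂ (K ⊔ T) : Subgroup G) : Set G) :=
          Subgroup.mem_inf.mpr ⟨hrW, centralizer_le hQT (omega_le_centralizer T hrZ)⟩
        rwa [hb, mem_bot] at h2)
    rw [← h1]; exact inf_le_right
  have hWfix : ∀ w ∈ wOf K, w ∈ centralizer (T : Set G) → w ∈ ΩZ T := by
    intro w hw hc
    rw [mem_omega]
    exact ⟨hWT hw, hc, (H13.ElemAb.iff_le_centralizer.mp (isEA_wOf K)).2 w hw⟩
  have hwtn : ∀ w ∈ wOf K, w ∉ ΩZ T → ∀ t ∈ T, t ∉ O₂ (K ⊔ T) → ⁅w, t⁆ = r := by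
    intro w hw hwZ t ht htQ
    have htw : t * w * t⁻¹ ∈ wOf K := (mem_normalizer_iff.mp (hWn ht) w).mp hw
    have hwinv : ∀ v ∈ wOf K, v⁻¹ = v := fun v hv => by
      have := (H13.ElemAb.iff_le_centralizer.mp (isEA_wOf K)).2 v hv
      rw [pow_two] at this
      exact inv_eq_of_mul_eq_one_left this
    have hTgen : ∀ c : G, c ∈ centralizer ((O₂ (K ⊔ T) : Subgroup G) : Set G) →
        Commute c t → c ∈ centralizer (T : Set G) := by
      intro c hc hct
      rw [mem_centralizer_iff]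
      intro t' ht'
      by_cases ht'Q : t' ∈ O₂ (K ⊔ T)
      · exact mem_centralizer_iff.mp hc t' ht'Q
      · have h1 := mul_mem_of_index_two hQ2 ht' (T.inv_mem ht) ht'Q
          (fun hcon => htQ (by simpa using (O₂ (K ⊔ T)).inv_mem hcon))
        have h2 : Commute (t' * t⁻¹) c := mem_centralizer_iff.mp hc _ h1
        have h3 : Commute (t' * t⁻¹ * t) c := h2.mul_left hct.symm
        simpa using h3.eq
    have hQW' : wOf K ≤ centralizer ((O₂ (K ⊔ T) : Subgroup G) : Set G) := by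
      rw [le_centralizer_iff]; exact hQW
    have hc1 : ⁅w, t⁆ ≠ 1 := by
      intro hc
      exact hwZ (hWfix w hw (hTgen w (hQW' hw) (commutatorElement_eq_one_iff_commute.mp hc)))
    have hcW : ⁅w, t⁆ ∈ wOf K := H54.Amal.commutatorElement_mem_right (hWn ht) hw
    have htt : t * t ∈ O₂ (K ⊔ T) := mul_mem_of_index_two hQ2 ht ht htQ htQ
    have he : ⁅w, t⁆ = w * (t * w * t⁻¹) := by
      rw [commutatorElement_def]
      calc w * t * w⁻¹ * t⁻¹ = w * (t * w * t⁻¹)⁻¹ := by group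
        _ = _ := by rw [hwinv _ htw]
    have hww : Commute w (t * w * t⁻¹) := H13.ElemAb.comm (isEA_wOf K) hw htw
    have hct : Commute ⁅w, t⁆ t := by
      have h1 : (t * t) * w = w * (t * t) := mem_centralizer_iff.mp (hQW' hw) _ htt
      have h2 : t * (t * w * t⁻¹) * t⁻¹ = w := by
        calc t * (t * w * t⁻¹) * t⁻¹ = (t * t) * w * (t * t)⁻¹ := by group
          _ = w * (t * t) * (t * t)⁻¹ := by rw [h1]
          _ = w := by group
      have h3 : t * ⁅w, t⁆ * t⁻¹ = ⁅w, t⁆ := by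
        rw [he]
        calc t * (w * (t * w * t⁻¹)) * t⁻¹ = (t * w * t⁻¹) * (t * (t * w * t⁻¹) * t⁻¹) := by group
          _ = (t * w * t⁻¹) * w := by rw [h2]
          _ = w * (t * w * t⁻¹) := hww.symm.eq
      show ⁅w, t⁆ * t = t * ⁅w, t⁆
      calc ⁅w, t⁆ * t = (t * ⁅w, t⁆ * t⁻¹) * t := by rw [h3]
        _ = t * ⁅w, t⁆ := by group
    have h4 := hWfix _ hcW (hTgen _ (hQW' hcW) hct)
    rcases hrall _ (Subgroup.mem_inf.mpr ⟨h4, hcW⟩) with h5 | h5
    · exact absurd h5 hc1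
    · exact h5
  have hZW : ΩZ T ≤ normalizer ((wOf K : Subgroup G) : Set G) := (omega_le T).trans hWn
  have hWnZ : wOf K ≤ normalizer ((ΩZ T : Subgroup G) : Set G) :=
    hWZ.trans (H52.Syl.centralizer_le_normalizer _)
  have hidx : (ΩZ T).relIndex (wOf K ⊔ ΩZ T) = 2 := by
    have h1 := H13.Thompson.card_sup_mul_card_inf hWnZ
    have h2 := H13.Replace.card_eq_mul_relIndex (le_sup_right : ΩZ T ≤ wOf K ⊔ ΩZ T)
    have h3 : Nat.card ↥(wOf K ⊓ ΩZ T) = 2 := by
      rw [inf_comm, o.zz]; exact (o.c.card_two o.J2).1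
    rw [h3, o.c.card, h2] at h1
    have hpos : 0 < Nat.card (ΩZ T) := Nat.card_pos
    have h4 : Nat.card (ΩZ T) * ((ΩZ T).relIndex (wOf K ⊔ ΩZ T) * 2) =
        Nat.card (ΩZ T) * 4 := by linarith
    have h5 := Nat.eq_of_mul_eq_mul_left hpos h4
    omega
  have hea : Cfsg.IsElementaryAbelian 2 (wOf K ⊔ ΩZ T : Subgroup G) :=
    H13.ElemAb.sup (isEA_wOf K) (isEA_omega T) hWZ
  constructor
  · exact le_sup_right
  · exact hQT
  · exact hKPn
  · intro x hx y hy hxQ hyQ
    exact mul_mem_of_index_two hQ2 hx hy hxQ hyQ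
  · exact hneQ
  · exact hmax
  · exact hneT
  · exact hnT
  · intro x hx y hy hxT hyT
    obtain ⟨t, ht, htQ⟩ := hneQ
    exact dc_of_index_three le_sup_right hT3 hx hy ht hxT hyT
      (fun hcon => htQ (hnT x hx hxT t ht hcon))
  · -- P normalizes Y
    refine sup_le ?_ ?_
    · have h1 : wOf K ⊔ ΩZ T = wOf K ⊔ (ΩZ T ⊓ centralizer ((K ⊔ JT T : Subgroup G) : Set G)) := by
        apply le_antisymm
        · refine sup_le le_sup_left ?_
          conv_lhs => rw [o.zz, ← o.c.split_eq o.J2]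
          refine sup_le ?_ ?_
          · refine le_trans ?_ le_sup_right
            refine le_inf (by rw [o.zz]; exact inf_le_left) ?_
            exact inf_le_right.trans inf_le_right
          · exact inf_le_right.trans le_sup_left
        · exact sup_le le_sup_left (inf_le_left.trans le_sup_right)
      rw [h1]
      refine le_trans (le_inf (K_le_norm K) ?_) normalizer_sup_le
      refine le_trans ?_ (H52.Syl.centralizer_le_normalizer _)
      rw [le_centralizer_iff]
      exact inf_le_right.trans (centralizer_le (fun x hx => (le_sup_left : K ≤ K ⊔ JT T) hx))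
    · exact le_trans (le_inf hWn (hTZ.trans (H52.Syl.centralizer_le_normalizer _)))
        normalizer_sup_le
  · exact sup_le (o.W_le_Q hg) hZQ
  · intro y hy
    have := (H13.ElemAb.iff_le_centralizer.mp hea).2 y hy
    rwa [pow_two] at this
  · rw [H13.Replace.centralizer_sup]
    exact le_inf hQW (hQT.trans hTZ)
  · rw [(o.core_P hg).1]
    refine le_inf inf_le_left ?_
    apply o.c.pre.toKP.mem_actTriv_of_centralizes (W := wOf K) (K_le_norm K)
      (not_le_centralizer_wOf o.c.pre.toKP o.c.wne) (inf_le_left.trans hTK)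
    exact inf_le_right.trans (centralizer_le (fun x hx => (le_sup_left : wOf K ≤ _) hx))
  · exact le_sup_right
  · exact hTZ
  · intro x hx y hy hxZ hyZ
    exact mul_mem_of_index_two hidx hx hy hxZ hyZ
  · by_contra hcon
    push Not at hcon
    have h1 : (ΩZ T).relIndex (wOf K ⊔ ΩZ T) = 1 := relIndex_eq_one.mpr hcon
    omega
  · exact hrZ
  · exact hr1
  · intro y hy t ht hyZ htQ
    rw [sup_comm, H54.Basic.mem_sup_iff hWnZ] at hy
    obtain ⟨z, hz, w, hw, rfl⟩ := hy
    have hwZ : w ∉ ΩZ T := fun hcon => hyZ ((ΩZ T).mul_mem hz hcon)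
    have h1 := hwtn w hw hwZ t ht htQ
    rw [← h1]
    have hzw : Commute z w := (mem_centralizer_iff.mp (hWZ hw) z hz)
    have hzt : Commute z t := (mem_centralizer_iff.mp (hTZ ht) z hz)
    simp only [commutatorElement_def]
    calc z * w * t * (z * w)⁻¹ * t⁻¹ = (z * w) * t * w⁻¹ * (z⁻¹ * t⁻¹) := by group
      _ = (w * z) * t * w⁻¹ * (t⁻¹ * z⁻¹) := by rw [hzw.eq, hzt.inv_inv.eq]
      _ = w * (z * t) * w⁻¹ * t⁻¹ * z⁻¹ := by group
      _ = w * (t * z) * w⁻¹ * t⁻¹ * z⁻¹ := by rw [hzt.eq]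
      _ = w * t * (z * w⁻¹) * t⁻¹ * z⁻¹ := by group
      _ = w * t * (w⁻¹ * z) * t⁻¹ * z⁻¹ := by rw [hzw.inv_right.eq]
      _ = w * t * w⁻¹ * (z * t⁻¹) * z⁻¹ := by group
      _ = w * t * w⁻¹ * (t⁻¹ * z) * z⁻¹ := by rw [hzt.inv_right.eq]
      _ = _ := by group
  · intro hcon
    apply hr1
    have h1 : r ∈ wOf K ⊓ centralizer (K : Set G) := by
      refine Subgroup.mem_inf.mpr ⟨hrW, ?_⟩
      rw [mem_centralizer_iff]
      intro k hk
      exact mem_centralizer_singleton_iff.mp (hcon ((le_sup_left : K ≤ K ⊔ T) hk))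
    rwa [hfix, mem_bot] at h1

theorem not_J_le (_hg : Glob G) (o : One T K L) : ¬ JT T ≤ O₂ (K ⊔ T) := by
  intro h
  apply o.c.pre.card_ne
  apply (isPGroup_pCoreOf (K ⊔ T)).to_le
  calc K = ⁅K, JT T⁆ := o.c.pre.comm.symm
    _ ≤ O₂ (K ⊔ T) := by
      apply (commutator_mono le_rfl h).trans
      exact H1.Coprime2.commutator_le_right (le_sup_left.trans (le_normalizer_pCoreOf _))

end One

namespace Two

variable {T K L K₂ L₂ : Subgroup G}

theorem amj (hg : Glob G) (t : Two T K L K₂ L₂) :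
    ∃ r : Bool → G, H54.Amal.AmJ T (ΩZ T) (fun i => bif i then K ⊔ T else K₂ ⊔ T)
      (fun i => O₂ (bif i then K ⊔ T else K₂ ⊔ T))
      (fun i => (bif i then wOf K else wOf K₂) ⊔ ΩZ T) r := by
  obtain ⟨r₁, hr₁, hr₁1, hr₁a⟩ := t.one.exists_r
  obtain ⟨r₂, hr₂, hr₂1, hr₂a⟩ := t.two.exists_r
  have s₁ := t.one.side hg hr₁ hr₁1 hr₁a
  have s₂ := t.two.side hg hr₂ hr₂1 hr₂a
  refine ⟨fun i => bif i then r₁ else r₂, ?_⟩
  refine ⟨⟨?_, ?_⟩, ?_, ?_⟩
  · intro i; cases i
    · exact s₂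
    · exact s₁
  · intro X hXT hX
    have h1 : K ⊔ T ≤ normalizer (X : Set G) := hX true
    have h2 : K₂ ⊔ T ≤ normalizer (X : Set G) := hX false
    have h3 : X ≤ O₂ ((K ⊔ T) ⊔ (K₂ ⊔ T)) :=
      le_pCoreOf (hXT.trans (le_sup_right.trans le_sup_left)) (sup_le h1 h2)
        (t.one.T2.to_le hXT)
    rw [t.core_bot] at h3
    exact le_bot_iff.mp h3
  · intro i
    have h1 : ¬ JT T ≤ O₂ (bif i then K ⊔ T else K₂ ⊔ T) := by
      cases i
      · exact t.two.not_J_le hg
      · exact t.one.not_J_le hg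
    by_contra hcon
    push Not at hcon
    apply h1
    rw [thompsonOf_eq]
    exact sSup_le hcon
  · intro x hx hx2 hA
    rw [t.one.zz, mem_omega]
    have h1 : x ∈ centralizer ((JT T : Subgroup G) : Set G) := by
      have h2 : JT T ≤ centralizer ({x} : Set G) := by
        rw [thompsonOf_eq]
        apply sSup_le
        intro A hA' a ha
        exact mem_centralizer_singleton_iff.mpr (mem_centralizer_iff.mp (hA A hA') a ha)
      rw [mem_centralizer_iff]
      intro a ha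
      exact mem_centralizer_singleton_iff.mp (h2 ha)
    obtain ⟨A, hAm⟩ := exists_mem T
    refine ⟨le_thompsonOf hAm (mem_of_centralizes hAm hx (hA A hAm) (by rw [pow_two]; exact hx2)),
      h1, by rw [pow_two]; exact hx2⟩

end Two

end H54.Setup
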