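import Cfsg.Agent.Lib.H13.Fix
import Cfsg.Agent.Lib.H13.FF1
import Cfsg.Agent.Lib.H1.Coprime2
import Cfsg.Agent.Lib.H52.Syl
import Cfsg.Agent.Lib.H54.Basic
import Cfsg.Agent.Lib.H54.CopComm

set_option autoImplicit false

/-!
A 2-group acting on an odd order group `R` with an invariant subgroup of index 3 that it centralizes.
-/

namespace H54.Ord3

open Subgroup H13 H13.Fix
open scoped commutatorElement

universe u

variable {G : Type u} [Group G]

/-- coprime action on an abelian group: `[V,Q] ∩ C(Q) = 1`. -/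
theorem comm_inf_centralizer_eq_bot [Finite G] {V Q : Subgroup G} (hc : V ≤ centralizer (V : Set G))
    (hcop : (Nat.card V).Coprime (Nat.card Q)) (hQV : Q ≤ normalizer (V : Set G)) :
    ⁅V, Q⁆ ⊓ centralizer (Q : Set G) = ⊥ := by
  have : Fintype Q := Fintype.ofFinite Q
  let _ : CommGroup V := { (inferInstance : Group V) with
    mul_comm := fun a b => Subtype.ext (Act.mul_comm_of_mem hc a.2 b.2) }
  let _ : MulDistribMulAction Q V :=
    MulDistribMulAction.compHom V ((V.normalizerMonoidHom).comp (inclusion hQV))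
  have hsmul : ∀ (q : Q) (v : V), ((q • v : V) : G) = q * v * (q : G)⁻¹ := fun q v => rfl
  have hVQ : ⁅V, Q⁆ ≤ V := Act.comm_le hQV le_rfl
  have hinj : ∀ v : V, v ^ Fintype.card Q = 1 → v = 1 := by
    intro v hv
    have h1 : Function.Injective (fun v : V => v ^ Nat.card Q) := (powCoprime hcop).injective
    apply h1
    change v ^ Nat.card Q = 1 ^ Nat.card Q
    rw [one_pow, Nat.card_eq_fintype_card, hv]
  rw [eq_bot_iff]
  rintro x ⟨hx, hxc⟩
  have h8 : ⁅V, Q⁆ ≤ (MonoidHom.mk' (fun m : V => nrm Q m) (fun a b => nrm_mul a b)).ker.map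
      V.subtype := by
    rw [commutator_le]
    intro v hv q hq
    refine ⟨⟨⁅v, q⁆, hVQ (commutator_mem_commutator hv hq)⟩, ?_, rfl⟩
    rw [SetLike.mem_coe, MonoidHom.mem_ker]
    change nrm Q _ = 1
    have h9 : (⟨⁅v, q⁆, hVQ (commutator_mem_commutator hv hq)⟩ : V) =
        (⟨v, hv⟩ : V) * ((⟨q, hq⟩ : Q) • (⟨v, hv⟩ : V))⁻¹ := by
      apply Subtype.ext
      change ⁅v, q⁆ = v * (q * v * q⁻¹)⁻¹
      rw [commutatorElement_def]; group
    rw [h9, nrm_mul, nrm_inv, nrm_smul, mul_inv_cancel]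
  obtain ⟨y, hy, hyx⟩ := h8 hx
  rw [SetLike.mem_coe, MonoidHom.mem_ker] at hy
  have h10 : ∀ q : Q, q • y = y := by
    intro q
    apply Subtype.ext
    rw [hsmul]
    have h11 := mem_centralizer_iff.1 hxc q q.2
    change (y : G) = x at hyx
    rw [hyx, h11, mul_inv_cancel_right]
  have h12 : y ^ Fintype.card Q = 1 := by
    rw [← nrm_of_fixed h10]; exact hy
  have h13 := hinj y h12
  rw [mem_bot, ← hyx, h13]
  rfl

/-- prime index: an intermediate subgroup is one of the two -/
theorem eq_or_eq_of_relIndex_prime [Finite G] {C R K : Subgroup G} {p : ℕ} (hp : p.Prime)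
    (hCK : C ≤ K) (hKR : K ≤ R) (h : C.relIndex R = p) : K = C ∨ K = R := by
  have h1 := relIndex_mul_relIndex C K R hCK hKR
  rw [h] at h1
  rcases (Nat.dvd_prime hp).mp (Dvd.intro _ h1) with h2 | h2
  · left
    rw [relIndex_eq_one] at h2
    exact le_antisymm h2 hCK
  · right
    rw [h2] at h1
    have h3 : K.relIndex R = 1 := by
      have := hp.pos
      exact Nat.eq_of_mul_eq_mul_left this (by rw [h1, mul_one])
    rw [relIndex_eq_one] at h3
    exact le_antisymm hKR h3

theorem relIndex_inf_of_sup_eq [Finite G] {C R X : Subgroup G} (hX : X ≤ normalizer (C : Set G))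
    (h : X ⊔ C = R) : (X ⊓ C).relIndex X = C.relIndex R := by
  have h1 := Thompson.card_sup_mul_card_inf hX
  have h2 := Replace.card_eq_mul_relIndex (inf_le_left : X ⊓ C ≤ X)
  have h3 := Replace.card_eq_mul_relIndex (le_sup_right : C ≤ X ⊔ C)
  rw [h2, h3] at h1
  have h4 : 0 < Nat.card ↥(X ⊓ C) * Nat.card C := Nat.mul_pos Nat.card_pos Nat.card_pos
  rw [← h]
  apply Nat.eq_of_mul_eq_mul_left h4
  linarith

theorem main [Finite G] {R C J : Subgroup G} (hCR : C ≤ R) (hidx : C.relIndex R = 3)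
    (hRodd : (Nat.card R).Coprime 2) (hJ : IsPGroup 2 J) (hJR : J ≤ normalizer (R : Set G))
    (hRC : R ≤ normalizer (C : Set G)) (hCJ : ⁅C, J⁆ = ⊥) (hne : ¬ ⁅R, J⁆ ≤ C) :
    Nat.card ↥⁅R, J⁆ = 3 ∧ ⁅R, J⁆ ⊔ C = R ∧ ⁅⁅R, J⁆, J⁆ = ⁅R, J⁆ := by
  have : Fact (Nat.Prime 2) := ⟨Nat.prime_two⟩
  have hXR : ⁅R, J⁆ ≤ R := H1.Coprime2.commutator_le_left hJR
  have hsupR : ⁅R, J⁆ ⊔ C = R := by
    rcases eq_or_eq_of_relIndex_prime Nat.prime_three (le_sup_right : C ≤ ⁅R, J⁆ ⊔ C)
      (sup_le hXR hCR) hidx with h | h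
    · exact absurd (le_sup_left.trans h.le) hne
    · exact h
  have hcop : (Nat.card J).Coprime (Nat.card R) := by
    obtain ⟨n, hn⟩ := IsPGroup.iff_card.mp hJ
    rw [hn]; exact Nat.Coprime.pow_left _ hRodd.symm
  have hsolv : Group.IsSolvable J ∨ Group.IsSolvable R :=
    Or.inl (H54.CopComm.isSolvable_of_isPGroup hJ)
  have hXX := H1.Coprime2.commutator_commutator_eq J R hJR hcop hsolv
  -- X centralizes C
  have hXC : ⁅⁅R, J⁆, C⁆ = ⊥ := by
    apply FF1.three_sub
    · rw [eq_bot_iff, ← hCJ]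
      exact commutator_mono (H1.Coprime2.commutator_le_left hRC) le_rfl
    · rw [hCJ]; exact commutator_bot_left _
  have hXcC : ⁅R, J⁆ ≤ centralizer (C : Set G) := commutator_eq_bot_iff_le_centralizer.mp hXC
  set X : Subgroup G := ⁅R, J⁆ with hX
  have hXCn : X ≤ normalizer (C : Set G) := hXR.trans hRC
  have hXidx : (X ⊓ C).relIndex X = 3 := by
    rw [relIndex_inf_of_sup_eq hXCn hsupR, hidx]
  -- X abelian
  obtain ⟨x, hx, hxC⟩ := Set.not_subset.mp hne
  have hxX : x ∈ X := hx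
  have hxC' : x ∉ C := hxC
  have hXgen : zpowers x ⊔ (X ⊓ C) = X := by
    rcases eq_or_eq_of_relIndex_prime Nat.prime_three (le_sup_right : X ⊓ C ≤ zpowers x ⊔ (X ⊓ C))
      (sup_le (by rwa [zpowers_le]) inf_le_left) hXidx with h | h
    · exfalso
      apply hxC'
      have : x ∈ X ⊓ C := by rw [← h]; exact mem_sup_left (mem_zpowers x)
      exact this.2
    · exact h
  have hab : X ≤ centralizer (X : Set G) := by
    have h1 : X ⊓ C ≤ centralizer (X : Set G) := by
      rw [le_centralizer_iff]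
      exact hXcC.trans (centralizer_le inf_le_right)
    have h2 : x ∈ centralizer (X : Set G) := by
      rw [← zpowers_le, le_centralizer_iff, ← hXgen, sup_le_iff]
      refine ⟨?_, ?_⟩
      · rw [zpowers_le, mem_centralizer_iff]
        rintro _ ⟨k, rfl⟩
        exact (Commute.refl x).zpow_left k
      · refine h1.trans (centralizer_le ?_)
        intro y hy
        have : zpowers x ≤ X := by rwa [zpowers_le]
        exact this hy
    conv_lhs => rw [← hXgen]
    exact sup_le (by rwa [zpowers_le]) h1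
  have hXJ : J ≤ normalizer (X : Set G) := H1.Coprime2.le_normalizer_commutator_right _ _
  have hXcop : (Nat.card X).Coprime (Nat.card J) :=
    (Nat.Coprime.coprime_dvd_right (card_dvd_of_le hXR) hcop).symm
  have h3 := comm_inf_centralizer_eq_bot hab hXcop hXJ
  rw [hXX] at h3
  have h4 : X ⊓ C = ⊥ := by
    rw [eq_bot_iff, ← h3]
    exact le_inf inf_le_left (inf_le_right.trans (commutator_eq_bot_iff_le_centralizer.mp hCJ))
  rw [h4, relIndex_bot_left] at hXidx
  exact ⟨hXidx, hsupR, hXX⟩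

end H54.Ord3
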