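import Cfsg.Prelude.Def_JComponents
import Cfsg.Agent.Lib.H52.PRes
import Cfsg.Agent.Lib.H52.Syl
import Cfsg.Agent.Lib.H54.Ord3

set_option autoImplicit false

/-!
`PreComp J K`: `K = O^2(K) = [K,J]`, `|K : O_2(K)| = 3`.
-/

namespace H54.PreComp

open Subgroup Cfsg H52.PRes H52.PCore H52.Syl
open scoped commutatorElement

universe u v

variable {G : Type u} [Group G] {H : Type v} [Group H]

instance fact2 : Fact (Nat.Prime 2) := ⟨Nat.prime_two⟩

structure PreComp (J K : Subgroup G) : Prop where
  gen : closure {g : G | g ∈ K ∧ Odd (orderOf g)} = K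
  comm : ⁅K, J⁆ = K
  idx : (pCoreOf 2 K).relIndex K = 3

theorem odd_iff {n : ℕ} : Odd n ↔ Nat.Coprime n 2 := by
  rw [Nat.coprime_comm, Nat.coprime_two_left]

theorem resOf_eq_self_iff {K : Subgroup G} :
    resOf 2 K = K ↔ closure {g : G | g ∈ K ∧ Odd (orderOf g)} = K := by
  rw [resOf_eq_closure]
  have : {g : G | g ∈ K ∧ Nat.Coprime (orderOf g) 2} = {g : G | g ∈ K ∧ Odd (orderOf g)} := by
    ext g; simp only [odd_iff]
  rw [this]

theorem le_of_map_le {f : G →* H} (hf : Function.Injective f) {A B : Subgroup G}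
    (h : A.map f ≤ B.map f) : A ≤ B := (map_le_map_iff_of_injective hf).mp h

theorem map_inj {f : G →* H} (hf : Function.Injective f) {A B : Subgroup G} :
    A.map f = B.map f ↔ A = B :=
  ⟨fun h => Subgroup.map_injective hf h, fun h => by rw [h]⟩

theorem map_le_normalizer_map {f : G →* H} {A B : Subgroup G} (h : A ≤ normalizer (B : Set G)) :
    A.map f ≤ normalizer ((B.map f : Subgroup H) : Set H) := by
  apply H54.Basic.le_normalizer_of_conj
  rintro _ ⟨a, ha, rfl⟩ _ ⟨b, hb, rfl⟩
  rw [← map_inv, ← map_mul, ← map_mul]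
  exact mem_map_of_mem _ (H54.Basic.mul_inv_mem_of_mem_normalizer (h ha) hb)

theorem le_normalizer_of_map {f : G →* H} (hf : Function.Injective f) {A B : Subgroup G}
    (h : A.map f ≤ normalizer ((B.map f : Subgroup H) : Set H)) : A ≤ normalizer (B : Set G) := by
  apply H54.Basic.le_normalizer_of_conj
  intro a ha b hb
  have h1 := H54.Basic.mul_inv_mem_of_mem_normalizer (h (mem_map_of_mem f ha)) (mem_map_of_mem f hb)
  rw [← map_inv, ← map_mul, ← map_mul] at h1
  obtain ⟨c, hc, hce⟩ := h1
  rwa [← hf hce]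

theorem map_le_normalizer_map_iff {f : G →* H} (hf : Function.Injective f) {A B : Subgroup G} :
    A.map f ≤ normalizer ((B.map f : Subgroup H) : Set H) ↔ A ≤ normalizer (B : Set G) :=
  ⟨le_normalizer_of_map hf, map_le_normalizer_map⟩

theorem pCoreOf_map {p : ℕ} {f : G →* H} (hf : Function.Injective f) (K : Subgroup G) :
    pCoreOf p (K.map f) = (pCoreOf p K).map f := by
  apply le_antisymm
  · have h1 : (pCoreOf p (K.map f)).comap f ≤ pCoreOf p K := by
      apply le_pCoreOf
      · intro x hx
        obtain ⟨y, hy, hyx⟩ := pCoreOf_le _ hx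
        rwa [← hf hyx]
      · apply H54.Basic.le_normalizer_of_conj
        intro k hk x hx
        rw [mem_comap] at hx ⊢
        rw [map_mul, map_mul, map_inv]
        exact H54.Basic.mul_inv_mem_of_mem_normalizer
          (le_normalizer_pCoreOf _ (mem_map_of_mem f hk)) hx
      · exact IsPGroup.comap_of_injective (isPGroup_pCoreOf _) f hf
    intro x hx
    obtain ⟨y, hy, hyx⟩ := pCoreOf_le _ hx
    refine ⟨y, h1 ?_, hyx⟩
    rw [mem_comap, hyx]; exact hx
  · apply le_pCoreOf
    · exact Subgroup.map_mono (pCoreOf_le K)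
    · exact map_le_normalizer_map (le_normalizer_pCoreOf K)
    · exact (isPGroup_pCoreOf K).map f

theorem pCoreOf_map_conj (g : G) (K : Subgroup G) :
    pCoreOf 2 (K.map (MulAut.conj g).toMonoidHom) =
        (pCoreOf 2 K).map (MulAut.conj g).toMonoidHom :=
  pCoreOf_map (MulAut.conj g).injective K

theorem closure_odd_map {f : G →* H} (hf : Function.Injective f) (K : Subgroup G) :
    closure {g : H | g ∈ K.map f ∧ Odd (orderOf g)} =
      (closure {g : G | g ∈ K ∧ Odd (orderOf g)}).map f := by
  rw [MonoidHom.map_closure]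
  congr 1
  ext x
  constructor
  · rintro ⟨⟨y, hy, rfl⟩, ho⟩
    refine ⟨y, ⟨hy, ?_⟩, rfl⟩
    rwa [orderOf_injective f hf] at ho
  · rintro ⟨y, ⟨hy, ho⟩, rfl⟩
    refine ⟨⟨y, hy, rfl⟩, ?_⟩
    rwa [orderOf_injective f hf]

theorem map_iff {f : G →* H} (hf : Function.Injective f) {J K : Subgroup G} :
    PreComp (J.map f) (K.map f) ↔ PreComp J K := by
  constructor
  · intro h
    refine ⟨?_, ?_, ?_⟩
    · have := h.gen
      rw [closure_odd_map hf] at this
      exact (map_inj hf).mp this
    · have := h.comm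
      rw [← map_commutator] at this
      exact (map_inj hf).mp this
    · have := h.idx
      rwa [pCoreOf_map hf, relIndex_map_map_of_injective _ _ hf] at this
  · intro h
    refine ⟨?_, ?_, ?_⟩
    · rw [closure_odd_map hf, h.gen]
    · rw [← map_commutator, h.comm]
    · rw [pCoreOf_map hf, relIndex_map_map_of_injective _ _ hf]
      exact h.idx

namespace PreComp

variable {J K : Subgroup G}

theorem resOf_eq (h : PreComp J K) : resOf 2 K = K := resOf_eq_self_iff.mpr h.gen

theorem le_normalizer (h : PreComp J K) : J ≤ normalizer (K : Set G) := by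
  apply H54.Basic.le_normalizer_of_conj
  intro j hj k hk
  have h1 : ⁅k, j⁆ ∈ K := by
    rw [← h.comm]; exact commutator_mem_commutator hk hj
  have h3 : j * k * j⁻¹ = ⁅k, j⁆⁻¹ * k := by rw [commutatorElement_def]; group
  rw [h3]
  exact mul_mem (inv_mem h1) hk

theorem normalized_by (h : PreComp J K) (hJ2 : IsPGroup 2 J) {Q : Subgroup G}
    (hQ1 : K ⊔ J ≤ normalizer (Q : Set G)) (hQ2 : Q ≤ normalizer (J : Set G)) :
    Q ≤ normalizer (K : Set G) := by
  classical
  have hJK := h.le_normalizer
  -- Y is the closure of the K-conjugates of J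
  let Y : Subgroup G := ⨆ k : ↥K, J.map (MulAut.conj (k : G)).toMonoidHom
  have hJY : J ≤ Y := by
    have := le_iSup (fun k : ↥K => J.map (MulAut.conj (k : G)).toMonoidHom) 1
    simp only [Subgroup.coe_one, H54.Basic.map_conj_one] at this
    exact this
  have hKY : K ≤ Y := by
    rw [← h.comm, Subgroup.commutator_le]
    intro k hk j hj
    have h1 : k * j * k⁻¹ ∈ Y := by
      have := le_iSup (fun k : ↥K => J.map (MulAut.conj (k : G)).toMonoidHom) ⟨k, hk⟩
      exact this ((H54.Basic.mem_map_conj _ _ _).mpr (by simpa [mul_assoc] using hj))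
    have h2 : j ∈ Y := hJY hj
    have := Y.mul_mem h1 (Y.inv_mem h2)
    simpa [commutatorElement_def] using this
  have hYle : Y ≤ K ⊔ J := by
    refine iSup_le fun k => ?_
    intro x hx
    rw [H54.Basic.mem_map_conj] at hx
    have h1 : (k : G) ∈ K ⊔ J := Subgroup.mem_sup_left k.2
    have h2 : (k : G)⁻¹ * x * k ∈ K ⊔ J := Subgroup.mem_sup_right hx
    have := (K ⊔ J).mul_mem ((K ⊔ J).mul_mem h1 h2) ((K ⊔ J).inv_mem h1)
    simpa [mul_assoc] using this
  -- Q normalizes Y
  have hQY : Q ≤ Subgroup.normalizer (Y : Set G) := by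
    intro q hq
    rw [← H54.Basic.map_conj_eq_iff]
    rw [Subgroup.map_iSup]
    congr 1
    funext k
    rw [← H54.Basic.map_conj_mul]
    have h1 : (k : G)⁻¹ * q * k ∈ Q :=
      H54.Basic.inv_mul_mem_of_mem_normalizer (hQ1 (Subgroup.mem_sup_left k.2)) hq
    have h2 := (H54.Basic.map_conj_eq_iff _ _).mpr (hQ2 h1)
    rw [show q * (k : G) = k * ((k : G)⁻¹ * q * k) by group, H54.Basic.map_conj_mul, h2]
  -- K is generated by the odd order elements of Y
  have hodd : ∀ x ∈ Y, Odd (orderOf x) → x ∈ K := by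
    intro x hx hox
    exact H54.Basic.mem_of_coprime_orderOf (p := 2) hJK hJ2 (hYle hx) (odd_iff.mp hox)
  have hkey : ∀ q ∈ Q, ∀ k ∈ K, q * k * q⁻¹ ∈ K := by
    intro q hq k hk
    rw [← h.gen] at hk
    induction hk using Subgroup.closure_induction with
    | mem x hx =>
      apply hodd
      · exact H54.Basic.mul_inv_mem_of_mem_normalizer (hQY hq) (hKY hx.1)
      · have : orderOf (q * x * q⁻¹) = orderOf x := by
          have := orderOf_injective (MulAut.conj q).toMonoidHom (MulAut.conj q).injective x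
          simpa [MulAut.conj_apply] using this
        rw [this]
        exact hx.2
    | one => simp
    | mul x y _ _ hx hy =>
      have := K.mul_mem hx hy
      simpa [mul_assoc] using this
    | inv x _ hx =>
      have := K.inv_mem hx
      simpa [mul_assoc] using this
  exact H54.Basic.le_normalizer_of_conj hkey

theorem map_conj (h : PreComp J K) (g : G) :
    PreComp (J.map (MulAut.conj g).toMonoidHom) (K.map (MulAut.conj g).toMonoidHom) :=
  (map_iff (MulAut.conj g).injective).mpr h

variable [Finite G]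

theorem card_ne (h : PreComp J K) : ¬ IsPGroup 2 K := by
  intro h1
  have h2 := h.idx
  have h3 : pCoreOf 2 K = K := le_antisymm (pCoreOf_le K) (le_pCoreOf le_rfl Subgroup.le_normalizer h1)
  rw [h3, relIndex_self] at h2
  omega

/-- a normal subgroup of `K` not inside `O_2(K)` is `K` -/
theorem eq_of_normal (h : PreComp J K) {N : Subgroup G} (hNK : N ≤ K)
    (hn : K ≤ normalizer (N : Set G)) (hN : ¬ N ≤ pCoreOf 2 K) : N = K := by
  have h1 : N ⊔ pCoreOf 2 K = K := by
    rcases Ord3.eq_or_eq_of_relIndex_prime (p := 3) Nat.prime_three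
      (le_sup_right : pCoreOf 2 K ≤ N ⊔ pCoreOf 2 K) (sup_le hNK (pCoreOf_le K)) h.idx with h1 | h1
    · exact absurd (by rw [← h1]; exact le_sup_left) hN
    · exact h1
  have h2 : PMod 2 K N := by
    have := pMod_of_sup (p := 2) (P := pCoreOf 2 K) (C := N) (isPGroup_pCoreOf K)
      ((pCoreOf_le K).trans hn)
    rw [sup_comm] at this
    rwa [h1] at this
  have h3 := resOf_le_of_pMod h2
  rw [h.resOf_eq] at h3
  exact le_antisymm hNK h3

/-- normal subgroups with quotient a 2-group -/
theorem eq_of_pMod (h : PreComp J K) {N : Subgroup G} (hNK : N ≤ K)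
    (hm : PMod 2 K N) : N = K := by
  have h3 := resOf_le_of_pMod hm
  rw [h.resOf_eq] at h3
  exact le_antisymm hNK h3

end PreComp

/-- two subgroups generated by 2'-elements that agree modulo a 2-group normalizing both agree. -/
theorem eq_of_sup_eq [Finite G] {K₁ K₂ P : Subgroup G} (h1 : resOf 2 K₁ = K₁) (h2 : resOf 2 K₂ = K₂)
    (hP : IsPGroup 2 P) (hP1 : P ≤ normalizer (K₁ : Set G)) (hP2 : P ≤ normalizer (K₂ : Set G))
    (h : K₁ ≤ P ⊔ K₂) (h' : K₂ ≤ P ⊔ K₁) : K₁ = K₂ := by
  apply le_antisymm
  · have := resOf_mono (p := 2) h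
    rw [h1] at this
    exact this.trans (resOf_le_of_pMod (pMod_of_sup hP hP2))
  · have := resOf_mono (p := 2) h'
    rw [h2] at this
    exact this.trans (resOf_le_of_pMod (pMod_of_sup hP hP1))

end H54.PreComp
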