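import Cfsg.Agent.Lib.H54.Transv

set_option autoImplicit false

/-!
Transvections, part 2: commutators of transvections lie in `R_t`; transvections normalize subgroups
of order 3 of `F` with small support.
-/

namespace H54.Transv

open Subgroup H13
open scoped commutatorElement

universe u

variable {Γ : Type u} [Group Γ] [Finite Γ] {V X F : Subgroup Γ}

theorem card_le_six {W D : Subgroup Γ} (hW : Nat.card W = 4)
    (hDW : D ≤ normalizer (W : Set Γ)) (hf : D ⊓ centralizer (W : Set Γ) = ⊥) :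
    Nat.card D ≤ 6 := by
  classical
  have : Fintype W := Fintype.ofFinite W
  let act : D → Equiv.Perm {x : W // x ≠ 1} := fun d =>
    { toFun := fun x => ⟨⟨d * (x : W) * (d : Γ)⁻¹,
        H54.Basic.mul_inv_mem_of_mem_normalizer (hDW d.2) (x : W).2⟩, by
          intro h
          apply x.2
          have h1 : (d : Γ) * (x : W) * (d : Γ)⁻¹ = 1 := congrArg Subtype.val h
          apply Subtype.ext
          calc ((x : W) : Γ) = (d : Γ)⁻¹ * (d * (x : W) * (d : Γ)⁻¹) * d := by group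
            _ = 1 := by rw [h1]; group⟩
      invFun := fun x => ⟨⟨(d : Γ)⁻¹ * (x : W) * (d : Γ),
        H54.Basic.inv_mul_mem_of_mem_normalizer (hDW d.2) (x : W).2⟩, by
          intro h
          apply x.2
          have h1 : (d : Γ)⁻¹ * (x : W) * (d : Γ) = 1 := congrArg Subtype.val h
          apply Subtype.ext
          calc ((x : W) : Γ) = (d : Γ) * ((d : Γ)⁻¹ * (x : W) * (d : Γ)) * (d : Γ)⁻¹ := by group
            _ = 1 := by rw [h1]; group⟩
      left_inv := by
        intro x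
        apply Subtype.ext
        apply Subtype.ext
        change (d : Γ)⁻¹ * (d * (x : W) * (d : Γ)⁻¹) * d = x
        group
      right_inv := by
        intro x
        apply Subtype.ext
        apply Subtype.ext
        change (d : Γ) * ((d : Γ)⁻¹ * (x : W) * d) * (d : Γ)⁻¹ = x
        group }
  have hinj : Function.Injective act := by
    intro d d' hdd
    have h1 : ∀ w : W, w ≠ 1 → (d : Γ) * w * (d : Γ)⁻¹ = d' * w * (d' : Γ)⁻¹ := by
      intro w hw
      have := congrArg (fun f : Equiv.Perm {x : W // x ≠ 1} => (((f ⟨w, hw⟩ : {x : W // x ≠ 1}) : W) : Γ)) hdd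
      exact this
    have h2 : (d' : Γ)⁻¹ * d ∈ D ⊓ centralizer (W : Set Γ) := by
      refine Subgroup.mem_inf.mpr ⟨mul_mem (inv_mem d'.2) d.2, ?_⟩
      rw [mem_centralizer_iff]
      intro w hw
      by_cases hw1 : w = 1
      · subst hw1; group
      · have h3 := h1 ⟨w, hw⟩ (fun h => hw1 (congrArg Subtype.val h))
        simp only at h3
        calc w * ((d' : Γ)⁻¹ * d) = (d' : Γ)⁻¹ * (d' * w * (d' : Γ)⁻¹) * d := by group
          _ = (d' : Γ)⁻¹ * (d * w * (d : Γ)⁻¹) * d := by rw [h3]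
          _ = _ := by group
    rw [hf, mem_bot, inv_mul_eq_one] at h2
    exact Subtype.ext h2.symm
  have h5 := Nat.card_le_card_of_injective act hinj
  have h6 : Nat.card (Equiv.Perm {x : W // x ≠ 1}) = 6 := by
    have h7 : Fintype.card {x : W // x ≠ 1} = 3 := by
      rw [Fintype.card_subtype_compl, Fintype.card_subtype_eq,
        ← Nat.card_eq_fintype_card, hW]
    rw [Nat.card_eq_fintype_card, Fintype.card_perm, h7]
    rfl
  omega

theorem tv_ne_one {t : Γ} (ht : IsTv V t) : t ≠ 1 := by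
  rintro rfl
  have h4 := ht.2
  have h5 : V ⊓ centralizer ({1} : Set Γ) = V := by
    apply inf_eq_left.mpr
    intro x _
    rw [mem_centralizer_singleton_iff]; simp
  rw [h5, relIndex_self] at h4
  omega

/-- a transvection centralizes the supports of the other `R_t` -/
theorem centralizes_support (h : FF V X F) {s t : Γ} (hsX : s ∈ X) (hs : IsTv V s) (htX : t ∈ X)
    (ht : IsTv V t) (hne : R F s ≠ R F t) :
    s ∈ centralizer ((⁅V, R F t⁆ : Subgroup Γ) : Set Γ) := by
  have h1 := (of_R_ne h hsX hs htX ht hne).1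
  have hsn := mem_normalizer_R h hsX hs htX ht
  have htF := R_le_F h htX
  have htV : ⁅V, R F t⁆ ≤ V := Act.comm_le ((htF.trans h.hFX).trans h.hX) le_rfl
  rw [← zpowers_le, le_centralizer_iff, ← commutator_eq_bot_iff_le_centralizer, eq_bot_iff, ← h1]
  refine le_inf ?_ ?_
  · exact (commutator_mono htV le_rfl).trans (card_R h hsX hs).2.2
  · apply H1.Coprime2.commutator_le_left
    rw [zpowers_le]
    exact (H1.Coprime2.le_normalizer_commutator (B := zpowers s)
      (by rw [zpowers_le]; exact h.hX hsX) (by rw [zpowers_le]; exact hsn)) (mem_zpowers s)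

theorem inv_eq_self {t : Γ} (ht : t * t = 1) : t⁻¹ = t := inv_eq_of_mul_eq_one_left ht

theorem commute_of_R_ne (h : FF V X F) {s t : Γ} (hsX : s ∈ X) (hs : IsTv V s) (htX : t ∈ X)
    (ht : IsTv V t) (hne : R F s ≠ R F t) : s * t = t * s := by
  have h1 := centralizes_support h hsX hs htX ht hne
  have h2 := centralizes_support h htX ht hsX hs hne.symm
  have hVs : ∀ v ∈ V, ⁅v, s⁆ ∈ ⁅V, R F s⁆ := fun v hv =>
    (card_R h hsX hs).2.2 (commutator_mem_commutator hv (mem_zpowers s))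
  have hVt : ∀ v ∈ V, ⁅v, t⁆ ∈ ⁅V, R F t⁆ := fun v hv =>
    (card_R h htX ht).2.2 (commutator_mem_commutator hv (mem_zpowers t))
  have hsV : ⁅V, R F s⁆ ≤ V := Act.comm_le (((R_le_F h hsX).trans h.hFX).trans h.hX) le_rfl
  have htV : ⁅V, R F t⁆ ≤ V := Act.comm_le (((R_le_F h htX).trans h.hFX).trans h.hX) le_rfl
  have key : (t * s)⁻¹ * (s * t) ∈ X ⊓ centralizer (V : Set Γ) := by
    refine Subgroup.mem_inf.mpr ⟨mul_mem (inv_mem (mul_mem htX hsX)) (mul_mem hsX htX), ?_⟩
    rw [mem_centralizer_iff]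
    intro v hv
    have hvV : v ∈ V := hv
    set a := ⁅v, s⁆ with ha
    set b := ⁅v, t⁆ with hb
    have haV := hsV (hVs v hvV)
    have hbV := htV (hVt v hvV)
    have e1 : s * v * s⁻¹ = a⁻¹ * v := by rw [ha, commutatorElement_def]; group
    have e2 : t * v * t⁻¹ = b⁻¹ * v := by rw [hb, commutatorElement_def]; group
    have e3 : s * b = b * s := (mem_centralizer_iff.mp h1 b (hVt v hvV)).symm
    have e4 : t * a = a * t := (mem_centralizer_iff.mp h2 a (hVs v hvV)).symm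
    have e3' : s * b⁻¹ * s⁻¹ = b⁻¹ := by
      have : s * b⁻¹ * s⁻¹ = (s * b * s⁻¹)⁻¹ := by group
      rw [this, e3]; group
    have e4' : t * a⁻¹ * t⁻¹ = a⁻¹ := by
      have : t * a⁻¹ * t⁻¹ = (t * a * t⁻¹)⁻¹ := by group
      rw [this, e4]; group
    have e5 : (s * t) * v * (s * t)⁻¹ = b⁻¹ * a⁻¹ * v := by
      calc (s * t) * v * (s * t)⁻¹ = s * (t * v * t⁻¹) * s⁻¹ := by group
        _ = s * (b⁻¹ * v) * s⁻¹ := by rw [e2]
        _ = (s * b⁻¹ * s⁻¹) * (s * v * s⁻¹) := by group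
        _ = _ := by rw [e3', e1]; group
    have e6 : (t * s) * v * (t * s)⁻¹ = a⁻¹ * b⁻¹ * v := by
      calc (t * s) * v * (t * s)⁻¹ = t * (s * v * s⁻¹) * t⁻¹ := by group
        _ = t * (a⁻¹ * v) * t⁻¹ := by rw [e1]
        _ = (t * a⁻¹ * t⁻¹) * (t * v * t⁻¹) := by group
        _ = _ := by rw [e4', e2]; group
    have e7 : a⁻¹ * b⁻¹ = b⁻¹ * a⁻¹ :=
      mem_centralizer_iff.mp (h.hc (inv_mem hbV)) a⁻¹ (inv_mem haV)
    have e8 : (s * t) * v * (s * t)⁻¹ = (t * s) * v * (t * s)⁻¹ := by rw [e5, e6, e7]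
    calc v * ((t * s)⁻¹ * (s * t)) = (t * s)⁻¹ * ((t * s) * v * (t * s)⁻¹) * (s * t) := by group
      _ = (t * s)⁻¹ * ((s * t) * v * (s * t)⁻¹) * (s * t) := by rw [e8]
      _ = _ := by group
  rw [h.hf, mem_bot, inv_mul_eq_one] at key
  exact key.symm

theorem mul_mem_R_of_eq (h : FF V X F) {s t : Γ} (hsX : s ∈ X) (hs : IsTv V s) (htX : t ∈ X)
    (ht : IsTv V t) (heq : R F s = R F t) : s * t ∈ R F t := by
  obtain ⟨hs3, hs4, hsz⟩ := card_R h hsX hs
  obtain ⟨ht3, ht4, htz⟩ := card_R h htX ht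
  have htF := R_le_F h htX
  have hRX : R F t ≤ X := htF.trans h.hFX
  have htV : ⁅V, R F t⁆ ≤ V := Act.comm_le (hRX.trans h.hX) le_rfl
  have hRodd := odd_of_le h htF
  have hsn := mem_normalizer_R h hsX hs htX ht
  have htn := mem_normalizer_R h htX ht htX ht
  -- U = C_V(R)
  set U : Subgroup Γ := V ⊓ centralizer ((R F t : Subgroup Γ) : Set Γ) with hU
  have hVU : ⁅V, R F t⁆ ⊔ U = V := Fix.comm_sup_centralizer h.hc h.isPGroup hRodd (hRX.trans h.hX)
  have hUW : ⁅V, R F t⁆ ⊓ centralizer ((R F t : Subgroup Γ) : Set Γ) = ⊥ :=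
    Fix.comm_inf_centralizer h.hc h.isPGroup hRodd (hRX.trans h.hX)
  have hcU : ∀ x ∈ X, x ∈ normalizer ((R F t : Subgroup Γ) : Set Γ) →
      ⁅V, zpowers x⁆ ≤ ⁅V, R F t⁆ → x ∈ centralizer (U : Set Γ) := by
    intro x hxX hxn hx
    rw [← zpowers_le, le_centralizer_iff, ← commutator_eq_bot_iff_le_centralizer, eq_bot_iff, ← hUW]
    refine le_inf ((commutator_mono inf_le_left le_rfl).trans hx) ?_
    have h1 : ⁅U, zpowers x⁆ ≤ U := by
      apply H1.Coprime2.commutator_le_left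
      rw [zpowers_le]
      exact (H1.Coprime2.le_normalizer_inf (B := zpowers x) (by rw [zpowers_le]; exact h.hX hxX)
        (H1.Coprime2.le_normalizer_centralizer (by rw [zpowers_le]; exact hxn))) (mem_zpowers x)
    exact h1.trans inf_le_right
  have hsU := hcU s hsX hsn (by rw [← heq]; exact hsz)
  have htU := hcU t htX htn htz
  set D : Subgroup Γ := (zpowers s ⊔ zpowers t) ⊔ R F t with hD
  have hDX : D ≤ X := sup_le (sup_le (by rwa [zpowers_le]) (by rwa [zpowers_le])) hRX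
  have hDn : D ≤ normalizer ((R F t : Subgroup Γ) : Set Γ) :=
    sup_le (sup_le (by rwa [zpowers_le]) (by rwa [zpowers_le])) le_normalizer
  have hDU : D ≤ centralizer (U : Set Γ) :=
    sup_le (sup_le (by rwa [zpowers_le]) (by rwa [zpowers_le])) (le_centralizer_iff.mp inf_le_right)
  have hDW : D ≤ normalizer ((⁅V, R F t⁆ : Subgroup Γ) : Set Γ) :=
    H1.Coprime2.le_normalizer_commutator (hDX.trans h.hX) hDn
  have hDf : D ⊓ centralizer ((⁅V, R F t⁆ : Subgroup Γ) : Set Γ) = ⊥ := by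
    apply h.eq_bot (inf_le_left.trans hDX)
    have h1 : D ⊓ centralizer ((⁅V, R F t⁆ : Subgroup Γ) : Set Γ) ≤
        centralizer ((⁅V, R F t⁆ ⊔ U : Subgroup Γ) : Set Γ) := by
      rw [Replace.centralizer_sup]
      exact le_inf inf_le_right (inf_le_left.trans hDU)
    rwa [hVU] at h1
  have hD6 := card_le_six ht4 hDW hDf
  have hRD : R F t ≤ D := le_sup_right
  have h2 := Replace.card_eq_mul_relIndex hRD
  rw [ht3] at h2
  have hnot : ∀ x : Γ, x * x = 1 → x ≠ 1 → x ∉ R F t := by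
    intro x hx hx1 hxR
    have h3 : orderOf x ∣ 2 := orderOf_dvd_of_pow_eq_one (by rw [pow_two]; exact hx)
    have h5 : (orderOf x).Coprime 2 := by
      refine Nat.Coprime.coprime_dvd_left ?_ hRodd
      have := orderOf_dvd_natCard (⟨x, hxR⟩ : R F t)
      rwa [Subgroup.orderOf_mk] at this
    exact hx1 (orderOf_eq_one_iff.mp (Nat.Coprime.eq_one_of_dvd h5 h3))
  have hsR := hnot s hs.1 (tv_ne_one hs)
  have htR := hnot t ht.1 (tv_ne_one ht)
  have hsD : s ∈ D := mem_sup_left (mem_sup_left (mem_zpowers s))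
  have htD : t ∈ D := mem_sup_left (mem_sup_right (mem_zpowers t))
  have hidx : (R F t).relIndex D = 2 := by
    have h3 : (R F t).relIndex D ≠ 1 := by
      intro h4
      rw [relIndex_eq_one] at h4
      exact hsR (h4 hsD)
    have h4 : (R F t).relIndex D ≠ 0 := by
      intro h5
      rw [h5] at h2
      have : 0 < Nat.card D := Nat.card_pos
      omega
    omega
  have h6 := (mul_mem_iff_of_index_two (H := (R F t).subgroupOf D) hidx
    (a := ⟨s, hsD⟩) (b := ⟨t, htD⟩)).mpr (by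
      constructor
      · intro h7; exact absurd (mem_subgroupOf.mp h7) hsR
      · intro h7; exact absurd (mem_subgroupOf.mp h7) htR)
  exact mem_subgroupOf.mp h6

/-- commutators of transvections -/
theorem comm_tv_mem_R (h : FF V X F) {s t : Γ} (hsX : s ∈ X) (hs : IsTv V s) (htX : t ∈ X)
    (ht : IsTv V t) : ⁅s, t⁆ ∈ R F t := by
  by_cases heq : R F s = R F t
  · have h1 := mul_mem_R_of_eq h hsX hs htX ht heq
    have h2 : ⁅s, t⁆ = (s * t) * (s * t) := by
      rw [commutatorElement_def, inv_eq_self hs.1, inv_eq_self ht.1]; group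
    rw [h2]
    exact mul_mem h1 h1
  · have h1 := commute_of_R_ne h hsX hs htX ht heq
    rw [commutatorElement_eq_one_iff_mul_comm.mpr h1]
    exact one_mem _

theorem isPGroup_sup_of_le (h : FF V X F) {D E : Subgroup Γ} (hD : D ≤ F) (hE : E ≤ F)
    (hD3 : Nat.card D = 3) (hE3 : Nat.card E = 3) : IsPGroup 3 (D ⊔ E : Subgroup Γ) := by
  have key : ∀ {D : Subgroup Γ}, Nat.card D = 3 → ∀ x ∈ D, x ^ 3 = 1 := by
    intro D hD3 x hx
    have h1 := orderOf_dvd_natCard (⟨x, hx⟩ : D)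
    rw [Subgroup.orderOf_mk, hD3] at h1
    exact orderOf_dvd_iff_pow_eq_one.mp h1
  have h1 : D ⊔ E ≤ closure ((D : Set Γ) ∪ (E : Set Γ)) := by
    rw [Subgroup.closure_union, Subgroup.closure_eq, Subgroup.closure_eq]
  refine (isPGroup_of_gens h.hnil (S := (D : Set Γ) ∪ (E : Set Γ)) ?_ ?_).to_le h1
  · rintro x (hx | hx)
    · exact hD hx
    · exact hE hx
  · rintro x (hx | hx)
    · exact key hD3 x hx
    · exact key hE3 x hx

/-- a transvection normalizes each subgroup of order 3 of `F` with support of order 4 -/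
theorem mem_normalizer_of_card_three (h : FF V X F) {s : Γ} (hsX : s ∈ X) (hs : IsTv V s)
    {D : Subgroup Γ} (hDF : D ≤ F) (hD3 : Nat.card D = 3) (hD4 : Nat.card ↥⁅V, D⁆ = 4) :
    s ∈ normalizer (D : Set Γ) := by
  rw [← H54.Basic.map_conj_eq_iff]
  set D' := D.map (MulAut.conj s).toMonoidHom with hD'
  have hD'F : D' ≤ F := by
    rintro _ ⟨x, hx, rfl⟩
    exact H54.Basic.mul_inv_mem_of_mem_normalizer (h.hXF hsX) (hDF hx)
  have hD'3 : Nat.card D' = 3 := by rw [hD', H54.Basic.card_map_conj, hD3]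
  have hVD' : ⁅V, D'⁆ = (⁅V, D⁆).map (MulAut.conj s).toMonoidHom := by
    rw [map_commutator]
    congr 1
    exact ((H54.Basic.map_conj_eq_iff s V).mpr (h.hX hsX)).symm
  have hD'4 : Nat.card ↥⁅V, D'⁆ = 4 := by rw [hVD', H54.Basic.card_map_conj, hD4]
  have hDV : ⁅V, D⁆ ≤ V := Act.comm_le ((hDF.trans h.hFX).trans h.hX) le_rfl
  have hD'V : ⁅V, D'⁆ ≤ V := Act.comm_le ((hD'F.trans h.hFX).trans h.hX) le_rfl
  have h1 : (⁅V, D⁆ ⊓ centralizer ({s} : Set Γ)).relIndex ⁅V, D⁆ ≤ 2 := by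
    have h2 : (V ⊓ centralizer ({s} : Set Γ)).relIndex ⁅V, D⁆ ≤
        (V ⊓ centralizer ({s} : Set Γ)).relIndex V := by
      apply relIndex_le_of_le_right hDV
      rw [hs.2]; norm_num
    rw [hs.2] at h2
    have h3 : (⁅V, D⁆ ⊓ centralizer ({s} : Set Γ)).relIndex ⁅V, D⁆ =
        (V ⊓ centralizer ({s} : Set Γ)).relIndex ⁅V, D⁆ := by
      rw [← inf_relIndex_right, ← inf_relIndex_right (V ⊓ centralizer ({s} : Set Γ))]
      congr 1
      ext x
      simp only [Subgroup.mem_inf]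
      constructor
      · rintro ⟨⟨a, b⟩, c⟩; exact ⟨⟨hDV a, b⟩, c⟩
      · rintro ⟨⟨a, b⟩, c⟩; exact ⟨⟨c, b⟩, c⟩
    rw [h3]; exact h2
  have h2 := Replace.card_eq_mul_relIndex (H := ⁅V, D⁆ ⊓ centralizer ({s} : Set Γ))
    (K := ⁅V, D⁆) inf_le_left
  rw [hD4] at h2
  have h3 : 2 ≤ Nat.card ↥(⁅V, D⁆ ⊓ centralizer ({s} : Set Γ)) := by nlinarith
  have hint : 2 ≤ Nat.card ↥(⁅V, D'⁆ ⊓ ⁅V, D⁆) := by
    refine h3.trans (Nat.le_of_dvd Nat.card_pos (card_dvd_of_le ?_))
    refine le_inf ?_ inf_le_left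
    rintro x hx
    have hx1 := (Subgroup.mem_inf.mp hx).1
    have hx2 := mem_centralizer_singleton_iff.mp (Subgroup.mem_inf.mp hx).2
    rw [hVD']
    refine ⟨x, hx1, ?_⟩
    change s * x * s⁻¹ = x
    rw [← hx2]; group
  have hcard : Nat.card ↥(⁅V, D'⁆ ⊔ ⁅V, D⁆) ≤ 8 := by
    have h4 := Thompson.card_sup_mul_card_inf (le_norm h.toFaith hD'V hDV)
    rw [hD4, hD'4] at h4
    nlinarith
  have hYV : ⁅V, D'⁆ ⊔ ⁅V, D⁆ ≤ V := sup_le hD'V hDV
  have hact : D' ⊔ D ≤ Quad.actTriv V (⁅V, D'⁆ ⊔ ⁅V, D⁆) := by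
    refine sup_le ?_ ?_
    · intro x hx
      exact mem_actTriv_of hYV (h.hX (h.hFX (hD'F hx))) fun v hv =>
        le_sup_left (α := Subgroup Γ) (commutator_mem_commutator hv hx)
    · intro x hx
      exact mem_actTriv_of hYV (h.hX (h.hFX (hDF hx))) fun v hv =>
        le_sup_right (α := Subgroup Γ) (commutator_mem_commutator hv hx)
  have h5 := card_le_three_of_eight h.toFaith ((sup_le hD'F hDF).trans h.hFX)
    (isPGroup_sup_of_le h hD'F hDF hD'3 hD3) (commutator_le_of_le_actTriv hact) hcard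
  have e1 : D' = D' ⊔ D := Subgroup.eq_of_le_of_card_ge le_sup_left (by rw [hD'3]; exact h5)
  have e2 : D = D' ⊔ D := Subgroup.eq_of_le_of_card_ge le_sup_right (by rw [hD3]; exact h5)
  exact e1.trans e2.symm

end H54.Transv
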