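import Cfsg.Agent.Lib.H54.SolvAct
import Cfsg.Agent.Lib.H54.PreComp
import Cfsg.Agent.Lib.H54.Transv2
import Cfsg.Agent.Lib.H13.SylowN
import Cfsg.Agent.Lib.H13.FF1
import Cfsg.Agent.Lib.H52.Sub
import Cfsg.Agent.Lib.H66.Commutators

set_option autoImplicit false

/-!
Groups of type `H`: solvable `H` with Sylow 2-subgroup `S` and `C_H(Z) ≤ N_H(S)`: components.
-/

namespace H54.JTh

open Subgroup H54.SemiAct H54.Transv H54.SolvAct H54.PreComp H52.PRes H52.PCore H52.Syl H52.Sub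
open scoped commutatorElement

universe u

variable {H : Type u} [Group H]

structure Hyp (V S J : Subgroup H) [V.Normal] : Prop where
  act : Act V
  syl : SylIn 2 S ⊤
  cn : centralizer (V : Set H) ≤ normalizer (S : Set H)
  oc : Cfsg.pCore 2 H ≤ centralizer (V : Set H)
  js : J ≤ S
  jn : ∀ S' : Subgroup H, J ≤ S' → S' ≤ S → normalizer (S' : Set H) ≤ normalizer (J : Set H)
  jgen : J ≤ sSup {A | A ≤ J ∧ Cfsg.IsElementaryAbelian 2 A ∧
    ∀ B ≤ A, H13.Replace.val V B ≤ H13.Replace.val V A}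

variable {V S J : Subgroup H} [hVn : V.Normal] [Finite H]

/-- best offenders are generated by transvections, modulo the kernel -/
theorem gen_of_off (h : Act V) {A : Subgroup H} (hA : Cfsg.IsElementaryAbelian 2 A)
    (hval : ∀ B ≤ A, H13.Replace.val V B ≤ H13.Replace.val V A) :
    A ≤ closure {t | t ∈ A ∧ IsT V t} ⊔ (A ⊓ centralizer (V : Set H)) := by
  have hX : A.map (rho V) ≤ (rho V).range := by
    rw [MonoidHom.range_eq_map]; exact Subgroup.map_mono le_top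
  have hbot : A.map (rho V) ⊓ centralizer (((Fh V).map (rho V) : Subgroup (Gam V)) : Set (Gam V)) = ⊥ := by
    have h1 : A.map (rho V) ⊓ centralizer (((Fh V).map (rho V) : Subgroup (Gam V)) : Set (Gam V)) ≤
        (Fh V).map (rho V) := le_trans (inf_le_inf_right _ hX) h.ff.hCF
    have h2 : IsPGroup 2 ↥(A.map (rho V) ⊓
        centralizer (((Fh V).map (rho V) : Subgroup (Gam V)) : Set (Gam V))) :=
      ((H13.ElemAb.isPGroup hA).map _).to_le inf_le_left
    have h3 := Transv.odd_of_le h.ff h1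
    rw [eq_bot_iff_card]
    obtain ⟨n, hn⟩ := IsPGroup.iff_card.mp h2
    rw [hn] at h3 ⊢
    rcases Nat.eq_zero_or_pos n with h0 | h0
    · rw [h0]; rfl
    · exfalso
      have := Nat.Coprime.eq_one_of_dvd h3.symm (dvd_pow_self 2 (by omega))
      omega
  have hv : ∀ B' ≤ A.map (rho V), H13.Replace.val (im V V) B' ≤
      H13.Replace.val (im V V) (A.map (rho V)) := by
    intro B' hB'
    set B := A ⊓ B'.comap (rho V) with hBdef
    have hBm : B.map (rho V) = B' := by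
      apply le_antisymm
      · rintro _ ⟨x, hx, rfl⟩
        exact (Subgroup.mem_inf.mp hx).2
      · intro x hx
        obtain ⟨a, ha, rfl⟩ := hB' hx
        exact ⟨a, Subgroup.mem_inf.mpr ⟨ha, hx⟩, rfl⟩
    have h1 := hval B inf_le_left
    have h2 := card_map_rho (V := V) B
    have h3 := card_map_rho (V := V) A
    have h4 : B ⊓ centralizer (V : Set H) = A ⊓ centralizer (V : Set H) := by
      apply le_antisymm (inf_le_inf_right _ inf_le_left)
      intro x hx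
      refine Subgroup.mem_inf.mpr ⟨Subgroup.mem_inf.mpr ⟨(Subgroup.mem_inf.mp hx).1, ?_⟩,
        (Subgroup.mem_inf.mp hx).2⟩
      rw [mem_comap, (rho_eq_one_iff V x).mpr (Subgroup.mem_inf.mp hx).2]
      exact one_mem _
    have h5 : ∀ D : Subgroup H, H13.Replace.val (im V V) (D.map (rho V)) *
        Nat.card ↥(D ⊓ centralizer (V : Set H)) = H13.Replace.val V D := by
      intro D
      have e1 := card_map_rho (V := V) D
      have e2 : im V V ⊓ centralizer ((D.map (rho V) : Subgroup (Gam V)) : Set (Gam V)) =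
        im V (V ⊓ centralizer (D : Set H)) := im_inf_centralizer V D
      unfold H13.Replace.val
      rw [e2, card_im inf_le_left, ← e1]
      ring
    have h6 := h5 B
    have h7 := h5 A
    rw [hBm, h4] at h6
    rw [← h6, ← h7] at h1
    exact Nat.le_of_mul_le_mul_right h1 Nat.card_pos
  have hg := Transv.gen h.faith h.ff.hFX (by
      have := Transv.odd_of_le h.ff le_rfl
      exact this) (Nat.card (A.map (rho V))) (A.map (rho V)) le_rfl hX (H13.ElemAb.map hA _)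
      (hX.trans h.ff.hXF) hbot hv
  intro a ha
  have h1 := hg (mem_map_of_mem _ ha)
  have h2 : {t | t ∈ A.map (rho V) ∧ IsTv (im V V) t} = (rho V) '' {t | t ∈ A ∧ IsT V t} := by
    ext x
    constructor
    · rintro ⟨⟨y, hy, rfl⟩, hx⟩
      exact ⟨y, ⟨hy, isTv_iff'.mp hx⟩, rfl⟩
    · rintro ⟨y, ⟨hy, hyt⟩, rfl⟩
      exact ⟨mem_map_of_mem _ hy, isTv_iff'.mpr hyt⟩
  rw [h2, ← MonoidHom.map_closure] at h1
  obtain ⟨b, hb, hba⟩ := h1
  have hbA : b ∈ A := by
    have : closure {t | t ∈ A ∧ IsT V t} ≤ A := (closure_le _).mpr (fun t ht => ht.1)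
    exact this hb
  rw [rho_eq_iff] at hba
  have : a = b * (b⁻¹ * a) := by group
  rw [this]
  exact mul_mem (mem_sup_left hb) (mem_sup_right (Subgroup.mem_inf.mpr ⟨mul_mem (inv_mem hbA) ha, hba⟩))

omit [Finite H] in
theorem C_le_normalizer (X : Subgroup H) [X.Normal] (Y : Subgroup H) :
    Y ≤ normalizer (X : Set H) := by rw [normalizer_eq_top]; exact le_top

omit [Finite H] in
theorem sup_normal_mem {X N : Subgroup H} [N.Normal] {x : H} (hx : x ∈ X ⊔ N) :
    ∃ y ∈ X, ∃ n ∈ N, x = y * n := by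
  obtain ⟨y, hy, n, hn, h⟩ := Subgroup.mem_sup_of_normal_right.mp hx
  exact ⟨y, hy, n, hn, h.symm⟩

namespace Hyp

local notation "CV" => centralizer (V : Set H)

theorem inf_le (h : Hyp V S J) : S ⊓ CV ≤ Cfsg.pCore 2 H := by
  -- S ⊓ C is the normal Sylow subgroup of C
  have h1 : SylIn 2 (S ⊓ CV) CV := h.syl.inf_normal le_top (C_le_normalizer _ _)
  have h2 : CV ≤ normalizer ((S ⊓ CV : Subgroup H) : Set H) :=
    H1.Coprime2.le_normalizer_inf h.cn Subgroup.le_normalizer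
  have h3 : S ⊓ CV ≤ Cfsg.pCoreOf 2 CV := le_pCoreOf inf_le_right h2 h1.isPGroup
  have h4 : Cfsg.pCoreOf 2 CV ≤ Cfsg.pCoreOf 2 ⊤ :=
    pCoreOf_le_of_normal (C_le_normalizer _ _) le_top
  rw [pCoreOf_top] at h4
  exact h3.trans h4

theorem core_le (h : Hyp V S J) : Cfsg.pCore 2 H ≤ S := by
  have := h.syl.pCoreOf_le
  rwa [pCoreOf_top] at this

theorem inf_eq (h : Hyp V S J) : S ⊓ CV = Cfsg.pCore 2 H :=
  le_antisymm h.inf_le (le_inf h.core_le h.oc)

theorem comm_le (h : Hyp V S J) : ⁅CV, S⁆ ≤ Cfsg.pCore 2 H := by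
  refine le_trans (le_inf ?_ ?_) h.inf_le
  · exact H1.Coprime2.commutator_le_right h.cn
  · exact H1.Coprime2.commutator_le_left (C_le_normalizer _ _)

theorem comm_le' (h : Hyp V S J) : ⁅CV, J⁆ ≤ Cfsg.pCore 2 H :=
  (commutator_mono le_rfl h.js).trans h.comm_le

theorem pJ (h : Hyp V S J) : IsPGroup 2 J := h.syl.isPGroup.to_le h.js

theorem gen_le (h : Hyp V S J) : J ≤ closure {t | t ∈ J ∧ IsT V t} ⊔ Cfsg.pCore 2 H := by
  refine h.jgen.trans (sSup_le ?_)
  rintro A ⟨hAJ, hA, hval⟩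
  refine (gen_of_off h.act hA hval).trans (sup_le_sup ?_ ?_)
  · exact Subgroup.closure_mono (fun t ht => ⟨hAJ ht.1, ht.2⟩)
  · exact le_trans (inf_le_inf_right _ (hAJ.trans h.js)) h.inf_le

theorem S_le (h : Hyp V S J) : S ≤ normalizer (J : Set H) :=
  Subgroup.le_normalizer.trans (h.jn S h.js le_rfl)

theorem core_le_norm (h : Hyp V S J) : Cfsg.pCore 2 H ≤ normalizer (J : Set H) :=
  h.core_le.trans h.S_le

theorem C_le (h : Hyp V S J) : CV ≤ normalizer (J : Set H) :=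
  h.cn.trans (h.jn S h.js le_rfl)

theorem le_Rh_norm (h : Hyp V S J) {t : H} (ht : IsT V t) :
    J ≤ normalizer ((Rh V t : Subgroup H) : Set H) := by
  refine h.gen_le.trans (sup_le ?_ ?_)
  · rw [closure_le]
    intro s hs
    exact mem_normalizer_Rh h.act hs.2 ht
  · exact (h.oc.trans (centralizer_le_Rh t)).trans Subgroup.le_normalizer

theorem core_le_normK (h : Hyp V S J) {K : Subgroup H} (hK : PreComp J K) :
    Cfsg.pCore 2 H ≤ normalizer (K : Set H) :=
  hK.normalized_by h.pJ (C_le_normalizer _ _) h.core_le_norm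

theorem not_le_C (h : Hyp V S J) {K : Subgroup H} (hK : PreComp J K) : ¬ K ≤ CV := by
  intro hle
  apply hK.card_ne
  apply isPGroup_pCore.to_le
  calc K = ⁅K, J⁆ := hK.comm.symm
    _ ≤ ⁅CV, J⁆ := commutator_mono hle le_rfl
    _ ≤ _ := h.comm_le'

theorem inf_C_le (h : Hyp V S J) {K : Subgroup H} (hK : PreComp J K) :
    K ⊓ CV ≤ Cfsg.pCoreOf 2 K := by
  by_contra hcon
  have := hK.eq_of_normal inf_le_left
    (H1.Coprime2.le_normalizer_inf Subgroup.le_normalizer (C_le_normalizer _ _)) hcon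
  exact h.not_le_C hK (by rw [← this]; exact inf_le_right)

theorem exists_t (h : Hyp V S J) {K : Subgroup H} (hK : PreComp J K) :
    ∃ t ∈ J, IsT V t ∧ ⁅K, zpowers t⁆ = K ∧ K ⊔ CV = Rh V t ∧ ⁅V, K⁆ = ⁅V, Rh V t⁆ := by
  have h1 : ∃ t ∈ J, IsT V t ∧ ¬ ⁅K, zpowers t⁆ ≤ Cfsg.pCoreOf 2 K := by
    by_contra hcon
    push Not at hcon
    have h2 : J ≤ H13.Quad.actTriv K (Cfsg.pCoreOf 2 K) := by
      refine h.gen_le.trans (sup_le ?_ ?_)
      · rw [closure_le]
        intro t ht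
        have h3 := hcon t ht.1 ht.2
        have h4 : t ∈ normalizer (K : Set H) := hK.le_normalizer ht.1
        refine H13.Quad.mem_actTriv.mpr ⟨h4, normalizer_le_normalizer_pCoreOf K h4, ?_⟩
        intro v hv
        exact h3 (commutator_mem_commutator hv (mem_zpowers t))
      · have h4 := h.core_le_normK hK
        refine H13.Quad.le_actTriv h4 (h4.trans (normalizer_le_normalizer_pCoreOf K)) ?_
        apply le_pCoreOf (H1.Coprime2.commutator_le_left h4)
          (H1.Coprime2.le_normalizer_commutator_left _ _)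
        exact isPGroup_pCore.to_le (H1.Coprime2.commutator_le_right (C_le_normalizer _ _))
    apply hK.card_ne
    apply (isPGroup_pCoreOf K).to_le
    calc K = ⁅K, J⁆ := hK.comm.symm
      _ ≤ ⁅K, H13.Quad.actTriv K (Cfsg.pCoreOf 2 K)⁆ := commutator_mono le_rfl h2
      _ ≤ _ := H13.Quad.commutator_actTriv_le _ _
  obtain ⟨t, htJ, ht, hne⟩ := h1
  have htK : zpowers t ≤ normalizer (K : Set H) := by
    rw [zpowers_le]; exact hK.le_normalizer htJ
  have h2 : ⁅K, zpowers t⁆ = K := hK.eq_of_normal (H1.Coprime2.commutator_le_left htK)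
    (H1.Coprime2.le_normalizer_commutator_left _ _) hne
  have h3 : K ≤ Rh V t := by
    apply le_Rh h.act ht h2.ge
    have := hK.resOf_eq
    rw [resOf_eq_closure] at this
    exact this.ge
  have h4 : K ⊔ CV = Rh V t := by
    rcases Ord3.eq_or_eq_of_relIndex_prime (p := 3) Nat.prime_three
      (le_sup_right : CV ≤ K ⊔ CV) (sup_le h3 (centralizer_le_Rh t)) (relIndex_Rh h.act ht) with h4 | h4
    · exact absurd (by rw [← h4]; exact le_sup_left) (h.not_le_C hK)
    · exact h4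
  refine ⟨t, htJ, ht, h2, h4, ?_⟩
  apply le_antisymm (commutator_mono le_rfl h3)
  rw [← h4, commutator_le]
  intro v hv r hr
  obtain ⟨k, hk, c, hc, rfl⟩ := sup_normal_mem hr
  have e1 : ⁅v, c⁆ = 1 := by
    rw [commutatorElement_eq_one_iff_mul_comm]
    exact mem_centralizer_iff.mp hc v hv
  have e2 : ⁅v, k * c⁆ = ⁅v, k⁆ * (k * ⁅v, c⁆ * k⁻¹) := by
    simp only [commutatorElement_def]; group
  rw [e2, e1]
  simpa using commutator_mem_commutator hv hk

theorem inf_C_eq (h : Hyp V S J) {K : Subgroup H} (hK : PreComp J K) :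
    K ⊓ CV = Cfsg.pCoreOf 2 K := by
  obtain ⟨t, htJ, ht, h2, h4, h5⟩ := h.exists_t hK
  have h6 : (K ⊓ CV).relIndex K = 3 := by
    rw [Ord3.relIndex_inf_of_sup_eq (C_le_normalizer _ _) h4, relIndex_Rh h.act ht]
  have h7 := hK.idx
  have h8 := h.inf_C_le hK
  have h9 := H13.Replace.card_eq_mul_relIndex (inf_le_left : K ⊓ CV ≤ K)
  have h10 := H13.Replace.card_eq_mul_relIndex (pCoreOf_le (p := 2) K)
  rw [h6] at h9
  rw [h7] at h10
  apply eq_of_le_of_card_ge h8
  omega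

theorem card_comm (h : Hyp V S J) {K : Subgroup H} (hK : PreComp J K) :
    Nat.card ↥⁅V, K⁆ = 4 := by
  obtain ⟨t, htJ, ht, h2, h4, h5⟩ := h.exists_t hK
  rw [h5, card_comm_Rh h.act ht]

/-- `[R,J] Q = K Q`. -/
theorem sup_core_eq (h : Hyp V S J) {K : Subgroup H} (hK : PreComp J K) {t : H}
    (hKt : K ⊔ CV = Rh V t) :
    ⁅Rh V t, J⁆ ⊔ Cfsg.pCore 2 H = K ⊔ Cfsg.pCore 2 H := by
  apply le_antisymm
  · refine sup_le ?_ le_sup_right
    rw [← hKt, commutator_le]
    intro r hr j hj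
    obtain ⟨k, hk, c, hc, rfl⟩ := sup_normal_mem hr
    have e2 : ⁅k * c, j⁆ = k * ⁅c, j⁆ * k⁻¹ * ⁅k, j⁆ := by
      simp only [commutatorElement_def]; group
    rw [e2]
    apply mul_mem
    · apply mem_sup_right
      exact (inferInstance : (Cfsg.pCore 2 H).Normal).conj_mem _
        (h.comm_le' (commutator_mem_commutator hc hj)) k
    · apply mem_sup_left
      rw [← hK.comm]
      exact commutator_mem_commutator hk hj
  · refine sup_le_sup ?_ le_rfl
    calc K = ⁅K, J⁆ := hK.comm.symm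
      _ ≤ ⁅Rh V t, J⁆ := commutator_mono (by rw [← hKt]; exact le_sup_left) le_rfl

theorem subnormal (h : Hyp V S J) {K : Subgroup H} (hK : PreComp J K) : K.IsSubnormal := by
  obtain ⟨t, htJ, ht, h2, h4, h5⟩ := h.exists_t hK
  have e1 : (Fh V).IsSubnormal := (Fh_normal V).isSubnormal
  have hR : (Rh V t).IsSubnormal := IsSubnormal_of_normal_step (Rh_le_Fh h.act t) e1
    (Fh_le_normalizer_Rh t)
  have hKQ : (K ⊔ Cfsg.pCore 2 H).IsSubnormal := by
    refine IsSubnormal_of_normal_step ?_ hR ?_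
    · rw [← h4]; exact sup_le_sup le_rfl h.oc
    · rw [← h.sup_core_eq hK h4]
      exact H1.Coprime2.le_normalizer_sup (H1.Coprime2.le_normalizer_commutator_left _ _)
        (C_le_normalizer _ _)
  refine IsSubnormal_of_normal_step le_sup_left hKQ ?_
  exact sup_le Subgroup.le_normalizer (h.core_le_normK hK)

theorem core_of_le (h : Hyp V S J) {K : Subgroup H} (hK : PreComp J K) :
    Cfsg.pCoreOf 2 K ≤ Cfsg.pCore 2 H := pCoreOf_le_pCore_of_subnormal (h.subnormal hK)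

/-- two components with intersecting supports agree -/
theorem eq_of_Rh_eq (h : Hyp V S J) {K₁ K₂ : Subgroup H} (h1 : PreComp J K₁) (h2 : PreComp J K₂)
    {t₁ t₂ : H} (e1 : K₁ ⊔ CV = Rh V t₁) (e2 : K₂ ⊔ CV = Rh V t₂) (he : Rh V t₁ = Rh V t₂) :
    K₁ = K₂ := by
  have h3 := h.sup_core_eq h1 e1
  have h4 := h.sup_core_eq h2 e2
  rw [he, h4] at h3
  apply eq_of_sup_eq h1.resOf_eq h2.resOf_eq isPGroup_pCore (h.core_le_normK h1)
    (h.core_le_normK h2)
  · rw [sup_comm, h3]; exact le_sup_left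
  · rw [sup_comm, ← h3]; exact le_sup_left

theorem eq_of_inf_ne (h : Hyp V S J) {K₁ K₂ : Subgroup H} (h1 : PreComp J K₁) (h2 : PreComp J K₂)
    (hne : ⁅V, K₁⁆ ⊓ ⁅V, K₂⁆ ≠ ⊥) : K₁ = K₂ := by
  obtain ⟨t₁, -, ht₁, -, e1, f1⟩ := h.exists_t h1
  obtain ⟨t₂, -, ht₂, -, e2, f2⟩ := h.exists_t h2
  apply h.eq_of_Rh_eq h1 h2 e1 e2
  by_contra hcon
  apply hne
  rw [f1, f2]
  exact (of_Rh_ne h.act ht₁ ht₂ hcon).1

theorem le_centralizer_of_ne (h : Hyp V S J) {K₁ K₂ : Subgroup H} (h1 : PreComp J K₁)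
    (h2 : PreComp J K₂) (hne : K₁ ≠ K₂) : K₁ ≤ centralizer ((⁅V, K₂⁆ : Subgroup H) : Set H) := by
  obtain ⟨t₁, -, ht₁, -, e1, f1⟩ := h.exists_t h1
  obtain ⟨t₂, -, ht₂, -, e2, f2⟩ := h.exists_t h2
  have hcon : Rh V t₁ ≠ Rh V t₂ := fun he => hne (h.eq_of_Rh_eq h1 h2 e1 e2 he)
  rw [f2]
  refine le_trans ?_ (of_Rh_ne h.act ht₁ ht₂ hcon).2.1
  rw [← e1]; exact le_sup_left

theorem comm_le_core (h : Hyp V S J) {K₁ K₂ : Subgroup H} (h1 : PreComp J K₁)
    (h2 : PreComp J K₂) (hne : K₁ ≠ K₂) : ⁅K₁, K₂⁆ ≤ Cfsg.pCore 2 H := by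
  obtain ⟨t₁, htJ₁, ht₁, g1, e1, f1⟩ := h.exists_t h1
  obtain ⟨t₂, htJ₂, ht₂, g2, e2, f2⟩ := h.exists_t h2
  have hcon : Rh V t₂ ≠ Rh V t₁ := fun he => hne (h.eq_of_Rh_eq h2 h1 e2 e1 he).symm
  have hcon' : Rh V t₁ ≠ Rh V t₂ := fun he => hcon he.symm
  -- [K₁, t₂] ≤ Q
  have a1 : ⁅zpowers t₂, K₁⁆ ≤ Cfsg.pCore 2 H := by
    have b1 : t₂ ∈ H13.Quad.actTriv K₁ (Cfsg.pCoreOf 2 K₁) := by
      have h4 : t₂ ∈ normalizer (K₁ : Set H) := h1.le_normalizer htJ₂
      refine H13.Quad.mem_actTriv.mpr ⟨h4, normalizer_le_normalizer_pCoreOf K₁ h4, ?_⟩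
      intro v hv
      rw [← h.inf_C_eq h1]
      refine Subgroup.mem_inf.mpr ⟨?_, ?_⟩
      · have : ⁅K₁, J⁆ ≤ K₁ := h1.comm.le
        exact this (commutator_mem_commutator hv htJ₂)
      · apply (of_Rh_ne h.act ht₂ ht₁ hcon).2.2
        rw [← e1]; exact mem_sup_left hv
    rw [commutator_comm]
    refine le_trans ?_ (h.core_of_le h1)
    refine le_trans (commutator_mono le_rfl ?_) (H13.Quad.commutator_actTriv_le K₁ _)
    rw [zpowers_le]; exact b1
  -- [K₁,K₂] ≤ C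
  have a2 : ⁅K₁, K₂⁆ ≤ CV := by
    have b1 : ⁅⁅V, K₁⁆, K₂⁆ = ⊥ := by
      rw [commutator_comm, commutator_eq_bot_iff_le_centralizer]
      exact h.le_centralizer_of_ne h2 h1 (fun h => hne h.symm)
    have b2 : ⁅⁅V, K₂⁆, K₁⁆ = ⊥ := by
      rw [commutator_comm, commutator_eq_bot_iff_le_centralizer]
      exact h.le_centralizer_of_ne h1 h2 hne
    have b3 := H13.FF1.three_sub b1 b2
    rwa [commutator_eq_bot_iff_le_centralizer] at b3
  have a3 : ⁅⁅zpowers t₂, K₁⁆, K₂⁆ ≤ Cfsg.pCore 2 H := by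
    refine (commutator_mono a1 le_rfl).trans ?_
    exact H1.Coprime2.commutator_le_left (C_le_normalizer _ _)
  have a4 : ⁅⁅K₁, K₂⁆, zpowers t₂⁆ ≤ Cfsg.pCore 2 H := by
    refine (commutator_mono a2 ?_).trans h.comm_le'
    rw [zpowers_le]; exact htJ₂
  have a5 := H66.Commutators.three_subgroups K₂ (zpowers t₂) K₁ (Cfsg.pCore 2 H) a3 a4
  rw [g2, commutator_comm] at a5
  exact a5

theorem le_normalizer_of_ne (h : Hyp V S J) {K₁ K₂ : Subgroup H} (h1 : PreComp J K₁)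
    (h2 : PreComp J K₂) : K₂ ≤ normalizer (K₁ : Set H) := by
  by_cases hne : K₁ = K₂
  · rw [hne]; exact Subgroup.le_normalizer
  have h3 := h.comm_le_core h1 h2 hne
  have h4 : resOf 2 (Cfsg.pCore 2 H ⊔ K₁) = K₁ := by
    rw [resOf_eq_of_pMod le_sup_right (pMod_of_sup isPGroup_pCore (h.core_le_normK h1))]
    exact h1.resOf_eq
  have h5 : K₂ ≤ normalizer ((Cfsg.pCore 2 H ⊔ K₁ : Subgroup H) : Set H) := by
    apply H54.Basic.le_normalizer_of_conj
    intro k hk x hx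
    rw [sup_comm] at hx ⊢
    obtain ⟨y, hy, n, hn, rfl⟩ := sup_normal_mem hx
    have hcy : ⁅y, k⁆ ∈ Cfsg.pCore 2 H := h3 (commutator_mem_commutator hy hk)
    have hn' : k * n * k⁻¹ ∈ Cfsg.pCore 2 H :=
      (inferInstance : (Cfsg.pCore 2 H).Normal).conj_mem _ hn k
    have hcy' : (k * y * k⁻¹ * y⁻¹) ∈ Cfsg.pCore 2 H := by
      have := inv_mem hcy
      rw [commutatorElement_inv] at this
      exact this
    have e : k * (y * n) * k⁻¹ = (k * y * k⁻¹ * y⁻¹) * y * (k * n * k⁻¹) := by group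
    rw [e]
    exact mul_mem (mul_mem (mem_sup_right hcy') (mem_sup_left hy)) (mem_sup_right hn')
  have h6 := h5.trans (normalizer_le_normalizer_resOf (p := 2) _)
  rwa [h4] at h6

end Hyp

end H54.JTh
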