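import Cfsg.Agent.Lib.H54.JTh
import Cfsg.Agent.Lib.H13.Omega

set_option autoImplicit false

/-!
Existence of components; generation `H = ⟨K's⟩ N_H(J)`.
-/

namespace H54.JTh

open Subgroup H54.SemiAct H54.Transv H54.SolvAct H54.PreComp H52.PRes H52.PCore H52.Syl H52.Sub
open scoped commutatorElement

universe u

variable {H : Type u} [Group H]
variable {V S J : Subgroup H} [hVn : V.Normal] [Finite H]

omit [Finite H] in
theorem relIndex_map_mk {Q C R : Subgroup H} [Q.Normal] (hQ : Q ≤ C) :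
    (C.map (QuotientGroup.mk' Q)).relIndex (R.map (QuotientGroup.mk' Q)) = C.relIndex R := by
  rw [← relIndex_comap]
  congr 1
  rw [comap_map_eq, QuotientGroup.ker_mk', sup_eq_left.mpr hQ]

omit [Finite H] in
theorem card_map_mk {Q R : Subgroup H} [Q.Normal] :
    Nat.card (R.map (QuotientGroup.mk' Q)) = Q.relIndex R := by
  rw [← relIndex_bot_left, ← relIndex_comap]
  congr 1
  rw [MonoidHom.comap_bot, QuotientGroup.ker_mk']

omit [Finite H] in
theorem map_mk_le {Q A B : Subgroup H} [Q.Normal] (hQ : Q ≤ B) :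
    A.map (QuotientGroup.mk' Q) ≤ B.map (QuotientGroup.mk' Q) ↔ A ≤ B := by
  rw [map_le_iff_le_comap, comap_map_eq, QuotientGroup.ker_mk', sup_eq_left.mpr hQ]

namespace Hyp

local notation "CV" => centralizer (V : Set H)
local notation "Q2" => Cfsg.pCore 2 H

theorem odd_Rh (h : Hyp V S J) {t : H} (ht : IsT V t) : ((Q2).relIndex (Rh V t)).Coprime 2 := by
  have h1 : SylIn 2 (S ⊓ CV) CV := h.syl.inf_normal le_top (C_le_normalizer _ _)
  rw [h.inf_eq] at h1
  have h2 := h1.relIndex
  rw [← relIndex_mul_relIndex Q2 CV (Rh V t) h.oc (centralizer_le_Rh t), relIndex_Rh h.act ht]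
  refine Nat.Coprime.mul_left ?_ (by decide)
  exact ((Nat.Prime.coprime_iff_not_dvd Nat.prime_two).mpr h2).symm

theorem exK (h : Hyp V S J) {t : H} (ht : IsT V t) :
    ⁅Rh V t, J⁆ ≤ Q2 ∨ ∃ K, PreComp J K ∧ K ⊔ CV = Rh V t := by
  set π := QuotientGroup.mk' Q2 with hπ
  have hJR := h.le_Rh_norm ht
  have hodd : (Nat.card ((Rh V t).map π)).Coprime 2 := by
    rw [hπ, card_map_mk]; exact h.odd_Rh ht
  have hJ2 : IsPGroup 2 (J.map π) := h.pJ.map _
  have hCJ : ⁅(CV).map π, J.map π⁆ = ⊥ := by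
    rw [hπ, ← H66.Commutators.commutator_le_iff_map_eq_bot]; exact h.comm_le'
  have hJRn : J.map π ≤ normalizer (((Rh V t).map π : Subgroup (H ⧸ Q2)) : Set (H ⧸ Q2)) :=
    map_le_normalizer_map hJR
  by_cases hne : ⁅(Rh V t).map π, J.map π⁆ ≤ (CV).map π
  · left
    have hcop : (Nat.card (J.map π)).Coprime (Nat.card ((Rh V t).map π)) := by
      obtain ⟨n, hn⟩ := IsPGroup.iff_card.mp hJ2
      rw [hn]; exact Nat.Coprime.pow_left _ hodd.symm
    have h1 := H1.Coprime2.commutator_eq_bot_of (J.map π) ((Rh V t).map π) hJRn hcop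
      (Or.inl (H54.CopComm.isSolvable_of_isPGroup hJ2)) (by
        rw [eq_bot_iff, ← hCJ]; exact commutator_mono hne le_rfl)
    rw [hπ, ← H66.Commutators.commutator_le_iff_map_eq_bot] at h1
    exact h1
  right
  obtain ⟨m1, m2, m3⟩ := Ord3.main (R := (Rh V t).map π) (C := (CV).map π) (J := J.map π)
    (Subgroup.map_mono (centralizer_le_Rh t)) (by rw [hπ, relIndex_map_mk h.oc, relIndex_Rh h.act ht])
    hodd hJ2 hJRn (map_le_normalizer_map (C_le_normalizer _ _)) hCJ hne
  set L : Subgroup H := ⁅Rh V t, J⁆ ⊔ Q2 with hL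
  have hQL : Q2 ≤ L := le_sup_right
  have hLm : L.map π = ⁅(Rh V t).map π, J.map π⁆ := by
    rw [hL, Subgroup.map_sup, hπ, map_commutator]
    have : (Q2).map (QuotientGroup.mk' Q2) = ⊥ := by rw [Subgroup.map_eq_bot_iff]; simp
    rw [this, sup_bot_eq]
  have hidx : (Q2).relIndex L = 3 := by
    rw [← card_map_mk, ← hπ, hLm, m1]
  have hsyl : SylIn 2 Q2 L := sylIn_of_relIndex hQL isPGroup_pCore (by rw [hidx]; decide)
  set K := resOf 2 L with hK
  have hsup : Q2 ⊔ K = L := hsyl.sup_resOf_eq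
  have hKL : K ≤ L := resOf_le L
  have hidx2 : (K ⊓ Q2).relIndex K = 3 := by
    rw [Ord3.relIndex_inf_of_sup_eq (C_le_normalizer _ _) (by rw [sup_comm, hsup]), hidx]
  have hKQ : K ⊓ Q2 ≤ Cfsg.pCoreOf 2 K := by
    apply le_pCoreOf inf_le_left
      (H1.Coprime2.le_normalizer_inf Subgroup.le_normalizer (C_le_normalizer _ _))
    exact isPGroup_pCore.to_le inf_le_right
  have hcore : Cfsg.pCoreOf 2 K = K ⊓ Q2 := by
    rcases Ord3.eq_or_eq_of_relIndex_prime (p := 3) Nat.prime_three hKQ (pCoreOf_le K) hidx2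
      with h1 | h1
    · exact h1
    · exfalso
      have h2 : IsPGroup 2 K := by
        have := isPGroup_pCoreOf (p := 2) K
        rwa [h1] at this
      obtain ⟨n, hn⟩ := IsPGroup.iff_card.mp h2
      have h3 := H13.Replace.card_eq_mul_relIndex (inf_le_left : K ⊓ Q2 ≤ K)
      rw [hidx2, hn] at h3
      have h4 : 3 ∣ 2 ^ n := Dvd.intro_left _ h3.symm
      have := Nat.Prime.dvd_of_dvd_pow Nat.prime_three h4
      omega
  have hJL : J ≤ normalizer (L : Set H) :=
    H1.Coprime2.le_normalizer_sup (H1.Coprime2.le_normalizer_commutator_right _ _)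
      (C_le_normalizer _ _)
  have hJK : J ≤ normalizer (K : Set H) := hJL.trans (normalizer_le_normalizer_resOf (p := 2) L)
  have hresK : resOf 2 K = K := resOf_resOf L
  have hQK : Q2 ≤ normalizer (K : Set H) :=
    (hQL.trans Subgroup.le_normalizer).trans (normalizer_le_normalizer_resOf (p := 2) L)
  have hKJ : ⁅K, J⁆ ≤ K := H1.Coprime2.commutator_le_left hJK
  -- [K,J] Q = L
  have hKJL : L ≤ Q2 ⊔ ⁅K, J⁆ := by
    have e0 : (Q2).map π = ⊥ := by rw [Subgroup.map_eq_bot_iff, hπ]; simp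
    have e1 : K.map π = L.map π := by
      rw [← hsup, Subgroup.map_sup, e0, bot_sup_eq]
    have e2 : (Q2 ⊔ ⁅K, J⁆).map π = L.map π := by
      rw [Subgroup.map_sup, map_commutator, e1, e0, bot_sup_eq, hLm, m3]
    rw [← map_mk_le (Q := Q2) le_sup_left, ← hπ, e2]
  have hcomm : ⁅K, J⁆ = K := by
    apply le_antisymm hKJ
    have h1 : PMod 2 (Q2 ⊔ ⁅K, J⁆) ⁅K, J⁆ := pMod_of_sup isPGroup_pCore
      (H1.Coprime2.le_normalizer_commutator hQK h.core_le_norm)
    have h2 := resOf_le_of_pMod (h1.mono (hKL.trans hKJL) le_rfl)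
    rwa [hresK] at h2
  refine ⟨K, ⟨resOf_eq_self_iff.mp hresK, hcomm, ?_⟩, ?_⟩
  · rw [hcore, hidx2]
  · have h1 : L ⊔ CV = Rh V t := by
      apply le_antisymm
      · exact sup_le (sup_le (H1.Coprime2.commutator_le_left hJR) (h.oc.trans (centralizer_le_Rh t)))
          (centralizer_le_Rh t)
      · rw [← map_mk_le (Q := Q2) (hQL.trans le_sup_left), ← hπ, Subgroup.map_sup, hLm, m2]
    rw [← h1, ← hsup]
    apply le_antisymm
    · exact sup_le_sup le_sup_right le_rfl
    · exact sup_le (sup_le (h.oc.trans le_sup_right) le_sup_left) le_sup_right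

theorem Rh_le (h : Hyp V S J) {t : H} (ht : IsT V t) :
    Rh V t ≤ (⨆ K ∈ {K : Subgroup H | PreComp J K}, K) ⊔ normalizer (J : Set H) := by
  rcases h.exK ht with h1 | ⟨K, hK, hKC⟩
  · refine le_trans ?_ le_sup_right
    have h2 : Rh V t ≤ normalizer ((J ⊔ Q2 : Subgroup H) : Set H) := by
      apply H54.Basic.le_normalizer_of_conj
      intro r hr x hx
      obtain ⟨y, hy, n, hn, rfl⟩ := sup_normal_mem hx
      have e : r * (y * n) * r⁻¹ = ⁅r, y⁆ * y * (r * n * r⁻¹) := by
        simp only [commutatorElement_def]; group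
      rw [e]
      refine mul_mem (mul_mem (mem_sup_right (h1 (commutator_mem_commutator hr hy)))
        (mem_sup_left hy)) (mem_sup_right ?_)
      exact (inferInstance : (Q2).Normal).conj_mem _ hn r
    exact h2.trans (h.jn _ le_sup_left (sup_le h.js h.core_le))
  · rw [← hKC]
    refine sup_le_sup ?_ h.C_le
    exact le_biSup (fun K => K) hK

/-- `H = ⟨K's⟩ N_H(J)`. -/
theorem gen_top (h : Hyp V S J) :
    (⨆ K ∈ {K : Subgroup H | PreComp J K}, K) ⊔ normalizer (J : Set H) = ⊤ := by
  set M := (⨆ K ∈ {K : Subgroup H | PreComp J K}, K) ⊔ normalizer (J : Set H) with hM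
  set D : Subgroup H := (⨆ t ∈ {t | IsT V t}, Rh V t) ⊔ CV with hD
  have hDM : D ≤ M := by
    refine sup_le (iSup₂_le fun t ht => h.Rh_le ht) (h.C_le.trans le_sup_right)
  have hDn : D.Normal := by
    rw [← normalizer_eq_top_iff, eq_top_iff]
    intro g _
    rw [← H54.Basic.map_conj_eq_iff]
    have h1 : ∀ g : H, D.map (MulAut.conj g).toMonoidHom ≤ D := by
      intro g
      rw [hD, Subgroup.map_sup, Subgroup.map_iSup]
      refine sup_le (iSup_le fun t => ?_) ?_
      · rw [Subgroup.map_iSup]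
        refine iSup_le fun ht => ?_
        rw [map_conj_Rh h.act]
        refine le_trans ?_ le_sup_left
        exact le_biSup (fun t => Rh V t) (i := g * t * g⁻¹) (ht.conj g)
      · refine le_trans ?_ le_sup_right
        rw [(H54.Basic.map_conj_eq_iff g CV).mpr (C_le_normalizer CV ⊤ trivial)]
    apply le_antisymm (h1 g)
    intro x hx
    rw [H54.Basic.mem_map_conj]
    apply h1 g⁻¹
    rw [H54.Basic.mem_map_conj]
    simpa [mul_assoc] using hx
  set E : Subgroup H := closure {t | IsT V t} ⊔ CV with hE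
  have hEn : E.Normal := by
    rw [← normalizer_eq_top_iff, eq_top_iff]
    intro g _
    rw [← H54.Basic.map_conj_eq_iff]
    have h1 : ∀ g : H, E.map (MulAut.conj g).toMonoidHom ≤ E := by
      intro g
      rw [hE, Subgroup.map_sup, MonoidHom.map_closure]
      refine sup_le ?_ ?_
      · refine le_trans ?_ le_sup_left
        rw [closure_le]
        rintro _ ⟨t, ht, rfl⟩
        exact subset_closure (ht.conj g)
      · refine le_trans ?_ le_sup_right
        rw [(H54.Basic.map_conj_eq_iff g CV).mpr (C_le_normalizer CV ⊤ trivial)]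
    apply le_antisymm (h1 g)
    intro x hx
    rw [H54.Basic.mem_map_conj]
    apply h1 g⁻¹
    rw [H54.Basic.mem_map_conj]
    simpa [mul_assoc] using hx
  have hJE : J ≤ E := by
    refine h.gen_le.trans (sup_le_sup ?_ h.oc)
    exact Subgroup.closure_mono (fun t ht => ht.2)
  -- E / D is a 2-group
  have hED : PMod 2 E D := by
    have : D.Normal := hDn
    rw [pMod_iff_quotient]
    have h1 : Cfsg.IsElementaryAbelian 2 (E.map (QuotientGroup.mk' D)) := by
      have h2 : E.map (QuotientGroup.mk' D) =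
          closure ((QuotientGroup.mk' D) '' {t | IsT V t}) := by
        rw [hE, Subgroup.map_sup, MonoidHom.map_closure]
        have : (CV).map (QuotientGroup.mk' D) = ⊥ := by
          rw [Subgroup.map_eq_bot_iff, QuotientGroup.ker_mk']
          exact le_sup_right
        rw [this, sup_bot_eq]
      rw [h2]
      apply H13.ElemAb.closure
      · rintro _ ⟨s, hs, rfl⟩ _ ⟨t, ht, rfl⟩
        rw [← commutatorElement_eq_one_iff_mul_comm, ← map_commutatorElement]
        refine (QuotientGroup.eq_one_iff _).mpr ?_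
        have h3 := comm_tv_mem_R h.act.ff (rho_mem s) (isTv_iff'.mpr hs) (rho_mem t)
          (isTv_iff'.mpr ht)
        rw [← map_commutatorElement] at h3
        have h4 : ⁅s, t⁆ ∈ Rh V t := h3
        refine (mem_sup_left ?_ : ⁅s, t⁆ ∈ D)
        exact (le_biSup (fun t => Rh V t) (i := t) ht) h4
      · rintro _ ⟨s, hs, rfl⟩
        rw [← map_pow]
        refine (QuotientGroup.eq_one_iff _).mpr ?_
        rw [pow_two]
        exact mem_sup_right hs.1
    exact H13.ElemAb.isPGroup h1
  have hSE : SylIn 2 (S ⊓ E) E := h.syl.inf_normal le_top (C_le_normalizer _ _)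
  have hE2 : E ≤ (S ⊓ E) ⊔ D := hSE.le_sup_of_pMod hED
  have hEM : E ≤ M := by
    refine hE2.trans (sup_le ?_ hDM)
    exact inf_le_left.trans (h.S_le.trans le_sup_right)
  rw [eq_top_iff]
  intro x _
  obtain ⟨e, he, n, hn, rfl⟩ := hSE.frattini (L := ⊤) le_top (C_le_normalizer _ _) (l := x) trivial
  refine mul_mem (hEM he) (mem_sup_right ?_)
  exact h.jn _ (le_inf h.js hJE) inf_le_left (Subgroup.mem_inf.mp hn).2

end Hyp

end H54.JTh
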