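import Cfsg.Agent.Lib.H54.JTh2
import Cfsg.Agent.Lib.H54.WOf

set_option autoImplicit false
set_option linter.dupNamespace false
set_option linter.unusedSectionVars false

/-!
Construction of the hypothesis `Hyp`; ambient form.
-/

namespace H54.JTh

open Subgroup H54.SemiAct H54.Transv H54.SolvAct H54.PreComp H52.PRes H52.PCore H52.Syl H52.Sub
open H54.MaxEA H54.WOf
open scoped commutatorElement

universe u

section typ

variable {H : Type u} [Group H] [Finite H]

local notation "Q2" => Cfsg.pCore 2 H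

theorem hyp_mk (hsolv : Group.IsSolvable H) {S Z : Subgroup H} (hS : SylIn 2 S ⊤)
    (hZe : Cfsg.IsElementaryAbelian 2 Z) (hZQ : Z ≤ Q2) (hSZ : S ≤ centralizer (Z : Set H))
    (hcn : centralizer (Z : Set H) ≤ normalizer (S : Set H)) :
    Hyp (normalClosure (Z : Set H)) S (Cfsg.thompsonSubgroupOf 2 S) := by
  have hQS : Q2 ≤ S := by
    have := hS.pCoreOf_le
    rwa [pCoreOf_top] at this
  have hZC : Z ≤ centralizer (Q2 : Set H) := by
    rw [le_centralizer_iff]; exact hQS.trans hSZ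
  have hZΩ : Z ≤ Cfsg.omegaCenterOf Q2 := by
    intro z hz
    rw [mem_omega]
    exact ⟨hZQ hz, hZC hz, (H13.ElemAb.iff_mem.mp hZe).2 z hz⟩
  have hΩn : (Cfsg.omegaCenterOf Q2).Normal := by
    rw [← normalizer_eq_top_iff, eq_top_iff]
    refine le_trans ?_ (normalizer_le_normalizer_omega _)
    rw [normalizer_eq_top]
  have hVΩ : normalClosure (Z : Set H) ≤ Cfsg.omegaCenterOf Q2 := normalClosure_le_normal hZΩ
  have hVe : Cfsg.IsElementaryAbelian 2 (normalClosure (Z : Set H)) :=
    H13.ElemAb.of_le (isEA_omega _) hVΩ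
  have hZV : Z ≤ normalClosure (Z : Set H) := le_normalClosure
  set V := normalClosure (Z : Set H) with hV
  have hVQ : V ≤ Q2 := hVΩ.trans (omega_le _)
  refine ⟨⟨hsolv, hVe, ?_⟩, hS, ?_, ?_, H13.SylowN.thompsonOf_le S, ?_, ?_⟩
  · rw [pCore_quotient_eq_bot_iff]
    intro D hDn hD
    have hDN : (⊤ : Subgroup H) ≤ normalizer (D : Set H) := by rw [normalizer_eq_top]
    have hSD : SylIn 2 (S ⊓ D) D := hS.inf_normal le_top hDN
    have hD2 := hSD.le_sup_of_pMod hD
    have hfin : V ≤ centralizer ((S ⊓ D : Subgroup H) : Set H) := by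
      rw [hV, normalClosure, closure_le]
      intro x hx
      rw [Group.mem_conjugatesOfSet_iff] at hx
      obtain ⟨z, hz, hzx⟩ := hx
      rw [isConj_iff] at hzx
      obtain ⟨h, rfl⟩ := hzx
      obtain ⟨d, hd, n, hn, rfl⟩ := hSD.frattini (L := ⊤) le_top hDN (l := h) trivial
      have hd' := hD2 hd
      rw [sup_comm] at hd'
      obtain ⟨c, hc, s, hs, rfl⟩ := Subgroup.mem_sup_of_normal_left.mp hd'
      have hn' : s * n ∈ normalizer ((S ⊓ D : Subgroup H) : Set H) :=
        mul_mem (Subgroup.le_normalizer hs) (Subgroup.mem_inf.mp hn).2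
      have hz' : (s * n) * z * (s * n)⁻¹ ∈ V :=
        (normalClosure_normal).conj_mem z (hZV hz) _
      have e : c * s * n * z * (c * s * n)⁻¹ = (s * n) * z * (s * n)⁻¹ := by
        have h1 := mem_centralizer_iff.mp hc _ hz'
        calc c * s * n * z * (c * s * n)⁻¹ = c * ((s * n) * z * (s * n)⁻¹) * c⁻¹ := by group
          _ = ((s * n) * z * (s * n)⁻¹) * c * c⁻¹ := by rw [h1]
          _ = _ := by group
      rw [SetLike.mem_coe, e, mem_centralizer_iff]
      intro y hy
      have hy' := H54.Basic.inv_mul_mem_of_mem_normalizer hn' hy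
      have h2 := mem_centralizer_iff.mp (hSZ (Subgroup.mem_inf.mp hy').1) z hz
      calc y * (s * n * z * (s * n)⁻¹) = (s * n) * (((s * n)⁻¹ * y * (s * n)) * z) * (s * n)⁻¹ := by
            group
        _ = (s * n) * (z * ((s * n)⁻¹ * y * (s * n))) * (s * n)⁻¹ := by rw [h2]
        _ = _ := by group
    refine hD2.trans (sup_le ?_ le_rfl)
    rw [le_centralizer_iff]; exact hfin
  · exact (centralizer_le hZV).trans hcn
  · rw [le_centralizer_iff]
    exact hVΩ.trans (omega_le_centralizer _)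
  · intro S' h1 h2
    rw [← MaxEA.thompsonOf_eq_of_le h2 h1]
    exact H13.SylowN.normalizer_le_normalizer_thompsonOf S'
  · conv_lhs => rw [MaxEA.thompsonOf_eq]
    refine sSup_le fun A hA => le_sSup ?_
    exact ⟨le_thompsonOf hA, hA.2.1, fun B hB => val_le hA hVe (hVQ.trans hQS) B hB⟩

end typ

variable {G : Type u} [Group G]

/-- `⟨Z^L⟩` in ambient form -/
def VZ (L Z : Subgroup G) : Subgroup G :=
  (normalClosure ((Z.subgroupOf L : Subgroup L) : Set L)).map L.subtype

theorem VZ_le (L Z : Subgroup G) : VZ L Z ≤ L := map_subtype_le _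

theorem subgroupOf_VZ (L Z : Subgroup G) :
    (VZ L Z).subgroupOf L = normalClosure ((Z.subgroupOf L : Subgroup L) : Set L) :=
  comap_map_eq_self_of_injective L.subtype_injective _

theorem VZ_le_of {L Z X : Subgroup G} (h : Z ≤ X) (hL : L ≤ normalizer (X : Set G)) :
    VZ L Z ≤ X := by
  have h1 : normalClosure ((Z.subgroupOf L : Subgroup L) : Set L) ≤ X.subgroupOf L := by
    have hn : (X.subgroupOf L).Normal := by
      constructor
      intro x hx g
      rw [mem_subgroupOf] at hx ⊢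
      push_cast
      exact H54.Basic.mul_inv_mem_of_mem_normalizer (hL g.2) hx
    apply normalClosure_le_normal
    intro z hz
    exact h hz
  refine (Subgroup.map_mono h1).trans ?_
  rintro _ ⟨x, hx, rfl⟩
  exact hx

theorem le_VZ {L Z : Subgroup G} (h : Z ≤ L) : Z ≤ VZ L Z := by
  conv_lhs => rw [← map_subgroupOf_eq_of_le h]
  exact Subgroup.map_mono le_normalClosure

theorem le_normalizer_VZ (L Z : Subgroup G) : L ≤ normalizer ((VZ L Z : Subgroup G) : Set G) := by
  rw [← normal_subOf_iff (VZ_le L Z), subgroupOf_VZ]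
  infer_instance

/-- ambient form of `Hyp` -/
structure LH (L T V J : Subgroup G) : Prop where
  VL : V ≤ L
  TL : T ≤ L
  JL : J ≤ L
  hn : (V.subgroupOf L).Normal
  hyp : @Hyp L _ (V.subgroupOf L) (T.subgroupOf L) (J.subgroupOf L) hn

variable [Finite G]

theorem sylIn_subgroupOf {T L : Subgroup G} (h : SylIn 2 T L) : SylIn 2 (T.subgroupOf L) ⊤ := by
  apply sylIn_of_relIndex le_top h.isPGroup.comap_subtype
  rw [relIndex_top_right]
  exact h.relIndex

theorem lh_mk {L T Z : Subgroup G} (hsolv : Group.IsSolvable L) (hT : SylIn 2 T L)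
    (hZe : Cfsg.IsElementaryAbelian 2 Z) (hZQ : Z ≤ Cfsg.pCoreOf 2 L)
    (hTZ : T ≤ centralizer (Z : Set G)) (hcn : L ⊓ centralizer (Z : Set G) ≤ normalizer (T : Set G)) :
    LH L T (VZ L Z) (Cfsg.thompsonSubgroupOf 2 T) := by
  have hJT := H13.SylowN.thompsonOf_le (p := 2) T
  have hn : ((VZ L Z).subgroupOf L).Normal := by rw [subgroupOf_VZ]; infer_instance
  have hZL : Z ≤ L := hZQ.trans (pCoreOf_le L)
  refine ⟨VZ_le L Z, hT.le, hJT.trans hT.le, hn, ?_⟩
  have hJ : (Cfsg.thompsonSubgroupOf 2 T).subgroupOf L =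
      Cfsg.thompsonSubgroupOf 2 (T.subgroupOf L) := by
    apply Subgroup.map_injective L.subtype_injective
    rw [map_subgroupOf_eq_of_le (hJT.trans hT.le),
      H13.Transport.map_thompsonOf (T.subgroupOf L) L.subtype (by
        rw [(L.subtype.ker_eq_bot_iff).mpr L.subtype_injective, inf_bot_eq]),
      map_subgroupOf_eq_of_le hT.le]
  rw [hJ]
  have h1 := hyp_mk (H := L) hsolv (S := T.subgroupOf L) (Z := Z.subgroupOf L)
    (sylIn_subgroupOf hT) (H13.ElemAb.subgroupOf hZe L) (by
      intro z hz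
      rw [← pCoreOf_subgroupOf]
      exact hZQ hz) (by
      intro t ht
      rw [mem_centralizer_iff]
      intro z hz
      apply Subtype.ext
      exact mem_centralizer_iff.mp (hTZ ht) z hz) (by
      intro x hx
      have hx' : (x : G) ∈ L ⊓ centralizer (Z : Set G) := by
        refine Subgroup.mem_inf.mpr ⟨x.2, ?_⟩
        rw [mem_centralizer_iff]
        intro z hz
        exact congrArg Subtype.val (mem_centralizer_iff.mp hx ⟨z, hZL hz⟩ hz)
      have h2 := hcn hx'
      apply H54.Basic.mem_normalizer_of_conj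
      · intro y hy
        exact H54.Basic.mul_inv_mem_of_mem_normalizer h2 hy
      · intro y hy
        exact H54.Basic.inv_mul_mem_of_mem_normalizer h2 hy)
  convert h1 using 1
  exact subgroupOf_VZ L Z

namespace LH

variable {L T V J : Subgroup G}

theorem pre_iff (h : LH L T V J) {K : Subgroup G} (hK : K ≤ L) :
    PreComp (J.subgroupOf L) (K.subgroupOf L) ↔ PreComp J K := by
  rw [← PreComp.map_iff L.subtype_injective, map_subgroupOf_eq_of_le hK,
    map_subgroupOf_eq_of_le h.JL]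

theorem comm_map {A B : Subgroup G} (hA : A ≤ L) (hB : B ≤ L) :
    (⁅A.subgroupOf L, B.subgroupOf L⁆).map L.subtype = ⁅A, B⁆ := by
  rw [map_commutator, map_subgroupOf_eq_of_le hA, map_subgroupOf_eq_of_le hB]

theorem centralizer_map {A : Subgroup G} (hA : A ≤ L) :
    (centralizer ((A.subgroupOf L : Subgroup L) : Set L)).map L.subtype =
      L ⊓ centralizer (A : Set G) := by
  ext x
  constructor
  · rintro ⟨y, hy, rfl⟩
    refine Subgroup.mem_inf.mpr ⟨y.2, ?_⟩
    rw [mem_centralizer_iff]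
    intro a ha
    exact congrArg Subtype.val (mem_centralizer_iff.mp hy ⟨a, hA ha⟩ ha)
  · intro hx
    obtain ⟨hxL, hxc⟩ := Subgroup.mem_inf.mp hx
    refine ⟨⟨x, hxL⟩, ?_, rfl⟩
    rw [SetLike.mem_coe, mem_centralizer_iff]
    intro a ha
    apply Subtype.ext
    exact mem_centralizer_iff.mp hxc a ha

theorem subnormal (h : LH L T V J) {K : Subgroup G} (hKL : K ≤ L) (hK : PreComp J K) :
    (K.subgroupOf L).IsSubnormal := by
  have := h.hn
  exact h.hyp.subnormal ((h.pre_iff hKL).mpr hK)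

theorem card_comm (h : LH L T V J) {K : Subgroup G} (hKL : K ≤ L) (hK : PreComp J K) :
    Nat.card ↥⁅V, K⁆ = 4 := by
  have := h.hn
  have h1 := h.hyp.card_comm ((h.pre_iff hKL).mpr hK)
  rwa [← Subgroup.card_map_of_injective L.subtype_injective, comm_map h.VL hKL] at h1

theorem eq_of_inf_ne (h : LH L T V J) {K₁ K₂ : Subgroup G} (hK₁ : K₁ ≤ L) (hK₂ : K₂ ≤ L)
    (h1 : PreComp J K₁) (h2 : PreComp J K₂) (hne : ⁅V, K₁⁆ ⊓ ⁅V, K₂⁆ ≠ ⊥) : K₁ = K₂ := by
  have := h.hn
  have h3 := h.hyp.eq_of_inf_ne ((h.pre_iff hK₁).mpr h1) ((h.pre_iff hK₂).mpr h2) (by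
    intro hcon
    apply hne
    have := congrArg (Subgroup.map L.subtype) hcon
    rwa [Subgroup.map_inf _ _ _ L.subtype_injective, comm_map h.VL hK₁, comm_map h.VL hK₂,
      Subgroup.map_bot] at this)
  have h4 := congrArg (Subgroup.map L.subtype) h3
  rwa [map_subgroupOf_eq_of_le hK₁, map_subgroupOf_eq_of_le hK₂] at h4

theorem le_normalizer (h : LH L T V J) {K₁ K₂ : Subgroup G} (hK₁ : K₁ ≤ L) (hK₂ : K₂ ≤ L)
    (h1 : PreComp J K₁) (h2 : PreComp J K₂) : K₂ ≤ normalizer (K₁ : Set G) := by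
  have := h.hn
  have h3 := h.hyp.le_normalizer_of_ne ((h.pre_iff hK₁).mpr h1) ((h.pre_iff hK₂).mpr h2)
  have h4 := map_le_normalizer_map (f := L.subtype) h3
  rwa [map_subgroupOf_eq_of_le hK₁, map_subgroupOf_eq_of_le hK₂] at h4

theorem le_centralizer_of_ne (h : LH L T V J) {K₁ K₂ : Subgroup G} (hK₁ : K₁ ≤ L) (hK₂ : K₂ ≤ L)
    (h1 : PreComp J K₁) (h2 : PreComp J K₂) (hne : K₁ ≠ K₂) :
    K₁ ≤ centralizer ((⁅V, K₂⁆ : Subgroup G) : Set G) := by
  have := h.hn
  have h3 := h.hyp.le_centralizer_of_ne ((h.pre_iff hK₁).mpr h1) ((h.pre_iff hK₂).mpr h2) (by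
    intro hcon
    apply hne
    have h4 := congrArg (Subgroup.map L.subtype) hcon
    rwa [map_subgroupOf_eq_of_le hK₁, map_subgroupOf_eq_of_le hK₂] at h4)
  rw [← commutator_eq_bot_iff_le_centralizer] at h3 ⊢
  have h4 := congrArg (Subgroup.map L.subtype) h3
  rwa [map_commutator, comm_map h.VL hK₂, map_subgroupOf_eq_of_le hK₁, Subgroup.map_bot] at h4

theorem core_le_norm (h : LH L T V J) {K : Subgroup G} (hKL : K ≤ L) (hK : PreComp J K) :
    Cfsg.pCoreOf 2 L ≤ normalizer (K : Set G) := by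
  have := h.hn
  have h3 := h.hyp.core_le_normK ((h.pre_iff hKL).mpr hK)
  have h4 := map_le_normalizer_map (f := L.subtype) h3
  rwa [map_subgroupOf_eq_of_le hKL] at h4

theorem core_le_core (h : LH L T V J) {K : Subgroup G} (hKL : K ≤ L) (hK : PreComp J K) :
    Cfsg.pCoreOf 2 K ≤ Cfsg.pCoreOf 2 L := by
  have := h.hn
  have h3 := h.hyp.core_of_le ((h.pre_iff hKL).mpr hK)
  have h4 := Subgroup.map_mono (f := L.subtype) h3
  rwa [← pCoreOf_map L.subtype_injective, map_subgroupOf_eq_of_le hKL] at h4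

theorem inf_C (h : LH L T V J) {K : Subgroup G} (hKL : K ≤ L) (hK : PreComp J K) :
    K ⊓ centralizer (V : Set G) = Cfsg.pCoreOf 2 K := by
  have := h.hn
  have h3 := h.hyp.inf_C_eq ((h.pre_iff hKL).mpr hK)
  have h4 := congrArg (Subgroup.map L.subtype) h3
  rw [← pCoreOf_map L.subtype_injective, map_subgroupOf_eq_of_le hKL,
    Subgroup.map_inf _ _ _ L.subtype_injective, map_subgroupOf_eq_of_le hKL,
    centralizer_map h.VL, ← inf_assoc, inf_eq_left.mpr hKL] at h4
  exact h4

theorem T_le_norm (h : LH L T V J) : T ≤ normalizer (J : Set G) := by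
  have := h.hn
  have h4 := map_le_normalizer_map (f := L.subtype) h.hyp.S_le
  rwa [map_subgroupOf_eq_of_le h.TL, map_subgroupOf_eq_of_le h.JL] at h4

theorem jT (h : LH L T V J) : J ≤ T := by
  have := h.hn
  have h4 := Subgroup.map_mono (f := L.subtype) h.hyp.js
  rwa [map_subgroupOf_eq_of_le h.TL, map_subgroupOf_eq_of_le h.JL] at h4

theorem V_centralizes_core (h : LH L T V J) : Cfsg.pCoreOf 2 L ≤ centralizer (V : Set G) := by
  have := h.hn
  have h4 := Subgroup.map_mono (f := L.subtype) h.hyp.oc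
  rw [centralizer_map h.VL] at h4
  exact h4.trans inf_le_right

theorem gen_top (h : LH L T V J) :
    L ≤ (⨆ K ∈ {K : Subgroup G | PreComp J K ∧ K ≤ L}, K) ⊔ (L ⊓ normalizer (J : Set G)) := by
  have := h.hn
  have h3 := h.hyp.gen_top
  have h4 := congrArg (Subgroup.map L.subtype) h3
  rw [← MonoidHom.range_eq_map, range_subtype, Subgroup.map_sup, Subgroup.map_iSup] at h4
  conv_lhs => rw [← h4]
  refine sup_le_sup ?_ ?_
  · refine iSup_le fun K => ?_
    rw [Subgroup.map_iSup]
    refine iSup_le fun hK => ?_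
    have h5 : PreComp J (K.map L.subtype) ∧ K.map L.subtype ≤ L := by
      refine ⟨?_, map_subtype_le _⟩
      have h6 := (PreComp.map_iff L.subtype_injective).mpr hK
      rwa [map_subgroupOf_eq_of_le h.JL] at h6
    exact le_biSup (fun K => K) (i := K.map L.subtype) h5
  · refine le_inf (map_subtype_le _) ?_
    have h6 := map_le_normalizer_map (f := L.subtype) (A := normalizer ((J.subgroupOf L : Subgroup L) : Set L))
      (B := J.subgroupOf L) le_rfl
    rwa [map_subgroupOf_eq_of_le h.JL] at h6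

/-- existence of components -/
theorem exists_comp (h : LH L T V J) (hJ : ¬ J ≤ Cfsg.pCoreOf 2 L) :
    ∃ K, PreComp J K ∧ K ≤ L := by
  by_contra hcon
  push Not at hcon
  apply hJ
  have h1 := h.gen_top
  have h2 : L ≤ normalizer (J : Set G) := by
    refine h1.trans (sup_le ?_ inf_le_right)
    refine iSup₂_le fun K hK => ?_
    exact absurd hK.2 (hcon K hK.1)
  have h3 := h.hn
  refine le_pCoreOf h.JL h2 ?_
  have := h.hyp.pJ.map L.subtype
  rwa [map_subgroupOf_eq_of_le h.JL] at this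

end LH

end H54.JTh
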