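import Cfsg.Agent.Lib.H54.PreComp
import Cfsg.Agent.Lib.H54.MaxEA
import Cfsg.Agent.Lib.H13.Quad

set_option autoImplicit false
set_option linter.dupNamespace false
set_option linter.unusedSectionVars false

/-!
`K = O^2(K)` with `|K : O_2(K)| = 3`: actions of `K` on 2-groups centralized by `O_2(K)`, and
actions of 2-groups on `K`.
-/

namespace H54.KP

open Subgroup H54.PreComp H52.PRes H52.PCore H52.Syl
open scoped commutatorElement

universe u

variable {G : Type u} [Group G]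

/-- `K = O^2(K)`, `|K:O_2(K)| = 3` -/
structure KP (K : Subgroup G) : Prop where
  gen : resOf 2 K = K
  idx : (Cfsg.pCoreOf 2 K).relIndex K = 3

theorem _root_.H54.PreComp.PreComp.toKP {J K : Subgroup G} (h : PreComp J K) : KP K :=
  ⟨h.resOf_eq, h.idx⟩

local notation "O₂" => Cfsg.pCoreOf 2

variable {K : Subgroup G}

theorem zmod3_key : ∀ x y : Multiplicative (ZMod 3), x ≠ 1 → y ≠ 1 → x * y = 1 ∨ x * y⁻¹ = 1 := by
  decide
theorem zmod3_key2 : ∀ x y : Multiplicative (ZMod 3), x * y = y * x := by decide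
theorem zmod3_key3 : ∀ x : Multiplicative (ZMod 3), x ^ 3 = 1 := by decide

theorem abelian_three {Q : Type u} [Group Q] (h : Nat.card Q = 3) :
    (∀ a b : Q, a ≠ 1 → b ≠ 1 → a * b = 1 ∨ a * b⁻¹ = 1) ∧ (∀ a b : Q, a * b = b * a) ∧
      ∀ a : Q, a ^ 3 = 1 := by
  have : Fact (Nat.Prime 3) := ⟨Nat.prime_three⟩
  have hc : IsCyclic Q := isCyclic_of_prime_card h
  have hfin : Finite Q := Nat.finite_of_card_ne_zero (by omega)
  obtain ⟨e⟩ : Nonempty (Q ≃* Multiplicative (ZMod 3)) := by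
    refine ⟨mulEquivOfCyclicCardEq ?_⟩
    rw [h]; simp
  refine ⟨?_, ?_, ?_⟩
  · intro a b ha hb
    rcases zmod3_key (e a) (e b) (by simpa using ha) (by simpa using hb) with h1 | h1
    · left; apply e.injective; rw [map_mul, h1, map_one]
    · right; apply e.injective; rw [map_mul, map_inv, h1, map_one]
  · intro a b
    apply e.injective
    rw [map_mul, map_mul, zmod3_key2]
  · intro a
    apply e.injective
    rw [map_pow, zmod3_key3, map_one]

namespace KP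

section noFin

theorem nK (K : Subgroup G) : K ≤ normalizer ((O₂ K : Subgroup G) : Set G) :=
  le_normalizer_pCoreOf K

theorem mul_or (h : KP K) {a b : G} (ha : a ∈ K) (hb : b ∈ K) (haP : a ∉ O₂ K) (hbP : b ∉ O₂ K) :
    a * b ∈ O₂ K ∨ a * b⁻¹ ∈ O₂ K := by
  have hn : ((O₂ K).subgroupOf K).Normal := (normal_subOf_iff (pCoreOf_le K)).mpr (nK K)
  have hcard : Nat.card (↥K ⧸ (O₂ K).subgroupOf K) = 3 := h.idx
  have hmem : ∀ x : ↥K, ((x : ↥K ⧸ (O₂ K).subgroupOf K) = 1) ↔ (x : G) ∈ O₂ K := by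
    intro x
    rw [QuotientGroup.eq_one_iff, mem_subgroupOf]
  have h1 := (abelian_three hcard).1 (((⟨a, ha⟩ : K) : ↥K ⧸ (O₂ K).subgroupOf K))
    (((⟨b, hb⟩ : K) : ↥K ⧸ (O₂ K).subgroupOf K))
    (fun h => haP ((hmem _).mp h)) (fun h => hbP ((hmem _).mp h))
  rcases h1 with h1 | h1
  · left
    rw [← QuotientGroup.mk_mul, hmem] at h1
    exact h1
  · right
    rw [← QuotientGroup.mk_inv, ← QuotientGroup.mk_mul, hmem] at h1
    exact h1

theorem comm_mem (h : KP K) {a b : G} (ha : a ∈ K) (hb : b ∈ K) : ⁅a, b⁆ ∈ O₂ K := by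
  have hn : ((O₂ K).subgroupOf K).Normal := (normal_subOf_iff (pCoreOf_le K)).mpr (nK K)
  have hcard : Nat.card (↥K ⧸ (O₂ K).subgroupOf K) = 3 := h.idx
  have hmem : ∀ x : ↥K, ((x : ↥K ⧸ (O₂ K).subgroupOf K) = 1) ↔ (x : G) ∈ O₂ K := by
    intro x
    rw [QuotientGroup.eq_one_iff, mem_subgroupOf]
  have h1 := (abelian_three hcard).2.1 (((⟨a, ha⟩ : K) : ↥K ⧸ (O₂ K).subgroupOf K))
    (((⟨b, hb⟩ : K) : ↥K ⧸ (O₂ K).subgroupOf K))
  have h2 := (hmem ⁅(⟨a, ha⟩ : K), (⟨b, hb⟩ : K)⁆).mp (by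
    have e : (((⁅(⟨a, ha⟩ : K), (⟨b, hb⟩ : K)⁆ : K)) : ↥K ⧸ (O₂ K).subgroupOf K) =
      ⁅(((⟨a, ha⟩ : K)) : ↥K ⧸ (O₂ K).subgroupOf K), (((⟨b, hb⟩ : K)) : ↥K ⧸ (O₂ K).subgroupOf K)⁆ :=
      rfl
    rw [e, commutatorElement_eq_one_iff_mul_comm]
    exact h1)
  exact h2

theorem pow_three (h : KP K) {a : G} (ha : a ∈ K) : a ^ 3 ∈ O₂ K := by
  have hn : ((O₂ K).subgroupOf K).Normal := (normal_subOf_iff (pCoreOf_le K)).mpr (nK K)
  have hcard : Nat.card (↥K ⧸ (O₂ K).subgroupOf K) = 3 := h.idx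
  have hmem : ∀ x : ↥K, ((x : ↥K ⧸ (O₂ K).subgroupOf K) = 1) ↔ (x : G) ∈ O₂ K := by
    intro x
    rw [QuotientGroup.eq_one_iff, mem_subgroupOf]
  have h1 := (abelian_three hcard).2.2 (((⟨a, ha⟩ : K) : ↥K ⧸ (O₂ K).subgroupOf K))
  exact (hmem (⟨a, ha⟩ ^ 3)).mp (by rw [QuotientGroup.mk_pow]; exact h1)

end noFin

variable [Finite G]

theorem not_pgroup (h : KP K) : ¬ IsPGroup 2 K := by
  intro h1
  have h2 := h.idx
  have h3 : O₂ K = K := le_antisymm (pCoreOf_le K) (le_pCoreOf le_rfl Subgroup.le_normalizer h1)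
  rw [h3, relIndex_self] at h2
  omega

/-- a normal subgroup of `K` not inside `O_2(K)` is `K` -/
theorem eq_of_normal (h : KP K) {N : Subgroup G} (hNK : N ≤ K)
    (hn : K ≤ normalizer (N : Set G)) (hN : ¬ N ≤ O₂ K) : N = K := by
  have h1 : N ⊔ O₂ K = K := by
    rcases Ord3.eq_or_eq_of_relIndex_prime (p := 3) Nat.prime_three
      (le_sup_right : O₂ K ≤ N ⊔ O₂ K) (sup_le hNK (pCoreOf_le K)) h.idx with h1 | h1
    · exact absurd (by rw [← h1]; exact le_sup_left) hN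
    · exact h1
  have h2 : PMod 2 K N := by
    have := pMod_of_sup (p := 2) (P := O₂ K) (C := N) (isPGroup_pCoreOf K)
      ((pCoreOf_le K).trans hn)
    rw [sup_comm] at this
    rwa [h1] at this
  have h3 := resOf_le_of_pMod h2
  rw [h.gen] at h3
  exact le_antisymm hNK h3

theorem sup_eq (h : KP K) {X : Subgroup G} (hX : X ≤ K) (hXP : ¬ X ≤ O₂ K) : X ⊔ O₂ K = K := by
  rcases Ord3.eq_or_eq_of_relIndex_prime (p := 3) Nat.prime_three
    (le_sup_right : O₂ K ≤ X ⊔ O₂ K) (sup_le hX (pCoreOf_le K)) h.idx with h1 | h1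
  · exact absurd (by rw [← h1]; exact le_sup_left) hXP
  · exact h1

theorem exists_D (h : KP K) : ∃ D : Subgroup G, D ≤ K ∧ Nat.card D = 3 ∧ ¬ D ≤ O₂ K ∧
    D ⊔ O₂ K = K := by
  have : Fact (Nat.Prime 3) := ⟨Nat.prime_three⟩
  have h1 : 3 ∣ Nat.card K := by
    rw [H13.Replace.card_eq_mul_relIndex (pCoreOf_le (p := 2) K), h.idx]
    exact Dvd.intro_left _ rfl
  obtain ⟨x, hx⟩ := exists_prime_orderOf_dvd_card' 3 h1
  have hxG : orderOf (x : G) = 3 := by rw [← hx]; exact Subgroup.orderOf_coe x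
  have hxP : (x : G) ∉ O₂ K := by
    intro hxP
    have h2 := IsPGroup.iff_orderOf.mp (isPGroup_pCoreOf (p := 2) K) ⟨x, hxP⟩
    obtain ⟨k, hk⟩ := h2
    rw [← Subgroup.orderOf_coe] at hk
    change orderOf (x : G) = _ at hk
    rw [hxG] at hk
    have h4 : 3 ∣ 2 ^ k := by rw [← hk]
    have := Nat.Prime.dvd_of_dvd_pow Nat.prime_three h4
    omega
  have hle : zpowers (x : G) ≤ K := by rw [zpowers_le]; exact x.2
  have hnle : ¬ zpowers (x : G) ≤ O₂ K := by rw [zpowers_le]; exact hxP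
  exact ⟨zpowers (x : G), hle, by rw [Nat.card_zpowers, hxG], hnle, h.sup_eq hle hnle⟩

section act

variable {U : Subgroup G}

omit [Finite G] in
theorem comm_eq {D : Subgroup G} (hD : D ⊔ O₂ K = K) (hKU : K ≤ normalizer (U : Set G))
    (hPU : O₂ K ≤ centralizer (U : Set G)) : ⁅U, K⁆ = ⁅U, D⁆ := by
  have hDK : D ≤ K := by rw [← hD]; exact le_sup_left
  apply le_antisymm _ (commutator_mono le_rfl hDK)
  rw [commutator_le]
  intro u hu k hk
  rw [← hD, sup_comm] at hk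
  obtain ⟨p, hp, d, hd, rfl⟩ := (H54.Basic.mem_sup_iff (hDK.trans (nK K))).mp hk
  have e1 : ⁅u, p⁆ = 1 := by
    rw [commutatorElement_eq_one_iff_mul_comm]
    exact mem_centralizer_iff.mp (hPU hp) u hu
  have e2 : ⁅u, p * d⁆ = ⁅u, p⁆ * (p * ⁅u, d⁆ * p⁻¹) := by
    simp only [commutatorElement_def]; group
  have e3 : ⁅u, d⁆ ∈ U := by
    have : ⁅U, D⁆ ≤ U := H1.Coprime2.commutator_le_left (hDK.trans hKU)
    exact this (commutator_mem_commutator hu hd)
  have e4 := mem_centralizer_iff.mp (hPU hp) _ e3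
  rw [e2, e1, one_mul, ← e4, mul_inv_cancel_right]
  exact commutator_mem_commutator hu hd

omit [Finite G] in
theorem inf_centralizer_eq {D : Subgroup G} (hD : D ⊔ O₂ K = K)
    (hPU : O₂ K ≤ centralizer (U : Set G)) :
    U ⊓ centralizer (K : Set G) = U ⊓ centralizer (D : Set G) := by
  have hDK : D ≤ K := by rw [← hD]; exact le_sup_left
  apply le_antisymm
  · exact inf_le_inf_left _ (centralizer_le hDK)
  · intro u hu
    refine Subgroup.mem_inf.mpr ⟨(Subgroup.mem_inf.mp hu).1, ?_⟩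
    have h1 : K ≤ centralizer ({u} : Set G) := by
      rw [← hD]
      refine sup_le ?_ (hPU.trans (centralizer_le (by simpa using (Subgroup.mem_inf.mp hu).1)))
      intro d hd
      rw [mem_centralizer_singleton_iff]
      exact mem_centralizer_iff.mp (Subgroup.mem_inf.mp hu).2 d hd
    rw [mem_centralizer_iff]
    intro k hk
    exact mem_centralizer_singleton_iff.mp (h1 hk)

theorem cop {D : Subgroup G} (hD3 : Nat.card D = 3) (hU2 : IsPGroup 2 U) :
    (Nat.card D).Coprime (Nat.card U) := by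
  obtain ⟨n, hn⟩ := IsPGroup.iff_card.mp hU2
  rw [hn, hD3]
  exact Nat.Coprime.pow_right _ (by norm_num)

theorem comm_inf (h : KP K) (hKU : K ≤ normalizer (U : Set G)) (hU2 : IsPGroup 2 U)
    (hUc : U ≤ centralizer (U : Set G))
    (hPU : O₂ K ≤ centralizer (U : Set G)) : ⁅U, K⁆ ⊓ centralizer (K : Set G) = ⊥ := by
  obtain ⟨D, hDK, hD3, -, hD⟩ := h.exists_D
  rw [comm_eq hD hKU hPU, eq_bot_iff]
  have h1 := Ord3.comm_inf_centralizer_eq_bot hUc (cop hD3 hU2).symm (hDK.trans hKU)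
  rw [← h1]
  exact inf_le_inf_left _ (centralizer_le hDK)

theorem comm_comm (h : KP K) (hKU : K ≤ normalizer (U : Set G)) (hU2 : IsPGroup 2 U)
    (hPU : O₂ K ≤ centralizer (U : Set G)) : ⁅⁅U, K⁆, K⁆ = ⁅U, K⁆ := by
  obtain ⟨D, hDK, hD3, -, hD⟩ := h.exists_D
  have h2 : ⁅U, K⁆ ≤ U := H1.Coprime2.commutator_le_left hKU
  have h1 : ⁅⁅U, K⁆, K⁆ = ⁅⁅U, K⁆, D⁆ := comm_eq hD
    (H1.Coprime2.le_normalizer_commutator_right _ _) (hPU.trans (centralizer_le h2))
  rw [h1, comm_eq hD hKU hPU]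
  exact H1.Coprime2.commutator_commutator_eq D U (hDK.trans hKU) (cop hD3 hU2)
    (Or.inr (H54.CopComm.isSolvable_of_isPGroup hU2))

theorem comm_sup (h : KP K) (hKU : K ≤ normalizer (U : Set G)) (hU2 : IsPGroup 2 U)
    (hPU : O₂ K ≤ centralizer (U : Set G)) : ⁅U, K⁆ ⊔ (U ⊓ centralizer (K : Set G)) = U := by
  obtain ⟨D, hDK, hD3, -, hD⟩ := h.exists_D
  rw [comm_eq hD hKU hPU, inf_centralizer_eq hD hPU]
  exact H1.Coprime2.commutator_sup_centralizer D U (hDK.trans hKU) (cop hD3 hU2)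
    (Or.inr (H54.CopComm.isSolvable_of_isPGroup hU2))

theorem card_mod (h : KP K) (hKU : K ≤ normalizer (U : Set G))
    (hPU : O₂ K ≤ centralizer (U : Set G)) (hfix : U ⊓ centralizer (K : Set G) = ⊥) :
    Nat.card U ≡ 1 [MOD 3] := by
  have : Fact (Nat.Prime 3) := ⟨Nat.prime_three⟩
  obtain ⟨D, hDK, hD3, -, hD⟩ := h.exists_D
  have hn : D ≤ normalizer (U : Set G) := hDK.trans hKU
  have h3 : IsPGroup 3 D := IsPGroup.of_card (n := 1) (by rw [hD3]; norm_num)
  let _ : MulAction D U :=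
    MulAction.compHom _ ((normalizerMonoidHom U).comp (inclusion hn))
  have hsmul : ∀ (q : D) (v : U), ((q • v : U) : G) = q * v * (q : G)⁻¹ := fun q v => rfl
  have h1 := h3.card_modEq_card_fixedPoints U
  have h2 : Nat.card (MulAction.fixedPoints D U) = 1 := by
    rw [Nat.card_eq_one_iff_unique]
    refine ⟨⟨?_⟩, ⟨⟨1, ?_⟩⟩⟩
    · have key : ∀ v : MulAction.fixedPoints D U, ((v : U) : G) = 1 := by
        rintro ⟨v, hv⟩
        have h4 : (v : G) ∈ U ⊓ centralizer (D : Set G) := by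
          refine Subgroup.mem_inf.mpr ⟨v.2, ?_⟩
          rw [mem_centralizer_iff]
          intro d hd
          have h5 : (d : G) * v * (d : G)⁻¹ = v := congrArg Subtype.val (hv ⟨d, hd⟩)
          calc d * v = (d * v * d⁻¹) * d := by group
            _ = v * d := by rw [h5]
        rw [← inf_centralizer_eq hD hPU, hfix, mem_bot] at h4
        exact h4
      intro v w
      apply Subtype.ext
      apply Subtype.ext
      rw [key v, key w]
    · intro d
      apply Subtype.ext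
      rw [hsmul]
      simp
  rwa [h2] at h1

end act

section inv

omit [Finite G] in
theorem actTriv_le (X : Subgroup G) (hX : X ≤ normalizer (K : Set G)) (h : ⁅K, X⁆ ≤ O₂ K) :
    X ≤ H13.Quad.actTriv K (O₂ K) :=
  H13.Quad.le_actTriv hX (hX.trans (normalizer_le_normalizer_pCoreOf K)) h

omit [Finite G] in
theorem mem_actTriv_iff {x : G} (hx : x ∈ normalizer (K : Set G)) :
    x ∈ H13.Quad.actTriv K (O₂ K) ↔ ∀ k ∈ K, ⁅k, x⁆ ∈ O₂ K := by
  rw [H13.Quad.mem_actTriv]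
  exact ⟨fun h => h.2.2, fun h => ⟨hx, normalizer_le_normalizer_pCoreOf K hx, h⟩⟩

omit [Finite G] in
/-- elements normalizing `K` and not acting trivially on `K/O_2(K)` invert it -/
theorem inverts (h : KP K) {x : G} (hx : x ∈ normalizer (K : Set G))
    (hx' : x ∉ H13.Quad.actTriv K (O₂ K)) {k : G} (hk : k ∈ K) : k * (x * k * x⁻¹) ∈ O₂ K := by
  have hxP := normalizer_le_normalizer_pCoreOf (p := 2) K hx
  have hc : ∀ y ∈ K, x * y * x⁻¹ ∈ K := fun y hy => H54.Basic.mul_inv_mem_of_mem_normalizer hx hy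
  have hcP : ∀ y ∈ K, y ∉ O₂ K → x * y * x⁻¹ ∉ O₂ K := by
    intro y hy hyP hcon
    apply hyP
    have := H54.Basic.inv_mul_mem_of_mem_normalizer hxP hcon
    have e : x⁻¹ * (x * y * x⁻¹) * x = y := by group
    rwa [e] at this
  -- there is `f` with `[f,x] ∉ P`
  rw [mem_actTriv_iff hx] at hx'
  push Not at hx'
  obtain ⟨f, hf, hfx⟩ := hx'
  have hfP : f ∉ O₂ K := by
    intro hfP
    apply hfx
    rw [commutatorElement_def]
    have : f * (x * f⁻¹ * x⁻¹) ∈ O₂ K :=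
      mul_mem hfP (H54.Basic.mul_inv_mem_of_mem_normalizer hxP (inv_mem hfP))
    simpa [mul_assoc] using this
  have hff : f * (x * f * x⁻¹) ∈ O₂ K := by
    rcases h.mul_or hf (hc f hf) hfP (hcP f hf hfP) with h1 | h1
    · exact h1
    · exfalso; apply hfx
      rw [commutatorElement_def]
      have e : f * (x * f * x⁻¹)⁻¹ = f * x * f⁻¹ * x⁻¹ := by group
      rwa [e] at h1
  by_cases hkP : k ∈ O₂ K
  · exact mul_mem hkP (H54.Basic.mul_inv_mem_of_mem_normalizer hxP hkP)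
  by_contra hcon
  -- then x k x⁻¹ ∈ P k ...
  have h2 : k * (x * k * x⁻¹)⁻¹ ∈ O₂ K := (h.mul_or hk (hc k hk) hkP (hcP k hk hkP)).resolve_left hcon
  -- f is in P k or P k⁻¹
  rcases h.mul_or hf hk hfP hkP with h1 | h1
  · -- f k ∈ P
    have h3 : x * (f * k) * x⁻¹ ∈ O₂ K := H54.Basic.mul_inv_mem_of_mem_normalizer hxP h1
    apply hcon
    -- k * xkx⁻¹ = k * (x f x⁻¹)⁻¹ * (x f k x⁻¹) ; (x f x⁻¹)⁻¹ ∈ ...
    have e : k * (x * k * x⁻¹) = (k * f) * (f⁻¹ * (x * f * x⁻¹)⁻¹) * (x * (f * k) * x⁻¹) := by group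
    rw [e]
    have a1 : k * f ∈ O₂ K := by
      have e' : k * f = f⁻¹ * (f * k) * f := by group
      rw [e']
      exact H54.Basic.inv_mul_mem_of_mem_normalizer (nK K hf) h1
    have a2 : f⁻¹ * (x * f * x⁻¹)⁻¹ ∈ O₂ K := by
      have e' : f⁻¹ * (x * f * x⁻¹)⁻¹ = f⁻¹ * ((f * (x * f * x⁻¹))⁻¹) * f := by group
      rw [e']
      exact H54.Basic.inv_mul_mem_of_mem_normalizer (nK K hf) (inv_mem hff)
    exact mul_mem (mul_mem a1 a2) h3
  · -- f k⁻¹ ∈ P
    have h3 : x * (f * k⁻¹) * x⁻¹ ∈ O₂ K := H54.Basic.mul_inv_mem_of_mem_normalizer hxP h1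
    apply hcon
    have e : k * (x * k * x⁻¹) = (f * k⁻¹)⁻¹ * (f * ((x * (f * k⁻¹) * x⁻¹)⁻¹) * f⁻¹) *
      (f * (x * f * x⁻¹)) := by group
    rw [e]
    exact mul_mem (mul_mem (inv_mem h1) (H54.Basic.mul_inv_mem_of_mem_normalizer (nK K hf)
      (inv_mem h3))) hff

omit [Finite G] in
theorem relIndex_actTriv (h : KP K) {X : Subgroup G} (hX : X ≤ normalizer (K : Set G))
    (hX' : ¬ X ≤ H13.Quad.actTriv K (O₂ K)) :
    (X ⊓ H13.Quad.actTriv K (O₂ K)).relIndex X = 2 := by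
  rw [relIndex_eq_two_iff]
  obtain ⟨a, haX, ha⟩ := Set.not_subset.mp hX'
  refine ⟨a, haX, ?_⟩
  intro b hb
  have hb1 := hX hb
  have ha1 := hX haX
  by_cases hbt : b ∈ H13.Quad.actTriv K (O₂ K)
  · right
    refine ⟨Subgroup.mem_inf.mpr ⟨hb, hbt⟩, ?_⟩
    intro hcon
    apply ha
    have := mul_mem (inv_mem hbt) (Subgroup.mem_inf.mp hcon).2
    simpa using this
  · left
    refine ⟨Subgroup.mem_inf.mpr ⟨mul_mem hb haX, ?_⟩, fun hcon => hbt (Subgroup.mem_inf.mp hcon).2⟩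
    rw [mem_actTriv_iff (mul_mem hb1 ha1)]
    intro k hk
    have h1 := h.inverts ha1 ha (k := k⁻¹) (inv_mem hk)
    have hk' : a * k * a⁻¹ ∈ K := H54.Basic.mul_inv_mem_of_mem_normalizer ha1 hk
    have h2 := h.inverts hb1 hbt (k := a * k⁻¹ * a⁻¹) (by
      have := inv_mem hk'
      have e : (a * k * a⁻¹)⁻¹ = a * k⁻¹ * a⁻¹ := by group
      rwa [e] at this)
    -- k * (ba) k⁻¹ (ba)⁻¹ = (k * (a k a⁻¹)) * ((a k⁻¹ a⁻¹) * b (a k⁻¹ a⁻¹) b⁻¹)
    have e : ⁅k, b * a⁆ = (k * (a * k * a⁻¹)) * ((a * k⁻¹ * a⁻¹) * (b * (a * k⁻¹ * a⁻¹) * b⁻¹)) := by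
      rw [commutatorElement_def]; group
    rw [e]
    have h3 := h.inverts ha1 ha (k := k) hk
    exact mul_mem h3 h2

/-- if `x ∈ N(K)` centralizes a subgroup `W` on which `K` acts nontrivially then it acts trivially
on `K/O_2(K)`. -/
theorem mem_actTriv_of_centralizes (h : KP K) {W X : Subgroup G} (hKW : K ≤ normalizer (W : Set G))
    (hW : ¬ K ≤ centralizer (W : Set G)) (hXK : X ≤ normalizer (K : Set G))
    (hXW : X ≤ centralizer (W : Set G)) : X ≤ H13.Quad.actTriv K (O₂ K) := by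
  apply actTriv_le X hXK
  by_contra hcon
  have h1 : ⁅K, X⁆ = K := h.eq_of_normal (H1.Coprime2.commutator_le_left hXK)
    (H1.Coprime2.le_normalizer_commutator_left _ _) hcon
  apply hW
  rw [← h1]
  refine (commutator_mono le_rfl hXW).trans ?_
  exact H1.Coprime2.commutator_le_right (H1.Coprime2.le_normalizer_centralizer hKW)

omit [Finite G] in
/-- `C_W(B)` is `K`-invariant if `B` acts trivially on `K/O_2(K)` and `[W,O_2(K)]=1` -/
theorem le_normalizer_fix {W B : Subgroup G} (hKW : K ≤ normalizer (W : Set G))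
    (hPW : O₂ K ≤ centralizer (W : Set G)) (hB : B ≤ H13.Quad.actTriv K (O₂ K))
    (hBW : B ≤ normalizer (W : Set G)) :
    K ≤ normalizer ((W ⊓ centralizer (B : Set G) : Subgroup G) : Set G) := by
  apply H54.Basic.le_normalizer_of_conj
  intro k hk w hw
  obtain ⟨hwW, hwB⟩ := Subgroup.mem_inf.mp hw
  have hkw := H54.Basic.mul_inv_mem_of_mem_normalizer (hKW hk) hwW
  refine Subgroup.mem_inf.mpr ⟨hkw, ?_⟩
  rw [mem_centralizer_iff]
  intro b hb
  have hbt := H13.Quad.mem_actTriv.mp (hB hb)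
  have hbw := mem_centralizer_iff.mp hwB b hb
  -- p = k⁻¹ b k b⁻¹ ∈ P
  have hp : k⁻¹ * b * k * b⁻¹ ∈ O₂ K := by
    have := hbt.2.2 k⁻¹ (inv_mem hk)
    rw [commutatorElement_def] at this
    simpa using this
  have hpw := mem_centralizer_iff.mp (hPW hp) w hwW
  -- b k w k⁻¹ = k p b w k⁻¹ = k p w b k⁻¹ = k w p b k⁻¹ = k w k⁻¹ b
  calc b * (k * w * k⁻¹) = k * (k⁻¹ * b * k * b⁻¹) * (b * w) * k⁻¹ := by group
    _ = k * (k⁻¹ * b * k * b⁻¹) * (w * b) * k⁻¹ := by rw [hbw]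
    _ = k * ((k⁻¹ * b * k * b⁻¹) * w) * b * k⁻¹ := by group
    _ = k * (w * (k⁻¹ * b * k * b⁻¹)) * b * k⁻¹ := by rw [hpw]
    _ = k * w * k⁻¹ * b := by group

/-- `|C_W(x)|² ≤ |W|` if `x` inverts `K/O_2(K)`. -/
theorem card_fix_sq (h : KP K) {W : Subgroup G} (hKW : K ≤ normalizer (W : Set G))
    (hPW : O₂ K ≤ centralizer (W : Set G)) (hWc : W ≤ centralizer (W : Set G))
    (hfix : W ⊓ centralizer (K : Set G) = ⊥) {x : G} (hx : x ∈ normalizer (K : Set G))
    (hx' : x ∉ H13.Quad.actTriv K (O₂ K)) :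
    Nat.card ↥(W ⊓ centralizer ({x} : Set G)) * Nat.card ↥(W ⊓ centralizer ({x} : Set G)) ≤
      Nat.card W := by
  obtain ⟨D, hDK, hD3, hDP, hD⟩ := h.exists_D
  obtain ⟨k, hkD, hkP⟩ := Set.not_subset.mp hDP
  have hk : k ∈ K := hDK hkD
  set A := W ⊓ centralizer ({x} : Set G) with hA
  set B := A.map (MulAut.conj k).toMonoidHom with hB
  have hBW : B ≤ W := by
    have h1 : A.map (MulAut.conj k).toMonoidHom ≤ W.map (MulAut.conj k).toMonoidHom :=
      Subgroup.map_mono inf_le_left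
    rwa [(H54.Basic.map_conj_eq_iff k W).mpr (hKW hk)] at h1
  have hAB : A ⊓ B = ⊥ := by
    rw [eq_bot_iff, ← hfix]
    intro w hw
    obtain ⟨hwA, hwB⟩ := Subgroup.mem_inf.mp hw
    rw [hB, H54.Basic.mem_map_conj] at hwB
    have hwW := (Subgroup.mem_inf.mp hwA).1
    have h1 := mem_centralizer_singleton_iff.mp (Subgroup.mem_inf.mp hwA).2
    have h2 := mem_centralizer_singleton_iff.mp (Subgroup.mem_inf.mp hwB).2
    refine Subgroup.mem_inf.mpr ⟨hwW, ?_⟩
    -- g = k x k⁻¹ x⁻¹ ∈ K \ P centralizes w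
    set g := k * (x * k⁻¹ * x⁻¹) with hg
    have hgK : g ∈ K := mul_mem hk (H54.Basic.mul_inv_mem_of_mem_normalizer hx (inv_mem hk))
    have hgP : g ∉ O₂ K := by
      intro hcon
      have h3 := h.inverts hx hx' (k := k) hk
      -- k * (x k x⁻¹) ∈ P, k (x k x⁻¹)⁻¹ ∈ P → k² ∈ P → k ∈ P
      have e : k * k = (k * (x * k⁻¹ * x⁻¹)) * ((x * k * x⁻¹) * (k * (x * k * x⁻¹)) * (x * k * x⁻¹)⁻¹) := by group
      have h4 : k * k ∈ O₂ K := by
        rw [e]
        refine mul_mem hcon ?_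
        exact H54.Basic.mul_inv_mem_of_mem_normalizer
          (nK K (H54.Basic.mul_inv_mem_of_mem_normalizer hx hk)) h3
      have h5 := h.pow_three hk
      apply hkP
      have e2 : k = (k * k)⁻¹ * k ^ 3 := by group
      have h6 : (k * k)⁻¹ * k ^ 3 ∈ O₂ K := mul_mem (inv_mem h4) h5
      rw [← e2] at h6
      exact h6
    have hgw : g ∈ centralizer ({w} : Set G) := by
      rw [mem_centralizer_singleton_iff]
      -- k x k⁻¹ commutes with w, x commutes with w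
      have c1 : Commute w x := h1
      have c2 : Commute (k⁻¹ * w * k) x := h2
      have c3 : Commute w (k * x * k⁻¹) := by
        have := c2
        rw [commute_iff_eq] at this ⊢
        calc w * (k * x * k⁻¹) = k * ((k⁻¹ * w * k) * x) * k⁻¹ := by group
          _ = k * (x * (k⁻¹ * w * k)) * k⁻¹ := by rw [this]
          _ = k * x * k⁻¹ * w := by group
      have c4 : Commute w ((k * x * k⁻¹) * x⁻¹) := c3.mul_right c1.inv_right
      have e : g = (k * x * k⁻¹) * x⁻¹ := by rw [hg]; group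
      rw [e]
      exact c4.symm
    have h5 : K ≤ centralizer ({w} : Set G) := by
      rw [← h.sup_eq (X := zpowers g) (by rwa [zpowers_le]) (by rwa [zpowers_le])]
      refine sup_le (by rwa [zpowers_le]) (hPW.trans (centralizer_le (by simpa using hwW)))
    rw [mem_centralizer_iff]
    intro y hy
    exact mem_centralizer_singleton_iff.mp (h5 hy)
  have h3 := H13.Thompson.card_sup_mul_card_inf (A := A) (B := B) (by
    refine le_trans ?_ (centralizer_le_normalizer B)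
    exact (inf_le_left.trans hWc).trans (centralizer_le hBW))
  rw [hAB, card_bot, mul_one, hB, H54.Basic.card_map_conj, ← hB] at h3
  rw [← h3]
  exact card_le_of_le (sup_le inf_le_left hBW)

end inv

end KP

end H54.KP
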