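import Cfsg.Agent.Lib.H54.Setup

set_option autoImplicit false
set_option linter.dupNamespace false
set_option linter.unusedSectionVars false

/-!
`N_G(K) = N_G(W_K)`.
-/

namespace H54.Setup

open Subgroup H54.PreComp H52.PRes H52.PCore H52.Syl H52.Sub H54.JTh
open H54.MaxEA H54.WOf H54.KP
open scoped commutatorElement

universe u

variable {G : Type u} [Group G] [Finite G]

local notation "O₂" => Cfsg.pCoreOf 2
local notation "ΩZ" => Cfsg.omegaCenterOf
local notation "wOf" => Cfsg.wOf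
local notation "JT" => Cfsg.thompsonSubgroupOf 2

theorem mem_maxEA_cj {S A : Subgroup G} (g : G) : cj g A ∈ MaxEA (cj g S) ↔ A ∈ MaxEA S :=
  map_injective_mem (MulAut.conj g).injective

/-- `J(S)` is weakly closed in `S` -/
theorem thompson_weak {S : Subgroup G} {h : G} (hle : cj h (JT S) ≤ S) : cj h (JT S) = JT S := by
  have h1 : cj h (JT S) ≤ JT S := by
    intro x hx
    rw [mem_cj, thompsonOf_eq] at hx
    have h2 : sSup (MaxEA S) ≤ cj h⁻¹ (JT S) := by
      refine sSup_le fun A hA => ?_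
      rw [le_cj_iff, inv_inv]
      apply le_thompsonOf
      refine mem_of_card_le hA ((cj_mono (le_thompsonOf hA)).trans hle) ?_ ?_
      · exact H13.ElemAb.map hA.2.1 _
      · rw [card_cj]
    have h3 := h2 hx
    rw [mem_cj] at h3
    have e : (h⁻¹)⁻¹ * (h⁻¹ * x * h) * h⁻¹ = x := by group
    rwa [e] at h3
  exact eq_of_le_of_card_ge h1 (by rw [card_cj])

namespace Glob

theorem isTwoLocal_normW {J K : Subgroup G} (hK : JComp J K) :
    Cfsg.IsTwoLocal (normalizer ((wOf K : Subgroup G) : Set G)) :=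
  ⟨wOf K, H13.ElemAb.isPGroup (isEA_wOf K), hK.wne, rfl⟩

theorem norm_eq (hg : Glob G) {J K : Subgroup G} (hJ2 : IsPGroup 2 J)
    (hK : JComp J K)
    (h0 : ∀ S : Subgroup G, J ≤ S → SylIn 2 S (normalizer ((wOf K : Subgroup G) : Set G)) →
      JT S = J) : normalizer (K : Set G) = normalizer ((wOf K : Subgroup G) : Set G) := by
  apply le_antisymm (normalizer_le_normalizer_wOf K)
  set N := normalizer ((wOf K : Subgroup G) : Set G) with hN
  have h2l := isTwoLocal_normW hK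
  have hJN : J ≤ N := hK.pre.le_normalizer.trans (normalizer_le_normalizer_wOf K)
  obtain ⟨S₁, hS₁, hJS⟩ := exists_sylIn_le hJN hJ2
  have hJS₁ := h0 S₁ hJS hS₁
  have hWO : wOf K ≤ O₂ N := le_pCoreOf Subgroup.le_normalizer le_rfl
    (H13.ElemAb.isPGroup (isEA_wOf K))
  have hS₁b : S₁ ≠ ⊥ := by
    intro hcon
    apply hK.wne
    rw [← le_bot_iff, ← hcon]
    exact hWO.trans hS₁.pCoreOf_le
  obtain ⟨S₀, hS₀⟩ := hS₁.isPGroup.exists_le_sylow
  have hlh := hg.lh hS₁ hS₁b (hg.char2 h2l) S₀ hS₀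
  rw [hJS₁] at hlh
  have hKN : K ≤ N := K_le_norm K
  have hVW := hlh.comm_eq_wOf hKN hK.pre hK.card
  refine hlh.gen_top.trans (sup_le ?_ ?_)
  · refine iSup₂_le fun K' hK' => ?_
    exact hlh.le_normalizer hKN hK'.2 hK.pre hK'.1
  · intro x hx
    obtain ⟨z, hz1⟩ := ne_bot_iff_exists_ne_one.mp hK.wne
    refine hlh.mem_normalizer_of_fix hKN hK.pre (Subgroup.mem_inf.mp hx).1
      (Subgroup.mem_inf.mp hx).2 (z := z) (by rw [hVW]; exact z.2)
      (fun h => hz1 (Subtype.ext h)) ?_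
    rw [hVW]
    exact H54.Basic.mul_inv_mem_of_mem_normalizer (Subgroup.mem_inf.mp hx).1 z.2

theorem jcomp_conj (hg : Glob G) {J K : Subgroup G} (hJ2 : IsPGroup 2 J) (hK : JComp J K)
    (h0 : ∀ S : Subgroup G, J ≤ S → SylIn 2 S (normalizer ((wOf K : Subgroup G) : Set G)) →
      JT S = J) {g : G} (hgN : cj g J ≤ normalizer ((wOf K : Subgroup G) : Set G)) :
    JComp (cj g J) K := by
  have hNe := hg.norm_eq hJ2 hK h0
  set N := normalizer ((wOf K : Subgroup G) : Set G) with hN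
  have hJN : J ≤ N := hK.pre.le_normalizer.trans (normalizer_le_normalizer_wOf K)
  obtain ⟨S₁, hS₁, hJS⟩ := exists_sylIn_le hJN hJ2
  have hJS₁ := h0 S₁ hJS hS₁
  obtain ⟨S₂, hS₂, hgS⟩ := exists_sylIn_le hgN (isPGroup_cj hJ2)
  obtain ⟨n, hn, rfl⟩ := hS₁.conj hS₂
  have h1 : cj (n⁻¹ * g) (JT S₁) = JT S₁ := by
    apply thompson_weak
    rw [← cj_cj, hJS₁, cj_le_iff, inv_inv]
    exact hgS
  rw [hJS₁] at h1
  have h2 : cj g J = cj n J := by
    conv_rhs => rw [← h1, ← cj_cj, cj_cj_inv]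
  rw [h2]
  have h3 := cj_comp hK n
  have h4 : cj n K = K := cj_eq_of_mem_normalizer (by rw [hNe]; exact hn)
  rwa [h4] at h3

end Glob

end H54.Setup
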