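import Cfsg.Agent.Lib.H54.Straddle

set_option autoImplicit false
set_option linter.dupNamespace false
set_option linter.unusedSectionVars false
set_option maxHeartbeats 400000

/-!
Components outside `M`.
-/

namespace H54.Setup

open Subgroup H54.PreComp H52.PRes H52.PCore H52.Syl H52.Sub H54.JTh
open H54.MaxEA H54.WOf H54.KP
open scoped commutatorElement

universe u

variable {G : Type u} [Group G] [Finite G]

local notation "O₂" => Cfsg.pCoreOf 2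
local notation "ΩZ" => Cfsg.omegaCenterOf
local notation "wOf" => Cfsg.wOf
local notation "JT" => Cfsg.thompsonSubgroupOf 2

/-- the data of a maximal straddling subgroup -/
structure MS (M T : Subgroup G) : Prop where
  hg : Glob G
  mem : T ∈ Cfsg.maxStraddlingTwoSubgroups M
  exS : ∃ S : Sylow 2 G, normalizer ((JT (S : Subgroup G) : Subgroup G) : Set G) ≤ M
  twoM : Cfsg.IsTwoLocal M
  O2G : Cfsg.pCore 2 G = ⊥

/-- component outside `M` -/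
structure Out (M T K : Subgroup G) : Prop where
  jc : JComp (JT T) K
  zero : ∀ S : Subgroup G, JT T ≤ S → SylIn 2 S (normalizer ((wOf K : Subgroup G) : Set G)) →
      JT S = JT T
  nle : ¬ K ≤ M
  core : O₂ (K ⊔ T) ≠ ⊥

theorem mem_outside_iff {M T K : Subgroup G} :
    K ∈ Cfsg.jComponentsOutside M T ↔ Out M T K := by
  constructor
  · rintro ⟨⟨h1, h2⟩, h3, h4⟩
    exact ⟨isJComponent_iff.mp h1, fun S hS hS' => h2 S hS (syl_iff.mpr hS'), h3, h4⟩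
  · rintro ⟨h1, h2, h3, h4⟩
    exact ⟨⟨isJComponent_iff.mpr h1, fun S hS hS' => h2 S hS (syl_iff.mp hS')⟩, h3, h4⟩

namespace MS

variable {M T : Subgroup G}

theorem T2 (h : MS M T) : IsPGroup 2 T := h.mem.1.1
theorem T1 (h : MS M T) : T ≠ ⊥ := h.mem.1.2.1
theorem TM (h : MS M T) : T ≤ M := h.mem.1.2.2.1
theorem J2 (h : MS M T) : IsPGroup 2 (JT T) := h.T2.to_le (H13.SylowN.thompsonOf_le T)
theorem JT_le (_h : MS M T) : JT T ≤ T := H13.SylowN.thompsonOf_le T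
theorem normJ (h : MS M T) : normalizer ((JT T : Subgroup G) : Set G) ≤ M := by
  obtain ⟨S, hS⟩ := h.exS
  exact norm_J_le hS h.mem

theorem straddle (h : MS M T) {L T₀ : Subgroup G} (hL : Cfsg.IsTwoLocal L)
    (hLM : ¬ L ≤ M) (hT₀ : SylIn 2 T₀ L) (hJT₀ : JT T ≤ T₀) :
    JT T₀ = JT T ∧ T₀ ∈ Cfsg.straddlingTwoSubgroups M ∧ ¬ JT T₀ ≤ O₂ L ∧ T₀ ≠ ⊥ := by
  obtain ⟨S, hS⟩ := h.exS
  exact straddle_main hS h.mem hL hLM hT₀ hJT₀

theorem syl_of_le (h : MS M T) {L : Subgroup G} (hL : Cfsg.IsTwoLocal L)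
    (hLM : ¬ L ≤ M) (hTL : T ≤ L) : SylIn 2 T L := by
  obtain ⟨S, hS⟩ := h.exS
  exact sylIn_of_le hS h.mem hL hLM hTL

/-- 2-local subgroups `L ≰ M` containing `J(T)`: the set-up `LH`. -/
theorem lh_of (h : MS M T) {L T₀ : Subgroup G} (hL : Cfsg.IsTwoLocal L)
    (hLM : ¬ L ≤ M) (hT₀ : SylIn 2 T₀ L) (hJT₀ : JT T ≤ T₀) (S₀ : Sylow 2 G)
    (hS₀ : T₀ ≤ (S₀ : Subgroup G)) : LH L T₀ (VZ L (ΩZ (S₀ : Subgroup G))) (JT T) := by
  obtain ⟨h1, h2, h3, h4⟩ := h.straddle hL hLM hT₀ hJT₀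
  rw [← h1]
  exact h.hg.lh hT₀ h4 (h.hg.char2 hL) S₀ hS₀

theorem exists_lh (h : MS M T) {L : Subgroup G} (hL : Cfsg.IsTwoLocal L)
    (hLM : ¬ L ≤ M) (hJL : JT T ≤ L) : ∃ T₀ V, SylIn 2 T₀ L ∧ JT T ≤ T₀ ∧ JT T₀ = JT T ∧
      T₀ ∈ Cfsg.straddlingTwoSubgroups M ∧ LH L T₀ V (JT T) := by
  obtain ⟨T₀, hT₀, hJT₀⟩ := exists_sylIn_le hJL h.J2
  obtain ⟨S₀, hS₀⟩ := hT₀.isPGroup.exists_le_sylow
  obtain ⟨h1, h2, h3, h4⟩ := h.straddle hL hLM hT₀ hJT₀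
  exact ⟨T₀, _, hT₀, hJT₀, h1, h2, h.lh_of hL hLM hT₀ hJT₀ S₀ hS₀⟩

/-- PreComps in 2-local subgroups `L ≰ M` containing `J(T)` are components. -/
theorem jcomp (h : MS M T) {L K : Subgroup G} (hL : Cfsg.IsTwoLocal L)
    (hLM : ¬ L ≤ M) (hJL : JT T ≤ L) (hKL : K ≤ L) (hK : PreComp (JT T) K) : JComp (JT T) K := by
  obtain ⟨T₀, V, hT₀, hJT₀, h1, h2, hlh⟩ := h.exists_lh hL hLM hJL
  have := jcomp_of_pre (K := K) hT₀ (by rw [h1]; exact hlh) hKL (by rw [h1]; exact hK)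
  rwa [h1] at this

/-- the second condition is automatic for `K ≰ M`. -/
theorem zero_of (h : MS M T) {K : Subgroup G} (hK : JComp (JT T) K) (hKM : ¬ K ≤ M)
    (S : Subgroup G) (hJS : JT T ≤ S)
    (hS : SylIn 2 S (normalizer ((wOf K : Subgroup G) : Set G))) : JT S = JT T := by
  refine (h.straddle (Glob.isTwoLocal_normW hK) ?_ hS hJS).1
  intro hcon
  exact hKM ((K_le_norm K).trans hcon)

theorem norm_eq (h : MS M T) {K : Subgroup G} (hK : JComp (JT T) K) (hKM : ¬ K ≤ M) :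
    normalizer (K : Set G) = normalizer ((wOf K : Subgroup G) : Set G) :=
  h.hg.norm_eq h.J2 hK (h.zero_of hK hKM)

/-- some PreComp of `L` is not in `M`. -/
theorem exists_nle (h : MS M T) {L T₀ V : Subgroup G} (hLM : ¬ L ≤ M)
    (hlh : LH L T₀ V (JT T)) : ∃ K, PreComp (JT T) K ∧ K ≤ L ∧ ¬ K ≤ M := by
  by_contra hcon
  push Not at hcon
  apply hLM
  refine hlh.gen_top.trans (sup_le ?_ (inf_le_right.trans h.normJ))
  exact iSup₂_le fun K hK => hcon K hK.1 hK.2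

theorem exists_out (h : MS M T) : ∃ K, Out M T K := by
  obtain ⟨L, hL, hTL, hLM⟩ := h.mem.1.2.2.2
  have hT := h.syl_of_le hL hLM hTL
  obtain ⟨S₀, hS₀⟩ := h.T2.exists_le_sylow
  have hlh := h.lh_of hL hLM hT h.JT_le S₀ hS₀
  obtain ⟨K, hK, hKL, hKM⟩ := h.exists_nle hLM hlh
  have hjc := h.jcomp hL hLM (h.JT_le.trans hTL) hKL hK
  refine ⟨K, hjc, h.zero_of hjc hKM, hKM, ?_⟩
  intro hcon
  have h1 : O₂ L ≤ O₂ (K ⊔ T) := by
    apply le_pCoreOf (hT.pCoreOf_le.trans le_sup_right) _ (isPGroup_pCoreOf L)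
    exact (sup_le hKL hTL).trans (le_normalizer_pCoreOf L)
  rw [hcon, le_bot_iff] at h1
  exact Glob.core_ne_bot hL h1

end MS

end H54.Setup
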