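import Cfsg.Agent.Lib.H54.Two

set_option autoImplicit false
set_option linter.dupNamespace false
set_option linter.unusedSectionVars false
set_option maxHeartbeats 400000

/-!
The groups `P = K T`.
-/

namespace H54.Setup

open Subgroup H54.PreComp H52.PRes H52.PCore H52.Syl H52.Sub H54.JTh
open H54.MaxEA H54.WOf H54.KP
open scoped commutatorElement

universe u

variable {G : Type u} [Group G] [Finite G]

local notation "O₂" => Cfsg.pCoreOf 2
local notation "ΩZ" => Cfsg.omegaCenterOf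
local notation "wOf" => Cfsg.wOf
local notation "JT" => Cfsg.thompsonSubgroupOf 2

namespace One

variable {T K L : Subgroup G}

theorem J2 (o : One T K L) : IsPGroup 2 (JT T) := o.s.isPGroup.to_le (H13.SylowN.thompsonOf_le T)

theorem T1 (o : One T K L) : T ≠ ⊥ := by
  intro h
  have h1 := (o.c.card_two o.J2).1
  have h2 : ΩZ (JT T) ⊓ wOf K ≤ T := (inf_le_left.trans (omega_le _)).trans
    (H13.SylowN.thompsonOf_le T)
  have h3 : ΩZ (JT T) ⊓ wOf K = ⊥ := le_bot_iff.mp (h2.trans h.le)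
  rw [h3, card_bot] at h1
  omega

theorem exists_lh (hg : Glob G) (o : One T K L) : ∃ V, LH L T V (JT T) := by
  obtain ⟨S₀, hS₀⟩ := o.s.isPGroup.exists_le_sylow
  exact ⟨_, hg.lh o.s o.T1 (hg.char2 o.u.mx.1) S₀ hS₀⟩

theorem T_norm (hg : Glob G) (o : One T K L) : T ≤ normalizer (K : Set G) := by
  obtain ⟨V, hlh⟩ := o.exists_lh hg
  have hW := hlh.comm_eq_wOf o.u.KL o.c.pre o.c.card
  obtain ⟨z, hz, hz1, -⟩ := card_le_two_exists (o.c.card_two o.J2).1
  have hzT : z ∈ ΩZ T := by rw [o.zz]; exact (Subgroup.mem_inf.mp hz).1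
  intro x hx
  refine hlh.mem_normalizer_of_fix o.u.KL o.c.pre (o.s.le hx) (hlh.T_le_norm hx) (z := z)
    (by rw [hW]; exact (Subgroup.mem_inf.mp hz).2) hz1 ?_
  rw [conj_omega_fix hx hzT, hW]
  exact (Subgroup.mem_inf.mp hz).2

theorem core_K_le (hg : Glob G) (o : One T K L) : O₂ K ≤ T := by
  obtain ⟨V, hlh⟩ := o.exists_lh hg
  exact (hlh.core_le_core o.u.KL o.c.pre).trans o.s.pCoreOf_le

theorem P_le (o : One T K L) : K ⊔ T ≤ L := sup_le o.u.KL o.s.le

theorem syl_P (o : One T K L) : SylIn 2 T (K ⊔ T) := o.s.of_le le_sup_right o.P_le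

theorem core_L_le (o : One T K L) : O₂ L ≤ O₂ (K ⊔ T) := by
  apply le_pCoreOf (o.s.pCoreOf_le.trans le_sup_right) _ (isPGroup_pCoreOf L)
  exact o.P_le.trans (le_normalizer_pCoreOf L)

theorem charP (hg : Glob G) (o : One T K L) :
    centralizer ((O₂ (K ⊔ T) : Subgroup G) : Set G) ≤ O₂ (K ⊔ T) :=
  ((centralizer_le o.core_L_le).trans (hg.char2 o.u.mx.1)).trans o.core_L_le

theorem inf_eq (hg : Glob G) (o : One T K L) : K ⊓ T = O₂ K := by
  apply le_antisymm _ (le_inf (pCoreOf_le K) (o.core_K_le hg))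
  rcases Ord3.eq_or_eq_of_relIndex_prime (p := 3) Nat.prime_three
    (le_inf (pCoreOf_le K) (o.core_K_le hg)) inf_le_left o.c.pre.idx with h1 | h1
  · exact h1.le
  · exfalso
    apply o.c.pre.card_ne
    rw [← h1]
    exact o.s.isPGroup.to_le inf_le_right

/-- the kernel of the action of `T` on `K/O_2(K)` -/
theorem core_P (hg : Glob G) (o : One T K L) :
    O₂ (K ⊔ T) = T ⊓ H13.Quad.actTriv K (O₂ K) ∧
      (T ⊓ H13.Quad.actTriv K (O₂ K)).relIndex T = 2 := by
  have hTK := o.T_norm hg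
  set Q := T ⊓ H13.Quad.actTriv K (O₂ K) with hQ
  have hnot : ¬ T ≤ H13.Quad.actTriv K (O₂ K) := by
    intro h
    apply o.c.pre.card_ne
    apply (isPGroup_pCoreOf K).to_le
    calc K = ⁅K, JT T⁆ := o.c.pre.comm.symm
      _ ≤ ⁅K, H13.Quad.actTriv K (O₂ K)⁆ :=
        commutator_mono le_rfl ((H13.SylowN.thompsonOf_le T).trans h)
      _ ≤ _ := H13.Quad.commutator_actTriv_le _ _
  have hidx : Q.relIndex T = 2 := o.c.pre.toKP.relIndex_actTriv hTK hnot
  refine ⟨?_, hidx⟩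
  have hPQ : O₂ K ≤ Q := by
    refine le_inf (o.core_K_le hg) ?_
    apply KP.actTriv_le _ ((pCoreOf_le K).trans Subgroup.le_normalizer)
    exact H1.Coprime2.commutator_le_right (le_normalizer_pCoreOf K)
  have hKQ : K ≤ normalizer (Q : Set G) := by
    apply H54.Basic.le_normalizer_of_conj
    intro k hk q hq
    have h1 := (H13.Quad.mem_actTriv.mp (Subgroup.mem_inf.mp hq).2).2.2 k hk
    have e : k * q * k⁻¹ = ⁅k, q⁆ * q := by rw [commutatorElement_def]; group
    rw [e]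
    exact mul_mem (hPQ h1) hq
  have hTQ : T ≤ normalizer (Q : Set G) := by
    apply H1.Coprime2.le_normalizer_inf Subgroup.le_normalizer
    exact H13.Quad.le_normalizer_actTriv hTK (hTK.trans (normalizer_le_normalizer_pCoreOf K))
  have h1 : Q ≤ O₂ (K ⊔ T) := le_pCoreOf (inf_le_left.trans le_sup_right) (sup_le hKQ hTQ)
    (o.s.isPGroup.to_le inf_le_left)
  rcases Ord3.eq_or_eq_of_relIndex_prime Nat.prime_two h1 o.syl_P.pCoreOf_le hidx with h2 | h2
  · exact h2
  · exfalso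
    apply hnot
    apply KP.actTriv_le _ hTK
    rw [← o.inf_eq hg]
    refine le_inf (H1.Coprime2.commutator_le_left hTK) ?_
    have h3 : K ⊔ T ≤ normalizer (T : Set G) := by
      have := le_normalizer_pCoreOf (p := 2) (K ⊔ T)
      rwa [h2] at this
    exact H1.Coprime2.commutator_le_right (le_sup_left.trans h3)

theorem idx_core (hg : Glob G) (o : One T K L) : (O₂ (K ⊔ T)).relIndex (K ⊔ T) = 6 := by
  obtain ⟨h1, h2⟩ := o.core_P hg
  have h3 : (O₂ (K ⊔ T)).relIndex T = 2 := by rw [h1]; exact h2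
  have h4 : T.relIndex (K ⊔ T) = 3 := by
    have h5 := H13.Thompson.card_sup_mul_card_inf (A := T) (B := K) (o.T_norm hg)
    have h6 := H13.Replace.card_eq_mul_relIndex (le_sup_right : T ≤ K ⊔ T)
    have h7 := H13.Replace.card_eq_mul_relIndex (pCoreOf_le (p := 2) K)
    rw [o.c.pre.idx] at h7
    rw [inf_comm, o.inf_eq hg, sup_comm, h6, h7] at h5
    have hpos : 0 < Nat.card T * Nat.card (O₂ K) := Nat.mul_pos Nat.card_pos Nat.card_pos
    apply Nat.eq_of_mul_eq_mul_left hpos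
    linarith
  rw [← relIndex_mul_relIndex (O₂ (K ⊔ T)) T (K ⊔ T) (by rw [h1]; exact inf_le_left) le_sup_right,
    h3, h4]

theorem nonab (_hg : Glob G) (o : One T K L) : ¬ ⁅K ⊔ T, K ⊔ T⁆ ≤ O₂ (K ⊔ T) := by
  intro h
  apply o.c.pre.card_ne
  apply (isPGroup_pCoreOf (K ⊔ T)).to_le
  calc K = ⁅K, JT T⁆ := o.c.pre.comm.symm
    _ ≤ ⁅K ⊔ T, K ⊔ T⁆ := commutator_mono le_sup_left
      ((H13.SylowN.thompsonOf_le T).trans le_sup_right)
    _ ≤ _ := h

theorem active (o : One T K L) : ¬ K ⊔ T ≤ centralizer ((ΩZ T : Subgroup G) : Set G) := by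
  intro h
  obtain ⟨z, hz, hz1, -⟩ := card_le_two_exists (o.c.card_two o.J2).1
  have h1 : z ∈ wOf K ⊓ centralizer (K : Set G) := by
    refine Subgroup.mem_inf.mpr ⟨(Subgroup.mem_inf.mp hz).2, ?_⟩
    have h2 : K ≤ centralizer ((ΩZ T : Subgroup G) : Set G) := le_sup_left.trans h
    rw [le_centralizer_iff] at h2
    apply h2
    rw [o.zz]; exact (Subgroup.mem_inf.mp hz).1
  rw [wOf_inf o.c.pre.toKP, mem_bot] at h1
  exact hz1 h1

theorem uniqueP (o : One T K L) (L' : Subgroup G) (hL' : Cfsg.IsMaximalTwoLocal L')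
    (h : K ⊔ T ≤ L') : L' = L :=
  o.u.uniq L' hL' (le_sup_left.trans h)
    ((H13.SylowN.thompsonOf_le T).trans (le_sup_right.trans h))

end One

namespace Two

variable {T K L K₂ L₂ : Subgroup G}

theorem core_bot (t : Two T K L K₂ L₂) : O₂ ((K ⊔ T) ⊔ (K₂ ⊔ T)) = ⊥ := by
  by_contra hne
  obtain ⟨L', hL', hle⟩ := exists_maxTwoLocal (isTwoLocal_norm (isPGroup_pCoreOf _) hne)
  have h1 := (le_normalizer_pCoreOf (p := 2) ((K ⊔ T) ⊔ (K₂ ⊔ T))).trans hle
  apply t.ne
  rw [← t.one.uniqueP L' hL' (le_sup_left.trans h1), ← t.two.uniqueP L' hL' (le_sup_right.trans h1)]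

theorem K_ne (t : Two T K L K₂ L₂) : K ≠ K₂ := by
  intro h
  apply t.ne
  have h1 := t.two.u.uniq L t.one.u.mx (by rw [← h]; exact t.one.u.KL) t.one.u.JL
  exact h1

end Two

end H54.Setup
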