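import Cfsg.Agent.Lib.H54.Inst

set_option autoImplicit false
set_option linter.dupNamespace false
set_option linter.unusedSectionVars false
set_option maxHeartbeats 400000

/-!
Two components for a subgroup smaller than a Sylow subgroup.
-/

namespace H54.Setup

open Subgroup H54.PreComp H52.PRes H52.PCore H52.Syl H52.Sub H54.JTh
open H54.MaxEA H54.WOf H54.KP
open scoped commutatorElement

universe u

variable {G : Type u} [Group G] [Finite G]

local notation "O₂" => Cfsg.pCoreOf 2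
local notation "ΩZ" => Cfsg.omegaCenterOf
local notation "wOf" => Cfsg.wOf
local notation "JT" => Cfsg.thompsonSubgroupOf 2

theorem ea_sq {V : Subgroup G} (hV : Cfsg.IsElementaryAbelian 2 V) {v : G} (hv : v ∈ V) :
    v * v = 1 := by
  have := (H13.ElemAb.iff_le_centralizer.mp hV).2 v hv
  rwa [pow_two] at this

/-- elements of a group of order four -/
theorem four_elts {W : Subgroup G} (hW : Cfsg.IsElementaryAbelian 2 W) (h4 : Nat.card W = 4)
    {a b : G} (ha : a ∈ W) (hb : b ∈ W) (ha1 : a ≠ 1) (hb1 : b ≠ 1) (hab : a ≠ b) :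
    ∀ c ∈ W, c = 1 ∨ c = a ∨ c = b ∨ c = a * b := by
  have haa : a * a = 1 := ea_sq hW ha
  have hbb : b * b = 1 := ea_sq hW hb
  have hcab : Commute a b := H13.ElemAb.comm hW ha hb
  have hca : a ∈ centralizer ((⊥ : Subgroup G) : Set G) := by
    rw [mem_centralizer_iff]; intro x hx; rw [SetLike.mem_coe, mem_bot] at hx; rw [hx]; simp
  have hA : ∀ y ∈ (⊥ : Subgroup G) ⊔ zpowers a, y = 1 ∨ y = a := by
    intro y hy
    rcases H54.Amal.mem_sup_zpowers hca haa hy with h | ⟨x, hx, h⟩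
    · left; exact mem_bot.mp h
    · right; rw [h, mem_bot.mp hx, one_mul]
  have hcb : b ∈ centralizer (((⊥ : Subgroup G) ⊔ zpowers a : Subgroup G) : Set G) := by
    rw [mem_centralizer_iff]
    intro y hy
    rcases hA y hy with h | h
    · rw [h]; simp
    · rw [h]; exact hcab.eq
  have c1 := H54.Amal.two_mul_card_le (B := (⊥ : Subgroup G)) (C := ⊥ ⊔ zpowers a) bot_le
    (x := a) (fun h => ha1 (mem_bot.mp h)) (mem_sup_right (mem_zpowers a))
  have c2 := H54.Amal.two_mul_card_le (B := (⊥ : Subgroup G) ⊔ zpowers a)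
    (C := (⊥ ⊔ zpowers a) ⊔ zpowers b) le_sup_left
    (x := b) (fun h => by
      rcases hA b h with h | h
      · exact hb1 h
      · exact hab h.symm) (mem_sup_right (mem_zpowers b))
  rw [card_bot] at c1
  have hle : ((⊥ : Subgroup G) ⊔ zpowers a) ⊔ zpowers b ≤ W := by
    refine sup_le (sup_le bot_le ?_) ?_
    · rwa [zpowers_le]
    · rwa [zpowers_le]
  have heq := eq_of_le_of_card_ge hle (by omega)
  intro c hc
  rw [← heq] at hc
  rcases H54.Amal.mem_sup_zpowers hcb hbb hc with h | ⟨x, hx, h⟩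
  · rcases hA c h with h | h
    · exact Or.inl h
    · exact Or.inr (Or.inl h)
  · rcases hA x hx with h' | h'
    · right; right; left; rw [h, h', one_mul]
    · right; right; right; rw [h, h']

/-- `K` is transitive on `wOf K` -/
theorem transitive_wOf {K : Subgroup G} (h : KP K) (h4 : Nat.card (wOf K) = 4) {a b : G}
    (ha : a ∈ wOf K) (hb : b ∈ wOf K) (ha1 : a ≠ 1) (hb1 : b ≠ 1) :
    ∃ k ∈ K, k * a * k⁻¹ = b := by
  obtain ⟨D, hDK, hD3, hDnle, hDsup⟩ := h.exists_D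
  have hfix : ∀ c ∈ wOf K, ∀ d ∈ D, d ≠ 1 → Commute d c → c = 1 := by
    intro c hc d hd hd1 hdc
    have h1 : c ∈ wOf K ⊓ centralizer (D : Set G) := by
      refine Subgroup.mem_inf.mpr ⟨hc, ?_⟩
      rw [mem_centralizer_iff]
      intro y hy
      have hz : zpowers d = D := by
        apply eq_of_le_of_card_ge ((zpowers_le).mpr hd)
        rw [hD3]
        have h2 : Nat.card (zpowers d) ∣ Nat.card D := card_dvd_of_le ((zpowers_le).mpr hd)
        rw [hD3] at h2
        rcases (Nat.dvd_prime Nat.prime_three).mp h2 with h3 | h3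
        · exfalso
          apply hd1
          rw [card_eq_one] at h3
          exact zpowers_eq_bot.mp h3
        · rw [h3]
      rw [SetLike.mem_coe, ← hz] at hy
      obtain ⟨n, rfl⟩ := mem_zpowers_iff.mp hy
      exact (hdc.zpow_left n).eq
    rw [← KP.inf_centralizer_eq hDsup (core_le_centralizer K), wOf_inf h, mem_bot] at h1
    exact h1
  obtain ⟨d, hd, hdO⟩ := Set.not_subset.mp hDnle
  have hd1 : d ≠ 1 := fun h => hdO (by rw [h]; exact one_mem _)
  have hd3 : d * d * d = 1 := by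
    have h1 : d ^ 3 = 1 := by
      have := orderOf_dvd_natCard (⟨d, hd⟩ : D)
      rw [hD3] at this
      have h2 := orderOf_dvd_iff_pow_eq_one.mp this
      simpa using congrArg Subtype.val h2
    calc d * d * d = d ^ 3 := by rw [pow_succ, pow_two]
      _ = 1 := h1
  have hKn := K_le_norm K
  have hcW : ∀ c ∈ wOf K, d * c * d⁻¹ ∈ wOf K := fun c hc =>
    (mem_normalizer_iff.mp (hKn (hDK hd)) c).mp hc
  have hne : ∀ c ∈ wOf K, c ≠ 1 → d * c * d⁻¹ ≠ c := by
    intro c hc hc1 he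
    apply hc1
    apply hfix c hc d hd hd1
    show d * c = c * d
    calc d * c = d * c * d⁻¹ * d := by group
      _ = c * d := by rw [he]
  have hne1 : ∀ c : G, c ≠ 1 → d * c * d⁻¹ ≠ 1 := by
    intro c hc he
    apply hc
    calc c = d⁻¹ * (d * c * d⁻¹) * d := by group
      _ = 1 := by rw [he]; group
  set a' := d * a * d⁻¹ with ha'
  have ha'W := hcW a ha
  have ha'1 := hne1 a ha1
  rcases four_elts (isEA_wOf K) h4 ha ha'W ha1 ha'1 (fun h => hne a ha ha1 h.symm) b hb with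
    h1 | h1 | h1 | h1
  · exact absurd h1 hb1
  · exact ⟨1, one_mem _, by rw [h1]; group⟩
  · exact ⟨d, hDK hd, h1.symm⟩
  · -- d a' d⁻¹ is neither a' nor a nor 1
    rcases four_elts (isEA_wOf K) h4 ha ha'W ha1 ha'1 (fun h => hne a ha ha1 h.symm)
      (d * a' * d⁻¹) (hcW a' ha'W) with h2 | h2 | h2 | h2
    · exact absurd h2 (hne1 a' ha'1)
    · exfalso
      apply hne a ha ha1
      -- d² a d⁻² = a, d³ = 1
      have h3 : d * (d * a' * d⁻¹) * d⁻¹ = a := by
        rw [ha']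
        calc d * (d * (d * a * d⁻¹) * d⁻¹) * d⁻¹ = (d * d * d) * a * (d * d * d)⁻¹ := by group
          _ = a := by rw [hd3]; group
      rw [h2] at h3
      exact h3
    · exact absurd h2 (hne a' ha'W ha'1)
    · refine ⟨d * d, K.mul_mem (hDK hd) (hDK hd), ?_⟩
      rw [h1, ← h2, ha']; group

theorem le_or_le {V A B : Subgroup G} (h : ∀ v ∈ V, v ∈ A ∨ v ∈ B) : V ≤ A ∨ V ≤ B := by
  by_contra hcon
  push Not at hcon
  obtain ⟨h1, h2⟩ := hcon
  obtain ⟨a, ha, haA⟩ := Set.not_subset.mp h1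
  obtain ⟨b, hb, hbB⟩ := Set.not_subset.mp h2
  have haB : a ∈ B := (h a ha).resolve_left haA
  have hbA : b ∈ A := (h b hb).resolve_right hbB
  rcases h (a * b) (V.mul_mem ha hb) with h3 | h3
  · exact haA ((A.mul_mem_cancel_right hbA).mp h3)
  · exact hbB ((B.mul_mem_cancel_left haB).mp h3)

theorem two_false (hg : Glob G) {T K L K₂ L₂ : Subgroup G} (t : Two T K L K₂ L₂)
    {S : Sylow 2 G} (hTS : T ≤ S) (hne : T ≠ S) {V K₀ : Subgroup G} (hKP : KP K₀)
    (hW4 : Nat.card (wOf K₀) = 4) (hV : Cfsg.IsElementaryAbelian 2 V)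
    (hSV : (S : Subgroup G) ≤ normalizer (V : Set G)) (hVS : V ≤ S) (hWV : wOf K₀ ≤ V) :
    False := by
  obtain ⟨r, h⟩ := t.amj hg
  have o := t.one
  have o₂ := t.two
  obtain ⟨hZ2, -⟩ := case1 hg o.u o.s o.c hTS hne
  obtain ⟨x, hxS, hxT, hxL⟩ := exists_x o.s hTS hne
  obtain ⟨hZT, hTZ₀⟩ := omega_le_omega hg o.s o.u.mx.1 hTS
  have hQ1T := o.syl_P.pCoreOf_le
  have hQ2T := o₂.syl_P.pCoreOf_le
  have hinf : O₂ (K ⊔ T) ⊓ O₂ (K₂ ⊔ T) = ΩZ T := h.inf_eq_Z true
  have hZQ1 : ΩZ T ≤ O₂ (K ⊔ T) := by rw [← hinf]; exact inf_le_left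
  have hZQ2 : ΩZ T ≤ O₂ (K₂ ⊔ T) := by rw [← hinf]; exact inf_le_right
  have hinv : ∀ t ∈ T, t * t = 1 → t ∈ O₂ (K ⊔ T) ∨ t ∈ O₂ (K₂ ⊔ T) :=
    fun t ht h2 => h.invol true ht h2
  have hQsq : ∀ q ∈ O₂ (K ⊔ T), q * q = 1 := fun q hq => h.sq_one true hq
  have ne1 : O₂ (K ⊔ T) ≠ ⊥ := by
    intro hb
    obtain ⟨r, hr, hr1, -⟩ := o.exists_r
    apply hr1
    have := hZQ1 (Subgroup.mem_inf.mp hr).1
    rwa [hb, mem_bot] at this
  have ne2 : O₂ (K₂ ⊔ T) ≠ ⊥ := by
    intro hb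
    obtain ⟨r, hr, hr1, -⟩ := o₂.exists_r
    apply hr1
    have := hZQ2 (Subgroup.mem_inf.mp hr).1
    rwa [hb, mem_bot] at this
  have hN1 : normalizer ((O₂ (K ⊔ T) : Subgroup G) : Set G) ≤ L :=
    o.u.le_of_twoLocal (isTwoLocal_norm (isPGroup_pCoreOf _) ne1)
      (le_sup_left.trans (le_normalizer_pCoreOf _))
      (((H13.SylowN.thompsonOf_le T).trans le_sup_right).trans (le_normalizer_pCoreOf _))
  have hN2 : normalizer ((O₂ (K₂ ⊔ T) : Subgroup G) : Set G) ≤ L₂ :=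
    o₂.u.le_of_twoLocal (isTwoLocal_norm (isPGroup_pCoreOf _) ne2)
      (le_sup_left.trans (le_normalizer_pCoreOf _))
      (((H13.SylowN.thompsonOf_le T).trans le_sup_right).trans (le_normalizer_pCoreOf _))
  -- subgroups of `S` inside `L` containing ... are in `T`
  have hsylL : ∀ X : Subgroup G, X ≤ S → X ≤ L → T ≤ X → X ≤ T := by
    intro X hXS hXL hTX
    exact (o.s.max hXL (S.isPGroup'.to_le hXS) hTX).le
  have hsylL₂ : ∀ X : Subgroup G, X ≤ S → X ≤ L₂ → T ≤ X → X ≤ T := by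
    intro X hXS hXL hTX
    exact (o₂.s.max hXL (S.isPGroup'.to_le hXS) hTX).le
  -- x swaps
  have hswap : cj x (O₂ (K ⊔ T)) = O₂ (K₂ ⊔ T) := by
    have h1 : cj x (O₂ (K ⊔ T)) ≤ T := by
      have := cj_mono (g := x) hQ1T
      rwa [cj_eq_of_mem_normalizer hxT] at this
    rcases le_or_le (V := cj x (O₂ (K ⊔ T))) (A := O₂ (K ⊔ T)) (B := O₂ (K₂ ⊔ T)) (by
      intro v hv
      apply hinv v (h1 hv)
      rw [mem_cj] at hv
      have h2 := hQsq _ hv
      calc v * v = x * ((x⁻¹ * v * x) * (x⁻¹ * v * x)) * x⁻¹ := by group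
        _ = 1 := by rw [h2]; group) with h2 | h2
    · exfalso
      exact hxL (hN1 (mem_normalizer_of_cj_le h2))
    · apply eq_of_le_of_card_ge h2
      have c1 := H13.Replace.card_eq_mul_relIndex hQ1T
      have c2 := H13.Replace.card_eq_mul_relIndex hQ2T
      rw [o.idxQ hg] at c1
      rw [o₂.idxQ hg] at c2
      rw [card_cj]
      omega
  have hZsV : ΩZ (S : Subgroup G) ≤ V := by
    have hVb : V ≠ ⊥ := by
      intro hb
      rw [hb, le_bot_iff] at hWV
      rw [hWV, card_bot] at hW4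
      omega
    have h1 := fix_ne_bot S.isPGroup' (S.isPGroup'.to_le hVS) hSV hVb
    obtain ⟨v, hv1⟩ := Subgroup.ne_bot_iff_exists_ne_one.mp h1
    obtain ⟨z, hz, hz1, hzall⟩ := card_le_two_exists hZ2
    have hv' := Subgroup.mem_inf.mp v.2
    have h2 : (v : G) ∈ ΩZ (S : Subgroup G) := by
      rw [mem_omega]
      exact ⟨hVS hv'.1, hv'.2, by rw [pow_two]; exact ea_sq hV hv'.1⟩
    intro y hy
    rcases hzall y hy with h3 | h3
    · rw [h3]; exact one_mem _
    · rcases hzall _ h2 with h4 | h4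
      · exfalso
        apply hv1
        exact Subtype.ext h4
      · rw [h3, ← h4]; exact hv'.1
  have hVnle : ¬ V ≤ ΩZ (S : Subgroup G) := by
    intro hcon
    have h1 := card_le_of_le (hWV.trans hcon)
    rw [hW4, hZ2] at h1
    omega
  obtain ⟨u, huV, huZ, hus⟩ := exists_comm_mem (p := 2) S.isPGroup' (S.isPGroup'.to_le hVS) hSV
    hVnle
  have huS : u ∈ (S : Subgroup G) := hVS huV
  have hTn : T ≤ normalizer (T : Set G) := Subgroup.le_normalizer
  have hnormQ : ∀ A : Subgroup G, A ≤ T → ΩZ T ≤ A → u ∈ normalizer (A : Set G) := by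
    intro A hAT hZA
    apply mem_normalizer_of_cj_le
    intro y hy
    rw [mem_cj] at hy
    have h1 := hus _ (hTS (hAT hy))
    have e : y = ⁅u, u⁻¹ * y * u⁆ * (u⁻¹ * y * u) := by
      rw [commutatorElement_def]; group
    rw [e]
    exact A.mul_mem (hZA (hZT h1)) hy
  have huT : u ∈ T := by
    have h1 : u ∈ L := hN1 (hnormQ _ hQ1T hZQ1)
    have h2 := hsylL (T ⊔ zpowers u) (sup_le hTS ((zpowers_le).mpr huS))
      (sup_le o.s.le ((zpowers_le).mpr h1)) le_sup_left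
    exact h2 (mem_sup_right (mem_zpowers u))
  have hxu : ∀ A : Subgroup G, ΩZ T ≤ A → ∀ y ∈ (S : Subgroup G), (y⁻¹ * u * y ∈ A ↔ u ∈ A) := by
    intro A hZA y hy
    have h1 := hZA (hZT (hus _ ((S : Subgroup G).inv_mem hy)))
    have e : y⁻¹ * u * y = ⁅u, y⁻¹⁆⁻¹ * u := by rw [commutatorElement_def]; group
    rw [e]
    exact A.mul_mem_cancel_left (A.inv_mem h1)
  have huZT : u ∈ ΩZ T := by
    rw [← hinf]
    rcases hinv u huT (ea_sq hV huV) with h1 | h1
    · refine Subgroup.mem_inf.mpr ⟨h1, ?_⟩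
      rw [← hxu _ hZQ2 x⁻¹ ((S : Subgroup G).inv_mem hxS), ← hswap, mem_cj]
      have e : x⁻¹ * (x⁻¹⁻¹ * u * x⁻¹) * x = u := by group
      rw [e]; exact h1
    · refine Subgroup.mem_inf.mpr ⟨?_, h1⟩
      rw [← hxu _ hZQ1 x hxS]
      rw [← hswap, mem_cj] at h1
      exact h1
  -- order of ΩZ T
  have hcard : Nat.card (ΩZ T) ≤ 4 := by rw [o.zz]; exact t.card
  have c1 := H54.Amal.two_mul_card_le hZT huZ huZT
  rw [hZ2] at c1
  have hc4 : Nat.card (ΩZ T) = 4 := by omega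
  have huc : u ∈ centralizer ((ΩZ (S : Subgroup G) : Subgroup G) : Set G) :=
    le_centralizer_omega (S : Subgroup G) huS
  have hZeq : ΩZ (S : Subgroup G) ⊔ zpowers u = ΩZ T := by
    apply eq_of_le_of_card_ge (sup_le hZT ((zpowers_le).mpr huZT))
    have := H54.Amal.two_mul_card_le (B := ΩZ (S : Subgroup G))
      (C := ΩZ (S : Subgroup G) ⊔ zpowers u) le_sup_left huZ (mem_sup_right (mem_zpowers u))
    rw [hZ2] at this
    omega
  have hZTV : ΩZ T ≤ V := by
    rw [← hZeq]; exact sup_le hZsV ((zpowers_le).mpr huV)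
  have hcc := o.c.card_Z₀ o.J2
  rw [← o.zz, hc4] at hcc
  have hcc2 : Nat.card ↥(ΩZ T ⊓ centralizer (K : Set G)) = 2 := by omega
  obtain ⟨c, hc, hc1, -⟩ := card_le_two_exists hcc2
  have hcZ := (Subgroup.mem_inf.mp hc).1
  have hcJ : c ∈ ΩZ (JT T) ⊓ centralizer (K : Set G) := by rw [← o.zz]; exact hc
  have hVT : V ≤ T := by
    have hVL : V ≤ L := by
      intro v hv
      apply cent_le o.u hcJ hc1
      have h1 : Commute v c := H13.ElemAb.comm hV hv (hZTV hcZ)
      rw [h1.eq]; group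
    have h2 := hsylL (T ⊔ V) (sup_le hTS hVS) (sup_le o.s.le hVL) le_sup_left
    exact le_sup_right.trans h2
  have hxV : x ∈ normalizer (V : Set G) := hSV hxS
  have hVZ : V ≤ ΩZ T := by
    rw [← hinf]
    rcases le_or_le (V := V) (A := O₂ (K ⊔ T)) (B := O₂ (K₂ ⊔ T))
      (fun v hv => hinv v (hVT hv) (ea_sq hV hv)) with h1 | h1
    · refine le_inf h1 ?_
      have := cj_mono (g := x) h1
      rwa [cj_eq_of_mem_normalizer hxV, hswap] at this
    · refine le_inf ?_ h1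
      rw [← hswap, ← inv_inv x, ← cj_le_iff] at h1
      rwa [cj_eq_of_mem_normalizer (inv_mem hxV)] at h1
  have hWc : wOf K₀ = ΩZ T := eq_of_le_of_card_ge (hWV.trans hVZ) (by rw [hW4, hc4])
  obtain ⟨z, hz, hz1, hzall⟩ := card_le_two_exists hZ2
  obtain ⟨k, hk, hkc⟩ := transitive_wOf hKP hW4 (a := z) (b := c) (by rw [hWc]; exact hZT hz)
    (by rw [hWc]; exact hcZ) hz1 hc1
  exact Zconj hg o.J2 o.c hzall (g := k) (by rw [hkc]; exact hcJ)

end H54.Setup
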