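import Cfsg.Agent.Lib.H54.Final
import Cfsg.Agent.Lib.H98.DicksonIdent
import Cfsg.Agent.Lib.H31.CycProd

set_option autoImplicit false
set_option linter.dupNamespace false
set_option linter.unusedSectionVars false
set_option maxHeartbeats 400000

/-!
The two maximal 2-local subgroups are `S₄` or `S₄ × 2`.
-/

namespace H54.Setup

open Subgroup H54.PreComp H52.PRes H52.PCore H52.Syl H52.Sub H54.JTh
open H54.MaxEA H54.WOf H54.KP
open scoped commutatorElement

universe u

variable {G : Type u} [Group G] [Finite G]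

local notation "O₂" => Cfsg.pCoreOf 2
local notation "ΩZ" => Cfsg.omegaCenterOf
local notation "wOf" => Cfsg.wOf
local notation "JT" => Cfsg.thompsonSubgroupOf 2

/-- data of one side -/
structure Sd (T K L : Subgroup G) : Prop where
  o : One T K L
  Q : O₂ (K ⊔ T) = wOf K ⊔ ΩZ T
  card : Nat.card (ΩZ T) ≤ 4
  y : ∃ y ∈ T, y ∉ O₂ (K ⊔ T) ∧ y * y = 1

theorem Two.sd (hg : Glob G) {T K L K₂ L₂ : Subgroup G} (t : Two T K L K₂ L₂) :
    Sd T K L ∧ Sd T K₂ L₂ := by
  obtain ⟨r, h⟩ := t.amj hg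
  have hc : Nat.card (ΩZ T) ≤ 4 := by rw [t.one.zz]; exact t.card
  constructor
  · refine ⟨t.one, by simpa using h.Q_eq true, hc, ?_⟩
    obtain ⟨y, hy, hyQ⟩ := h.exists_y false
    exact ⟨y, (h.side false).YT hy, by simpa using hyQ, (h.side false).Ysq y hy⟩
  · refine ⟨t.two, by simpa using h.Q_eq false, hc, ?_⟩
    obtain ⟨y, hy, hyQ⟩ := h.exists_y true
    exact ⟨y, (h.side true).YT hy, by simpa using hyQ, (h.side true).Ysq y hy⟩

namespace Sd

variable {T K L : Subgroup G}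

/-- the central part -/
abbrev Cn (T K : Subgroup G) : Subgroup G := ΩZ T ⊓ centralizer (K : Set G)

theorem card_Z (s : Sd T K L) : Nat.card (ΩZ T) = Nat.card (Cn T K) * 2 := by
  have := s.o.c.card_Z₀ s.o.J2
  rw [← s.o.zz] at this
  exact this

theorem card_C (s : Sd T K L) : Nat.card (Cn T K) ≤ 2 := by
  have h1 := s.card_Z
  have h2 := s.card
  omega

theorem Z_eq (s : Sd T K L) : Cn T K ⊔ (ΩZ T ⊓ wOf K) = ΩZ T := by
  apply le_antisymm (sup_le inf_le_left inf_le_left)
  have h := s.o.c.split_eq s.o.J2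
  rw [← s.o.zz] at h
  conv_lhs => rw [← h]
  refine sup_le_sup_right (inf_le_inf_left _ ?_) _
  intro x hx
  exact centralizer_le (SetLike.coe_subset_coe.2 le_sup_left) (Subgroup.mem_inf.mp hx).2

theorem Q_eq (s : Sd T K L) : O₂ (K ⊔ T) = wOf K ⊔ Cn T K := by
  rw [s.Q]
  conv_lhs => rw [← s.Z_eq]
  apply le_antisymm
  · exact sup_le le_sup_left (sup_le le_sup_right (inf_le_right.trans le_sup_left))
  · exact sup_le le_sup_left (le_sup_left.trans le_sup_right)

theorem ea (s : Sd T K L) : Cfsg.IsElementaryAbelian 2 (O₂ (K ⊔ T)) := by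
  rw [s.Q]
  exact H13.ElemAb.sup (isEA_wOf K) (isEA_omega T) s.o.W_cent

theorem ab (s : Sd T K L) : O₂ (K ⊔ T) ≤ centralizer ((O₂ (K ⊔ T) : Subgroup G) : Set G) :=
  H13.ElemAb.le_centralizer s.ea

theorem Cn_inf (s : Sd T K L) : Cn T K ⊓ wOf K = ⊥ := by
  rw [eq_bot_iff, ← wOf_inf s.o.c.pre.toKP]
  intro x hx
  obtain ⟨h1, h2⟩ := Subgroup.mem_inf.mp hx
  exact Subgroup.mem_inf.mpr ⟨h2, (Subgroup.mem_inf.mp h1).2⟩

theorem card_Q (s : Sd T K L) : Nat.card (O₂ (K ⊔ T)) = 4 * Nat.card (Cn T K) := by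
  have h1 := H13.Thompson.card_sup_mul_card_inf (A := Cn T K) (B := wOf K)
    (by
      refine le_trans ?_ (H52.Syl.centralizer_le_normalizer _)
      rw [le_centralizer_iff]
      exact s.o.W_cent.trans (centralizer_le (SetLike.coe_subset_coe.2 inf_le_left)))
  rw [s.Cn_inf, card_bot, mul_one, sup_comm, ← s.Q_eq, s.o.c.card] at h1
  omega

theorem core_L (hg : Glob G) (s : Sd T K L) : O₂ L = O₂ (K ⊔ T) := by
  apply le_antisymm s.o.core_L_le
  have h1 := hg.char2 s.o.u.mx.1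
  exact (s.ab.trans (centralizer_le (SetLike.coe_subset_coe.2 s.o.core_L_le))).trans h1

theorem comp_unique (hg : Glob G) (s : Sd T K L) {K' : Subgroup G} (hK' : PreComp (JT T) K')
    (hle : K' ≤ L) : K' = K := by
  obtain ⟨V, h⟩ := s.o.exists_lh hg
  by_contra hne
  have h1 : ⁅V, K⁆ ⊓ ⁅V, K'⁆ = ⊥ := by
    by_contra hcon
    exact hne (h.eq_of_inf_ne s.o.u.KL hle s.o.c.pre hK' hcon).symm
  have hVQ : V ≤ O₂ (K ⊔ T) := by rw [← s.core_L hg]; exact h.V_le_core
  have hc1 := h.card_comm s.o.u.KL s.o.c.pre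
  have hc2 := h.card_comm hle hK'
  have hle1 : ⁅V, K⁆ ≤ V := H1.Coprime2.commutator_le_left (s.o.u.KL.trans h.L_le_norm)
  have hle2 : ⁅V, K'⁆ ≤ V := H1.Coprime2.commutator_le_left (hle.trans h.L_le_norm)
  have h2 := H13.Thompson.card_sup_mul_card_inf (A := ⁅V, K⁆) (B := ⁅V, K'⁆)
    (by
      refine le_trans ?_ (H52.Syl.centralizer_le_normalizer _)
      exact (hle1.trans hVQ).trans (s.ab.trans
        (centralizer_le (SetLike.coe_subset_coe.2 (hle2.trans hVQ)))))
  rw [h1, card_bot, mul_one, hc1, hc2] at h2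
  have h3 := card_le_of_le ((sup_le hle1 hle2).trans hVQ)
  have h4 := s.card_Q
  have h5 := s.card_C
  omega

theorem L_le (hg : Glob G) (s : Sd T K L) : L ≤ normalizer (K : Set G) := by
  obtain ⟨V, h⟩ := s.o.exists_lh hg
  refine h.gen_top.trans (sup_le ?_ ?_)
  · refine iSup_le fun K' => iSup_le fun hK' => ?_
    rw [s.comp_unique hg hK'.1 hK'.2]
    exact Subgroup.le_normalizer
  · intro x hx
    obtain ⟨hxL, hxJ⟩ := Subgroup.mem_inf.mp hx
    have hKx : PreComp (JT T) (cj x K) := by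
      have := s.o.c.pre.map_conj x
      rwa [(H54.Basic.map_conj_eq_iff x (JT T)).mpr hxJ] at this
    have hKxL : cj x K ≤ L := by
      have := cj_mono (g := x) s.o.u.KL
      rwa [cj_of_mem hxL] at this
    exact mem_normalizer_of_cj_eq (s.comp_unique hg hKx hKxL)

theorem Cn_eq (s : Sd T K L) : Cn T K = O₂ (K ⊔ T) ⊓ centralizer (K : Set G) := by
  apply Subgroup.eq_of_le_of_card_ge
  · exact inf_le_inf_right _ (by rw [s.Q]; exact le_sup_right)
  · have h1 := H13.Thompson.card_sup_mul_card_inf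
      (A := O₂ (K ⊔ T) ⊓ centralizer (K : Set G)) (B := wOf K)
      (by
        refine le_trans ?_ (H52.Syl.centralizer_le_normalizer _)
        refine inf_le_left.trans (s.ab.trans (centralizer_le (SetLike.coe_subset_coe.2 ?_)))
        rw [s.Q]; exact le_sup_left)
    have h2 : (O₂ (K ⊔ T) ⊓ centralizer (K : Set G)) ⊓ wOf K = ⊥ := by
      rw [eq_bot_iff, ← wOf_inf s.o.c.pre.toKP]
      intro x hx
      obtain ⟨h1, h2⟩ := Subgroup.mem_inf.mp hx
      exact Subgroup.mem_inf.mpr ⟨h2, (Subgroup.mem_inf.mp h1).2⟩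
    rw [h2, card_bot, mul_one, s.o.c.card] at h1
    have h3 : Nat.card ↥((O₂ (K ⊔ T) ⊓ centralizer (K : Set G)) ⊔ wOf K) ≤
        Nat.card (O₂ (K ⊔ T)) := card_le_of_le (sup_le inf_le_left (by
          rw [s.Q]; exact le_sup_left))
    have h4 := s.card_Q
    omega

/-- elements of `L` centralizing `wOf K` are in `Q` -/
theorem cent_W (hg : Glob G) (s : Sd T K L) {x : G} (hxL : x ∈ L)
    (hx : x ∈ centralizer ((wOf K : Subgroup G) : Set G)) : x ∈ O₂ (K ⊔ T) := by
  have h1 : L ≤ normalizer ((Cn T K : Subgroup G) : Set G) := by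
    rw [s.Cn_eq]
    apply H1.Coprime2.le_normalizer_inf
    · rw [← s.core_L hg]; exact le_normalizer_pCoreOf L
    · exact (s.L_le hg).trans (H52.Syl.normalizer_le_normalizer_centralizer _)
  have h2 : x ∈ centralizer ((Cn T K : Subgroup G) : Set G) := by
    have hc := s.card_C
    rcases Nat.lt_or_ge (Nat.card (Cn T K)) 2 with h3 | h3
    · have h4 : Nat.card (Cn T K) = 1 := by
        have : 0 < Nat.card (Cn T K) := Nat.card_pos
        omega
      rw [Subgroup.card_eq_one] at h4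
      rw [h4, mem_centralizer_iff]
      intro y hy
      have : y = 1 := mem_bot.mp hy
      rw [this]; simp
    · obtain ⟨z, hz, hz1, hall⟩ := card_le_two_exists (le_antisymm hc h3)
      rw [mem_centralizer_iff]
      intro y hy
      rcases hall y hy with rfl | rfl
      · simp
      · have h5 := H54.Basic.mul_inv_mem_of_mem_normalizer (h1 hxL) hz
        rcases hall _ h5 with h6 | h6
        · exfalso
          apply hz1
          have : y = x⁻¹ * (x * y * x⁻¹) * x := by group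
          rw [this, h6]; group
        · rw [mul_inv_eq_iff_eq_mul] at h6
          exact h6.symm
  have h3 : x ∈ centralizer ((O₂ (K ⊔ T) : Subgroup G) : Set G) := by
    rw [s.Q_eq, H13.Replace.centralizer_sup]
    exact Subgroup.mem_inf.mpr ⟨hx, h2⟩
  rw [← s.core_L hg] at h3 ⊢
  exact hg.char2 s.o.u.mx.1 h3

theorem L_eq (hg : Glob G) (s : Sd T K L) : L = K ⊔ T := by
  apply le_antisymm _ s.o.P_le
  intro l hl
  have hLW : L ≤ normalizer ((wOf K : Subgroup G) : Set G) :=
    (s.L_le hg).trans (normalizer_le_normalizer_wOf K)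
  obtain ⟨r, hr, hr1, hall⟩ := s.o.exists_r
  have sd := s.o.side hg hr hr1 hall
  have hrW := (Subgroup.mem_inf.mp hr).2
  have h4 := s.o.c.card
  have hW := isEA_wOf K
  have hQP : O₂ (K ⊔ T) ≤ K ⊔ T := pCoreOf_le _
  -- replace `l` by an element commuting with `r`
  have h1 : l * r * l⁻¹ ∈ wOf K := H54.Basic.mul_inv_mem_of_mem_normalizer (hLW hl) hrW
  have h2 : l * r * l⁻¹ ≠ 1 := by
    intro h
    apply hr1
    have : r = l⁻¹ * (l * r * l⁻¹) * l := by group
    rw [this, h]; group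
  obtain ⟨k, hk, hkr⟩ := transitive_wOf s.o.c.pre.toKP h4 h1 hrW h2 hr1
  have hxr : (k * l) * r * (k * l)⁻¹ = r := by
    rw [← hkr]
    conv_rhs => rw [← hkr]
    group
  have hxL : k * l ∈ L := mul_mem (s.o.u.KL hk) hl
  suffices h : k * l ∈ K ⊔ T by
    have : l = k⁻¹ * (k * l) := by group
    rw [this]
    exact mul_mem (inv_mem ((le_sup_left : K ≤ K ⊔ T) hk)) h
  generalize k * l = x at hxr hxL
  -- another element
  obtain ⟨w, hw, hw1, hwr⟩ : ∃ w ∈ wOf K, w ≠ 1 ∧ w ≠ r := by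
    by_contra hcon
    push Not at hcon
    have h5 : wOf K ≤ zpowers r := by
      intro w hw
      by_cases h1 : w = 1
      · rw [h1]; exact one_mem _
      · rw [hcon w hw h1]; exact mem_zpowers r
    have h6 := card_le_of_le h5
    have h7 : r ^ 2 = 1 := (H13.ElemAb.iff_mem.mp hW).2 r hrW
    have h8 := orderOf_le_of_pow_eq_one (by norm_num) h7
    rw [Nat.card_zpowers] at h6
    omega
  have hcent : ∀ x ∈ L, x * r * x⁻¹ = r → x * w * x⁻¹ = w → x ∈ K ⊔ T := by
    intro x hxL h5 h6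
    apply hQP
    apply s.cent_W hg hxL
    rw [mem_centralizer_iff]
    intro y hy
    rw [mul_inv_eq_iff_eq_mul] at h5 h6
    rcases four_elts hW h4 hrW hw hr1 hw1 hwr.symm y hy with rfl | rfl | rfl | rfl
    · simp
    · exact h5.symm
    · exact h6.symm
    · rw [mul_assoc, ← h6, ← mul_assoc, ← h5, mul_assoc]
  have hwZ : w ∉ ΩZ T := by
    intro h
    rcases hall w (Subgroup.mem_inf.mpr ⟨h, hw⟩) with h | h
    · exact hw1 h
    · exact hwr h
  have h5 : x * w * x⁻¹ ∈ wOf K := H54.Basic.mul_inv_mem_of_mem_normalizer (hLW hxL) hw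
  rcases four_elts hW h4 hrW hw hr1 hw1 hwr.symm _ h5 with h6 | h6 | h6 | h6
  · exfalso
    apply hw1
    have : w = x⁻¹ * (x * w * x⁻¹) * x := by group
    rw [this, h6]; group
  · exfalso
    apply hwr
    have h7 : w = x⁻¹ * (x * w * x⁻¹) * x := by group
    have h8 : r = x⁻¹ * (x * r * x⁻¹) * x := by group
    rw [h7, h6]
    conv_rhs => rw [h8, hxr]
  · exact hcent x hxL hxr h6
  · obtain ⟨t, ht, htQ⟩ := sd.ne
    have hc := sd.rc w (Subgroup.mem_sup_left hw) t ht hwZ htQ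
    have htr := sd.Tr ht
    have hrr := sd.rsq
    -- `t⁻¹ x` centralizes `w`
    have hrr' : r⁻¹ = r := by rw [inv_eq_iff_mul_eq_one]; exact hrr
    have h7 : t * w * t⁻¹ = r * w := by
      have e : t * w * t⁻¹ = ⁅w, t⁆⁻¹ * w := by rw [commutatorElement_def]; group
      rw [e, hc, hrr']
    have h8 : (t⁻¹ * x) * r * (t⁻¹ * x)⁻¹ = r := by
      calc (t⁻¹ * x) * r * (t⁻¹ * x)⁻¹ = t⁻¹ * (x * r * x⁻¹) * t := by group
        _ = t⁻¹ * (r * t) := by rw [hxr]; group
        _ = r := by rw [← htr]; group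
    have h9 : (t⁻¹ * x) * w * (t⁻¹ * x)⁻¹ = w := by
      calc (t⁻¹ * x) * w * (t⁻¹ * x)⁻¹ = t⁻¹ * (x * w * x⁻¹) * t := by group
        _ = t⁻¹ * (t * w * t⁻¹) * t := by rw [h6, h7]
        _ = w := by group
    have h10 := hcent (t⁻¹ * x) (mul_mem (inv_mem (s.o.s.le ht)) hxL) h8 h9
    have : x = t * (t⁻¹ * x) := by group
    rw [this]
    exact mul_mem ((le_sup_right : T ≤ K ⊔ T) ht) h10

theorem core_K (hg : Glob G) (s : Sd T K L) : O₂ K = wOf K := by
  have hkp := s.o.c.pre.toKP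
  obtain ⟨D, hDK, hD3, hDn, hDs⟩ := hkp.exists_D
  have hQ : O₂ K ≤ O₂ (K ⊔ T) := s.o.core_K_le_Q hg
  have hU : O₂ K ≤ centralizer ((O₂ K : Subgroup G) : Set G) :=
    hQ.trans (s.ab.trans (centralizer_le (SetLike.coe_subset_coe.2 hQ)))
  have hom : ΩZ (O₂ K) = O₂ K := by
    apply le_antisymm (omega_le _)
    intro x hx
    rw [mem_omega]
    exact ⟨hx, hU hx, (H13.ElemAb.iff_mem.mp s.ea).2 x (hQ hx)⟩
  have hW : wOf K = ⁅O₂ K, K⁆ := by
    conv_rhs => rw [← hom]
    rfl
  have hsup := hkp.comm_sup (le_normalizer_pCoreOf K) (isPGroup_pCoreOf K) hU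
  rw [← hW] at hsup
  have hDW : D ≤ normalizer ((wOf K : Subgroup G) : Set G) := hDK.trans (K_le_norm K)
  have hN : wOf K ⊔ D = K := by
    apply s.o.c.pre.eq_of_pMod (sup_le ((wOf_le K).trans (pCoreOf_le K)) hDK)
    intro x hx
    refine ⟨1, ?_⟩
    have hE : (O₂ K ⊓ centralizer (K : Set G)) ≤
        normalizer ((wOf K ⊔ D : Subgroup G) : Set G) := by
      refine le_trans inf_le_right ?_
      refine le_trans (centralizer_le (SetLike.coe_subset_coe.2
        (sup_le ((wOf_le K).trans (pCoreOf_le K)) hDK))) (H52.Syl.centralizer_le_normalizer _)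
    have hK : K ≤ (wOf K ⊔ D) ⊔ (O₂ K ⊓ centralizer (K : Set G)) := by
      conv_lhs => rw [← hDs, ← hsup]
      refine sup_le (le_sup_right.trans le_sup_left) (sup_le (le_sup_left.trans le_sup_left) le_sup_right)
    obtain ⟨n, hn, e, he, rfl⟩ := (H54.Basic.mem_sup_iff hE).mp (hK hx)
    obtain ⟨he1, he2⟩ := Subgroup.mem_inf.mp he
    have hnK : n ∈ K := (sup_le ((wOf_le K).trans (pCoreOf_le K)) hDK :
      wOf K ⊔ D ≤ K) hn
    have hc : n * e = e * n := mem_centralizer_iff.mp he2 n hnK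
    have he3 : e ^ 2 = 1 := (H13.ElemAb.iff_mem.mp s.ea).2 e (hQ he1)
    have h5 : (n * e) ^ 2 ^ 1 = n * n := by
      rw [pow_one, pow_two]
      calc n * e * (n * e) = n * e * (e * n) := by rw [hc]
        _ = n * (e ^ 2) * n := by rw [pow_two]; group
        _ = n * n := by rw [he3]; group
    rw [h5]
    exact mul_mem hn hn
  have h1 := H13.Thompson.card_sup_mul_card_inf (A := D) (B := wOf K) hDW
  rw [sup_comm, hN, hD3, s.o.c.card] at h1
  have h2 := H13.Replace.card_eq_mul_relIndex (pCoreOf_le (p := 2) K)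
  rw [s.o.c.pre.idx] at h2
  symm
  apply Subgroup.eq_of_le_of_card_ge (wOf_le K)
  rw [s.o.c.card]
  have h3 : Nat.card K ≤ 12 := by
    have : 0 < Nat.card ↥(D ⊓ wOf K) := Nat.card_pos
    nlinarith
  omega

theorem card_K (hg : Glob G) (s : Sd T K L) : Nat.card K = 12 := by
  have h2 := H13.Replace.card_eq_mul_relIndex (pCoreOf_le (p := 2) K)
  rw [s.o.c.pre.idx, s.core_K hg, s.o.c.card] at h2
  omega

/-- the symmetric group -/
theorem exists_X (hg : Glob G) (s : Sd T K L) : ∃ X : Subgroup G, X ≤ K ⊔ T ∧ K ≤ X ∧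
    Nat.card X = 24 ∧ X ⊓ Cn T K = ⊥ ∧ Nonempty (X ≃* Equiv.Perm (Fin 4)) := by
  obtain ⟨y, hyT, hyQ, hy2⟩ := s.y
  have hyK : y ∈ normalizer (K : Set G) := s.o.T_norm hg hyT
  have hyn : zpowers y ≤ normalizer (K : Set G) := by rwa [zpowers_le]
  have hKT := s.o.inf_eq hg
  have hKQ := s.o.core_K_le_Q hg
  have hy1 : y ≠ 1 := fun h => hyQ (by rw [h]; exact one_mem _)
  have hz : ∀ x ∈ zpowers y, x = 1 ∨ x = y := by
    intro x hx
    obtain ⟨n, rfl⟩ := hx
    rcases Int.even_or_odd n with h | h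
    · left
      obtain ⟨m, rfl⟩ := h
      show y ^ (m + m) = 1
      rw [← two_mul, zpow_mul, zpow_two, hy2, one_zpow]
    · right
      obtain ⟨m, rfl⟩ := h
      show y ^ (2 * m + 1) = y
      rw [zpow_add, zpow_mul, zpow_two, hy2, one_zpow, one_mul, zpow_one]
  have hord : Nat.card (zpowers y) = 2 := by
    rw [Nat.card_zpowers, orderOf_eq_prime_iff]
    exact ⟨by rw [pow_two]; exact hy2, hy1⟩
  have hKy : K ⊓ zpowers y = ⊥ := by
    rw [eq_bot_iff]
    intro x hx
    obtain ⟨h1, h2⟩ := Subgroup.mem_inf.mp hx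
    rcases hz x h2 with h3 | h3
    · rw [h3]; exact one_mem _
    · exfalso
      apply hyQ
      apply hKQ
      rw [← hKT]
      rw [h3] at h1
      exact Subgroup.mem_inf.mpr ⟨h1, hyT⟩
  have hXP : K ⊔ zpowers y ≤ K ⊔ T := sup_le_sup_left (by rwa [zpowers_le]) _
  have hcard : Nat.card ↥(K ⊔ zpowers y) = 24 := by
    have h1 := H13.Thompson.card_sup_mul_card_inf (A := zpowers y) (B := K) hyn
    rw [inf_comm, hKy, card_bot, mul_one, sup_comm, hord, s.card_K hg] at h1
    omega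
  have hXC : (K ⊔ zpowers y) ⊓ Cn T K = ⊥ := by
    rw [eq_bot_iff]
    intro x hx
    obtain ⟨h1, h2⟩ := Subgroup.mem_inf.mp hx
    obtain ⟨h3, h4⟩ := Subgroup.mem_inf.mp h2
    have hxT : x ∈ T := omega_le T h3
    obtain ⟨k, hk, z, hz', rfl⟩ := (H54.Basic.mem_sup_iff hyn).mp h1
    rcases hz z hz' with rfl | rfl
    · rw [mul_one] at *
      have h5 : k ∈ wOf K := by
        rw [← s.core_K hg, ← hKT]
        exact Subgroup.mem_inf.mpr ⟨hk, hxT⟩
      rw [← wOf_inf s.o.c.pre.toKP]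
      exact Subgroup.mem_inf.mpr ⟨h5, h4⟩
    · exfalso
      apply hyQ
      have h5 : k ∈ T := by
        have := mul_mem hxT (inv_mem hyT)
        simpa using this
      have h6 : k ∈ O₂ (K ⊔ T) := by
        apply hKQ
        rw [← hKT]
        exact Subgroup.mem_inf.mpr ⟨hk, h5⟩
      have h7 : k * z ∈ O₂ (K ⊔ T) := by
        rw [s.Q]; exact Subgroup.mem_sup_right h3
      have := mul_mem (inv_mem h6) h7
      simpa using this
  have hKX : K ≤ K ⊔ zpowers y := le_sup_left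
  generalize K ⊔ zpowers y = X at hXP hcard hXC hKX
  refine ⟨X, hXP, hKX, hcard, hXC, ?_⟩
  apply H98.DicksonIdent.S4_of hcard
  intro N hN
  have hXL : X ≤ L := hXP.trans s.o.P_le
  constructor
  · intro h2
    obtain ⟨n, hn, hn1, hall⟩ := card_le_two_exists h2
    -- `n` is central in `X`
    have hcen : ∀ x : X, x * n = n * x := by
      intro x
      have h5 := hN.conj_mem n hn x
      rcases hall _ h5 with h6 | h6
      · exfalso
        apply hn1
        have : n = x⁻¹ * (x * n * x⁻¹) * x := by group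
        rw [this, h6]; group
      · rw [mul_inv_eq_iff_eq_mul] at h6
        exact h6
    have h5 : (n : G) ∈ centralizer (K : Set G) := by
      rw [mem_centralizer_iff]
      intro k hk
      exact congrArg Subtype.val (hcen ⟨k, hKX hk⟩)
    have h6 : (n : G) ∈ O₂ (K ⊔ T) := by
      apply s.cent_W hg (hXL n.2)
      exact centralizer_le (SetLike.coe_subset_coe.2 ((wOf_le K).trans (pCoreOf_le K))) h5
    have h7 : (n : G) ∈ Cn T K := by
      rw [s.Cn_eq]; exact Subgroup.mem_inf.mpr ⟨h6, h5⟩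
    have h8 : (n : G) ∈ X ⊓ Cn T K := Subgroup.mem_inf.mpr ⟨n.2, h7⟩
    rw [hXC, mem_bot] at h8
    exact hn1 (Subtype.ext h8)
  · intro h3
    have hWX : wOf K ≤ X := ((wOf_le K).trans (pCoreOf_le K)).trans hKX
    have hNW : N ⊓ (wOf K).subgroupOf X = ⊥ := by
      apply inf_eq_bot_of_coprime
      rw [h3, Nat.card_congr (subgroupOfEquivOfLe hWX).toEquiv, s.o.c.card]
      decide
    have hWn : ((wOf K).subgroupOf X).Normal := by
      rw [H52.PCore.normal_subOf_iff hWX]
      exact hXL.trans ((s.L_le hg).trans (normalizer_le_normalizer_wOf K))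
    have h5 : ∀ n ∈ N, (n : G) ∈ O₂ (K ⊔ T) := by
      intro n hn
      apply s.cent_W hg (hXL n.2)
      rw [mem_centralizer_iff]
      intro w hw
      have h6 : (⟨w, hWX hw⟩ : X) * n * (⟨w, hWX hw⟩ : X)⁻¹ * n⁻¹ ∈ N ⊓ (wOf K).subgroupOf X := by
        refine Subgroup.mem_inf.mpr ⟨mul_mem (hN.conj_mem n hn _) (inv_mem hn), ?_⟩
        have h7 : n * (⟨w, hWX hw⟩ : X)⁻¹ * n⁻¹ ∈ (wOf K).subgroupOf X :=
          hWn.conj_mem _ (inv_mem (mem_subgroupOf.mpr hw)) n
        have h8 := mul_mem (mem_subgroupOf.mpr hw : (⟨w, hWX hw⟩ : X) ∈ (wOf K).subgroupOf X) h7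
        rwa [← mul_assoc, ← mul_assoc] at h8
      rw [hNW, mem_bot] at h6
      have h9 := congrArg Subtype.val h6
      simp only [coe_mul, InvMemClass.coe_inv, OneMemClass.coe_one] at h9
      rw [mul_inv_eq_one, mul_inv_eq_iff_eq_mul] at h9
      exact h9
    obtain ⟨n, hn⟩ := exists_prime_orderOf_dvd_card' (G := N) 3 (by rw [h3])
    have h6 : ((n : X) : G) ^ 2 = 1 := (H13.ElemAb.iff_mem.mp s.ea).2 _ (h5 n n.2)
    have h7 : orderOf ((n : X) : G) = 3 := by
      rw [Subgroup.orderOf_coe, Subgroup.orderOf_coe, hn]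
    have h8 := orderOf_dvd_of_pow_eq_one h6
    rw [h7] at h8
    norm_num at h8

theorem card_P (hg : Glob G) (s : Sd T K L) :
    Nat.card ↥(K ⊔ T) = 24 * Nat.card (Cn T K) := by
  have h1 := H13.Replace.card_eq_mul_relIndex (pCoreOf_le (p := 2) (K ⊔ T))
  rw [s.o.idx_core hg, s.card_Q] at h1
  omega

theorem iso (hg : Glob G) (s : Sd T K L) :
    (Nat.card (ΩZ T) = 2 → Nonempty (↥(K ⊔ T) ≃* Equiv.Perm (Fin 4))) ∧
    (Nat.card (ΩZ T) ≠ 2 →
      Nonempty (↥(K ⊔ T) ≃* Equiv.Perm (Fin 4) × Multiplicative (ZMod 2))) := by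
  obtain ⟨X, hXP, hKX, hX, hXC, ⟨e⟩⟩ := s.exists_X hg
  have hP := s.card_P hg
  have hZ := s.card_Z
  have hC := s.card_C
  constructor
  · intro h2
    have h3 : X = K ⊔ T := by
      apply Subgroup.eq_of_le_of_card_ge hXP
      rw [hP, hX]; omega
    rw [← h3]
    exact ⟨e⟩
  · intro h2
    have hpos : 0 < Nat.card (Cn T K) := Nat.card_pos
    have hC2 : Nat.card (Cn T K) = 2 := by omega
    have hcomm : ∀ a ∈ X, ∀ b ∈ Cn T K, a * b = b * a := by
      intro a ha b hb
      have h3 : K ⊔ T ≤ centralizer ((Cn T K : Subgroup G) : Set G) := by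
        apply sup_le
        · rw [le_centralizer_iff]; exact inf_le_right
        · exact (le_centralizer_omega T).trans (centralizer_le (SetLike.coe_subset_coe.2 inf_le_left))
      exact (mem_centralizer_iff.mp (h3 (hXP ha)) b hb).symm
    have hXn : Cn T K ≤ normalizer (X : Set G) := by
      refine le_trans ?_ (H52.Syl.centralizer_le_normalizer _)
      intro b hb
      rw [mem_centralizer_iff]
      intro a ha
      exact hcomm a ha b hb
    have h4 : X ⊔ Cn T K = K ⊔ T := by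
      apply Subgroup.eq_of_le_of_card_ge
      · exact sup_le hXP (inf_le_left.trans ((omega_le T).trans le_sup_right))
      · have h5 := H13.Thompson.card_sup_mul_card_inf (A := Cn T K) (B := X) hXn
        rw [inf_comm, hXC, card_bot, mul_one, sup_comm, hX, hC2] at h5
        rw [h5, hP, hC2]
    have e₁ := H31.CycProd.prodEquiv X (Cn T K) hXC hcomm
    rw [h4] at e₁
    have : Fact (Nat.Prime 2) := ⟨Nat.prime_two⟩
    have hcyc : IsCyclic (Cn T K) := isCyclic_of_prime_card hC2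
    have e₂ : ↥(Cn T K) ≃* Multiplicative (ZMod 2) :=
      mulEquivOfPrimeCardEq (p := 2) hC2 (by simp)
    exact ⟨e₁.symm.trans (MulEquiv.prodCongr e e₂)⟩

end Sd

end H54.Setup
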