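import Cfsg.Agent.Lib.H13.FF2
import Cfsg.Agent.Lib.H13.CoprimeHyper
import Cfsg.Agent.Lib.H13.Fix
import Cfsg.Agent.Lib.H13.Quad
import Cfsg.Agent.Lib.H27.GenSub
import Cfsg.Agent.Lib.H1.Coprime2
import Cfsg.Agent.Lib.H54.Basic

set_option autoImplicit false

/-!
Transvections on an elementary abelian 2-group in a group `X` acting faithfully.
-/

namespace H54.Transv

open Subgroup H13
open scoped commutatorElement

universe u

variable {Γ : Type u} [Group Γ]

structure Faith (V X : Subgroup Γ) : Prop where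
  hV : Cfsg.IsElementaryAbelian 2 V
  hX : X ≤ normalizer (V : Set Γ)
  hf : X ⊓ centralizer (V : Set Γ) = ⊥

/-- `t` is an involution or trivial and `|V : C_V(t)| = 2` -/
def IsTv (V : Subgroup Γ) (t : Γ) : Prop :=
  t * t = 1 ∧ (V ⊓ centralizer ({t} : Set Γ)).relIndex V = 2

namespace Faith

variable {V X D Y : Subgroup Γ}

theorem hc (h : Faith V X) : V ≤ centralizer (V : Set Γ) := ElemAb.le_centralizer h.hV

theorem isPGroup (h : Faith V X) : IsPGroup 2 V := ElemAb.isPGroup h.hV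

theorem eq_bot (h : Faith V X) (hD : D ≤ X) (hDV : D ≤ centralizer (V : Set Γ)) : D = ⊥ := by
  rw [eq_bot_iff, ← h.hf]
  exact le_inf hD hDV

theorem faithful_on [Finite Γ] (h : Faith V X) (hD : D ≤ X) (hDo : (Nat.card D).Coprime 2)
    (hY : ⁅V, D⁆ ≤ Y) (_hYV : Y ≤ V) : D ⊓ centralizer (Y : Set Γ) = ⊥ := by
  set D₀ : Subgroup Γ := D ⊓ centralizer (Y : Set Γ) with hD₀
  have hle : D₀ ≤ D := inf_le_left
  have hD₀X : D₀ ≤ X := hle.trans hD
  apply h.eq_bot hD₀X
  have h1 : (Nat.card D₀).Coprime 2 := Nat.Coprime.coprime_dvd_left (card_dvd_of_le hle) hDo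
  have h2 := Fix.comm_comm h.hc h.isPGroup h1 (hD₀X.trans h.hX)
  have h3 : ⁅⁅V, D₀⁆, D₀⁆ = ⊥ := by
    rw [commutator_comm, commutator_eq_bot_iff_le_centralizer]
    refine inf_le_right.trans (centralizer_le ?_)
    exact (commutator_mono le_rfl hle).trans hY
  rw [h2, commutator_comm, commutator_eq_bot_iff_le_centralizer] at h3
  exact h3

end Faith

theorem mem_actTriv_of [Finite Γ] {V W : Subgroup Γ} (hWV : W ≤ V) {x : Γ}
    (hx : x ∈ normalizer (V : Set Γ)) (h : ∀ v ∈ V, ⁅v, x⁆ ∈ W) : x ∈ Quad.actTriv V W := by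
  rw [Quad.mem_actTriv]
  refine ⟨hx, ?_, h⟩
  have key : ∀ w ∈ W, x * w * x⁻¹ ∈ W := by
    intro w hw
    have h1 := h w (hWV hw)
    have h2 : x * w * x⁻¹ = ⁅w, x⁆⁻¹ * w := by rw [commutatorElement_def]; group
    rw [h2]
    exact mul_mem (inv_mem h1) hw
  rw [← inv_mem_iff]
  have h3 : (W.map (MulAut.conj x).toMonoidHom) = W := by
    apply Subgroup.eq_of_le_of_card_ge
    · rintro _ ⟨w, hw, rfl⟩
      exact key w hw
    · rw [H54.Basic.card_map_conj]
  rw [inv_mem_iff]
  exact (H54.Basic.map_conj_eq_iff _ _).mp h3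

section four

variable [Finite Γ] {W D : Subgroup Γ}

theorem mem_four (hW : Nat.card W = 4) {w y : Γ} (hw : w ∈ W) (hy : y ∈ W)
    (hw1 : w ≠ 1) (hy1 : y ≠ 1) (hyw : y ≠ w) (hww : w * w = 1) {x : Γ} (hx : x ∈ W) :
    x = 1 ∨ x = w ∨ x = y ∨ x = w * y := by
  classical
  have : Fintype W := Fintype.ofFinite W
  let w' : W := ⟨w, hw⟩
  let y' : W := ⟨y, hy⟩
  have hs : ({1, w', y', w' * y'} : Finset W) = Finset.univ := by
    apply Finset.eq_univ_of_card
    rw [← Nat.card_eq_fintype_card, hW]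
    have e1 : w' ≠ 1 := fun h => hw1 (congrArg Subtype.val h)
    have e2 : y' ≠ 1 := fun h => hy1 (congrArg Subtype.val h)
    have e3 : y' ≠ w' := fun h => hyw (congrArg Subtype.val h)
    have e4 : w' * y' ≠ 1 := by
      intro h
      apply e3
      have hww' : w' * w' = 1 := Subtype.ext hww
      exact mul_left_cancel (h.trans hww'.symm)
    have e5 : w' * y' ≠ w' := by
      intro h
      exact e2 (mul_left_cancel (h.trans (mul_one _).symm))
    have e6 : w' * y' ≠ y' := by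
      intro h
      exact e1 (mul_right_cancel (h.trans (one_mul _).symm))
    rw [Finset.card_insert_of_notMem, Finset.card_insert_of_notMem, Finset.card_insert_of_notMem,
      Finset.card_singleton]
    · simpa using e6.symm
    · simp only [Finset.mem_insert, Finset.mem_singleton, not_or]
      exact ⟨e3.symm, e5.symm⟩
    · simp only [Finset.mem_insert, Finset.mem_singleton, not_or]
      exact ⟨e1.symm, e2.symm, e4.symm⟩
  have hx' : (⟨x, hx⟩ : W) ∈ ({1, w', y', w' * y'} : Finset W) := by rw [hs]; exact Finset.mem_univ _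
  simp only [Finset.mem_insert, Finset.mem_singleton] at hx'
  rcases hx' with h | h | h | h
  · exact Or.inl (congrArg Subtype.val h)
  · exact Or.inr (Or.inl (congrArg Subtype.val h))
  · exact Or.inr (Or.inr (Or.inl (congrArg Subtype.val h)))
  · exact Or.inr (Or.inr (Or.inr (congrArg Subtype.val h)))

theorem card_le_three (hW : Nat.card W = 4) (hW2 : ∀ w ∈ W, w * w = 1)
    (hDW : D ≤ normalizer (W : Set Γ)) (hf : D ⊓ centralizer (W : Set Γ) = ⊥)
    (hDo : (Nat.card D).Coprime 2) : Nat.card D ≤ 3 := by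
  classical
  obtain ⟨w, hw1⟩ : ∃ w : W, w ≠ 1 := by
    by_contra hcon
    push Not at hcon
    have : Subsingleton W := ⟨fun a b => by rw [hcon a, hcon b]⟩
    have := Nat.card_of_subsingleton (1 : W)
    omega
  have hw1' : (w : Γ) ≠ 1 := fun h => hw1 (Subtype.ext h)
  -- elements fixing w are trivial
  have key : ∀ e ∈ D, e * w * e⁻¹ = w → e = 1 := by
    intro e he hew
    have he2 : e * e ∈ D ⊓ centralizer (W : Set Γ) := by
      refine Subgroup.mem_inf.mpr ⟨mul_mem he he, ?_⟩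
      rw [mem_centralizer_iff]
      intro y hy
      have hyW : y ∈ W := hy
      suffices h : (e * e) * y * (e * e)⁻¹ = y by
        calc y * (e * e) = ((e * e) * y * (e * e)⁻¹) * (e * e) := by rw [h]
          _ = _ := by group
      have h2 : (e * e) * y * (e * e)⁻¹ = e * (e * y * e⁻¹) * e⁻¹ := by group
      rw [h2]
      by_cases hy1 : y = 1
      · subst hy1; group
      by_cases hyw : y = w
      · subst hyw; rw [hew, hew]
      have hey : e * y * e⁻¹ ∈ W := H54.Basic.mul_inv_mem_of_mem_normalizer (hDW he) hyW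
      rcases mem_four hW w.2 hyW hw1' hy1 hyw (hW2 w w.2) hey with h | h | h | h
      · exfalso
        apply hy1
        have : y = e⁻¹ * (e * y * e⁻¹) * e := by group
        rw [this, h]; group
      · exfalso
        apply hyw
        calc y = e⁻¹ * (e * y * e⁻¹) * e := by group
          _ = e⁻¹ * (e * w * e⁻¹) * e := by rw [h, hew]
          _ = w := by group
      · rw [h, h]
      · rw [h]
        have : e * (w * y) * e⁻¹ = (e * w * e⁻¹) * (e * y * e⁻¹) := by group
        rw [this, hew, h, ← mul_assoc, hW2 w w.2, one_mul]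
    rw [hf, mem_bot] at he2
    have h3 : orderOf e ∣ 2 := orderOf_dvd_of_pow_eq_one (by rw [pow_two]; exact he2)
    have h4 : (orderOf e).Coprime 2 := by
      refine Nat.Coprime.coprime_dvd_left ?_ hDo
      have := orderOf_dvd_natCard (⟨e, he⟩ : D)
      rwa [Subgroup.orderOf_mk] at this
    rw [← orderOf_eq_one_iff]
    exact Nat.Coprime.eq_one_of_dvd h4 h3
  let f : D → {x : W // x ≠ 1} := fun d => ⟨⟨d * w * (d : Γ)⁻¹,
    H54.Basic.mul_inv_mem_of_mem_normalizer (hDW d.2) w.2⟩, by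
      intro h
      apply hw1'
      have h1 : (d : Γ) * w * (d : Γ)⁻¹ = 1 := congrArg Subtype.val h
      have : (w : Γ) = (d : Γ)⁻¹ * (d * w * (d : Γ)⁻¹) * d := by group
      rw [this, h1]; group⟩
  have hfi : Function.Injective f := by
    intro d d' hdd
    have h1 : (d : Γ) * w * (d : Γ)⁻¹ = d' * w * (d' : Γ)⁻¹ :=
      congrArg (fun x : {x : W // x ≠ 1} => ((x : W) : Γ)) hdd
    have h2 := key ((d' : Γ)⁻¹ * d) (mul_mem (inv_mem d'.2) d.2) (by
      calc (d' : Γ)⁻¹ * d * w * ((d' : Γ)⁻¹ * d)⁻¹ = (d' : Γ)⁻¹ * (d * w * (d : Γ)⁻¹) * d' := by group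
        _ = (d' : Γ)⁻¹ * (d' * w * (d' : Γ)⁻¹) * d' := by rw [h1]
        _ = w := by group)
    apply Subtype.ext
    rw [inv_mul_eq_one] at h2
    exact h2.symm
  have h5 := Nat.card_le_card_of_injective f hfi
  have h6 : Nat.card {x : W // x ≠ 1} = 3 := by
    have : Fintype W := Fintype.ofFinite W
    rw [Nat.card_eq_fintype_card, Fintype.card_subtype_compl, Fintype.card_subtype_eq,
      ← Nat.card_eq_fintype_card, hW]
  omega

end four

section lemCD

set_option linter.unusedSectionVars false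

variable [Finite Γ] {V X D Y : Subgroup Γ}

theorem sq_eq_one (h : Faith V X) {v : Γ} (hv : v ∈ V) : v * v = 1 := by
  have := h.hV.2 v hv
  rwa [pow_two] at this

theorem trivial_of_card_le_two (h : Faith V X) (hD : D ≤ X) (hDo : (Nat.card D).Coprime 2)
    (hcard : Nat.card ↥⁅V, D⁆ ≤ 2) : D = ⊥ := by
  have hle : ⁅V, D⁆ ≤ V := Act.comm_le (hD.trans h.hX) le_rfl
  have h1 := h.faithful_on hD hDo le_rfl hle
  rw [eq_bot_iff, ← h1]
  refine le_inf le_rfl ?_
  intro d hd
  rw [mem_centralizer_iff]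
  intro w hw
  have hwW : w ∈ ⁅V, D⁆ := hw
  by_cases hw1 : w = 1
  · subst hw1; simp
  have hdn : d ∈ normalizer ((⁅V, D⁆ : Subgroup Γ) : Set Γ) := H1.Coprime2.le_normalizer_commutator_right V D hd
  have h2 : d * w * d⁻¹ ∈ ⁅V, D⁆ := H54.Basic.mul_inv_mem_of_mem_normalizer hdn hwW
  by_cases h3 : d * w * d⁻¹ = w
  · calc w * d = (d * w * d⁻¹) * d := by rw [h3]
      _ = d * w := by group
  exfalso
  classical
  have : Fintype ↥⁅V, D⁆ := Fintype.ofFinite _
  have h4 : d * w * d⁻¹ ≠ 1 := by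
    intro h5
    apply hw1
    calc w = d⁻¹ * (d * w * d⁻¹) * d := by group
      _ = 1 := by rw [h5]; group
  have h5 : ({1, ⟨w, hwW⟩, ⟨d * w * d⁻¹, h2⟩} : Finset ↥⁅V, D⁆).card = 3 := by
    rw [Finset.card_insert_of_notMem, Finset.card_insert_of_notMem, Finset.card_singleton]
    · rw [Finset.mem_singleton]
      intro h6
      exact h3 (congrArg Subtype.val h6).symm
    · simp only [Finset.mem_insert, Finset.mem_singleton, not_or]
      exact ⟨fun h6 => hw1 (congrArg Subtype.val h6).symm, fun h6 => h4 (congrArg Subtype.val h6).symm⟩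
  have h6 := Finset.card_le_univ ({1, ⟨w, hwW⟩, ⟨d * w * d⁻¹, h2⟩} : Finset ↥⁅V, D⁆)
  rw [h5, ← Nat.card_eq_fintype_card] at h6
  omega

/-- odd order groups with `|[V,D]| ≤ 4` -/
theorem card_le_three_of_four (h : Faith V X) (hD : D ≤ X) (hDo : (Nat.card D).Coprime 2)
    (hY : ⁅V, D⁆ ≤ Y) (hYc : Nat.card Y ≤ 4) : Nat.card D ≤ 3 := by
  have hle : ⁅V, D⁆ ≤ V := Act.comm_le (hD.trans h.hX) le_rfl
  have h0 : Nat.card ↥⁅V, D⁆ ≤ 4 := (Nat.le_of_dvd Nat.card_pos (card_dvd_of_le hY)).trans hYc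
  obtain ⟨k, hk⟩ := IsPGroup.iff_card.mp (h.isPGroup.to_le hle)
  by_cases hk2 : k ≤ 1
  · have h1 : Nat.card ↥⁅V, D⁆ ≤ 2 := by
      rw [hk]; calc 2 ^ k ≤ 2 ^ 1 := Nat.pow_le_pow_right (by norm_num) hk2
        _ = 2 := by norm_num
    rw [trivial_of_card_le_two h hD hDo h1, card_bot]
    norm_num
  · have h2 : k = 2 := by
      by_contra hne
      have h3 : 3 ≤ k := by omega
      have : 2 ^ 3 ≤ 2 ^ k := Nat.pow_le_pow_right (by norm_num) h3
      rw [← hk] at this
      omega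
    subst h2
    refine card_le_three (W := ⁅V, D⁆) (by rw [hk]; norm_num) ?_
      (H1.Coprime2.le_normalizer_commutator_right V D) (h.faithful_on hD hDo le_rfl hle) hDo
    intro w hw
    exact sq_eq_one h (hle hw)

theorem card_modEq_of_three (h : Faith V X) (hD : D ≤ X) (h3 : IsPGroup 3 D) :
    Nat.card ↥⁅V, D⁆ ≡ 1 [MOD 3] := by
  have : Fact (Nat.Prime 3) := ⟨Nat.prime_three⟩
  have hle : ⁅V, D⁆ ≤ V := Act.comm_le (hD.trans h.hX) le_rfl
  have hn : D ≤ normalizer ((⁅V, D⁆ : Subgroup Γ) : Set Γ) := H1.Coprime2.le_normalizer_commutator_right V D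
  have hDo : (Nat.card D).Coprime 2 := by
    obtain ⟨n, hn⟩ := IsPGroup.iff_card.mp h3
    rw [hn]; exact Nat.Coprime.pow_left _ (by norm_num)
  let _ : MulAction D ↥⁅V, D⁆ :=
    MulAction.compHom _ ((normalizerMonoidHom (⁅V, D⁆ : Subgroup Γ)).comp (inclusion hn))
  have hsmul : ∀ (q : D) (v : ↥⁅V, D⁆), ((q • v : ↥⁅V, D⁆) : Γ) = q * v * (q : Γ)⁻¹ := fun q v => rfl
  have h1 := h3.card_modEq_card_fixedPoints ↥⁅V, D⁆
  have h2 : Nat.card (MulAction.fixedPoints D ↥⁅V, D⁆) = 1 := by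
    rw [Nat.card_eq_one_iff_unique]
    refine ⟨⟨?_⟩, ⟨⟨1, ?_⟩⟩⟩
    · have key : ∀ v : MulAction.fixedPoints D ↥⁅V, D⁆, ((v : ↥⁅V, D⁆) : Γ) = 1 := by
        rintro ⟨v, hv⟩
        have h4 : (v : Γ) ∈ ⁅V, D⁆ ⊓ centralizer (D : Set Γ) := by
          refine Subgroup.mem_inf.mpr ⟨v.2, ?_⟩
          rw [mem_centralizer_iff]
          intro d hd
          have h5 : (d : Γ) * v * (d : Γ)⁻¹ = v := congrArg Subtype.val (hv ⟨d, hd⟩)
          calc d * v = (d * v * d⁻¹) * d := by group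
            _ = v * d := by rw [h5]
        rw [Fix.comm_inf_centralizer h.hc h.isPGroup hDo (hD.trans h.hX), mem_bot] at h4
        exact h4
      intro v w
      apply Subtype.ext
      apply Subtype.ext
      rw [key v, key w]
    · intro d
      apply Subtype.ext
      rw [hsmul]
      simp
  rwa [h2] at h1

/-- 3-groups with `|[V,D]| ≤ 8` -/
theorem card_le_three_of_eight (h : Faith V X) (hD : D ≤ X) (h3 : IsPGroup 3 D)
    (hY : ⁅V, D⁆ ≤ Y) (hYc : Nat.card Y ≤ 8) : Nat.card D ≤ 3 := by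
  have hle : ⁅V, D⁆ ≤ V := Act.comm_le (hD.trans h.hX) le_rfl
  have h0 : Nat.card ↥⁅V, D⁆ ≤ 8 := (Nat.le_of_dvd Nat.card_pos (card_dvd_of_le hY)).trans hYc
  have hDo : (Nat.card D).Coprime 2 := by
    have : Fact (Nat.Prime 3) := ⟨Nat.prime_three⟩
    obtain ⟨n, hn⟩ := IsPGroup.iff_card.mp h3
    rw [hn]; exact Nat.Coprime.pow_left _ (by norm_num)
  apply card_le_three_of_four h hD hDo le_rfl
  obtain ⟨k, hk⟩ := IsPGroup.iff_card.mp (h.isPGroup.to_le hle)
  have h4 := card_modEq_of_three h hD h3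
  rw [hk] at h4 h0 ⊢
  have hk3 : k ≤ 3 := by
    by_contra hcon
    have : 2 ^ 4 ≤ 2 ^ k := Nat.pow_le_pow_right (by norm_num) (by omega)
    omega
  interval_cases k
  · norm_num
  · norm_num
  · norm_num
  · exfalso; revert h4; decide

end lemCD

section T1

variable [Finite Γ] {V X F : Subgroup Γ}

theorem relIndex_eq_two_iff {V A : Subgroup Γ} (h : 2 * Nat.card ↥(V ⊓ centralizer (A : Set Γ)) =
    Nat.card V) : (V ⊓ centralizer (A : Set Γ)).relIndex V = 2 := by
  have h1 := Replace.card_eq_mul_relIndex (H := V ⊓ centralizer (A : Set Γ)) (K := V) inf_le_left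
  have h2 : 0 < Nat.card ↥(V ⊓ centralizer (A : Set Γ)) := Nat.card_pos
  rw [← h, mul_comm] at h1
  exact (Nat.eq_of_mul_eq_mul_left h2 h1).symm

/-- the key step: hyperplanes with nontrivial `[C_F(B), A]` are again offenders. -/
theorem val_eq (hFa : Faith V X) (hFX : F ≤ X) (hFo : (Nat.card F).Coprime 2)
    {A B : Subgroup Γ} (hAX : A ≤ X) (hA : Cfsg.IsElementaryAbelian 2 A)
    (hAF : A ≤ normalizer (F : Set Γ)) (hBA : B ≤ A) (hBi : B.relIndex A = 2)
    (hB : ⁅F ⊓ centralizer (B : Set Γ), A⁆ ≠ ⊥) (hv : Replace.val V B ≤ Replace.val V A) :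
    Nat.card ↥(V ⊓ centralizer (B : Set Γ)) = 2 * Nat.card ↥(V ⊓ centralizer (A : Set Γ)) := by
  have : Fact (Nat.Prime 2) := ⟨Nat.prime_two⟩
  have hcardA := Replace.card_eq_mul_relIndex hBA
  rw [hBi] at hcardA
  unfold Replace.val at hv
  have hBpos : 0 < Nat.card B := Nat.card_pos
  have hle : Nat.card ↥(V ⊓ centralizer (B : Set Γ)) ≤ 2 * Nat.card ↥(V ⊓ centralizer (A : Set Γ)) := by
    rw [hcardA, mul_assoc] at hv
    exact Nat.le_of_mul_le_mul_left hv hBpos
  apply le_antisymm hle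
  have hAB : V ⊓ centralizer (A : Set Γ) ≤ V ⊓ centralizer (B : Set Γ) :=
    inf_le_inf_left _ (centralizer_le hBA)
  have hlt : V ⊓ centralizer (A : Set Γ) < V ⊓ centralizer (B : Set Γ) := by
    refine lt_of_le_of_ne hAB ?_
    intro heq
    apply hB
    set Y : Subgroup Γ := V ⊓ centralizer (B : Set Γ) with hY
    set F₁ : Subgroup Γ := F ⊓ centralizer (B : Set Γ) with hF₁
    have hAc : A ≤ centralizer (B : Set Γ) :=
      (ElemAb.le_centralizer hA).trans (centralizer_le hBA)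
    have hAF₁ : A ≤ normalizer (F₁ : Set Γ) :=
      H1.Coprime2.le_normalizer_inf hAF (hAc.trans le_normalizer)
    have hQF₁ : ⁅F₁, A⁆ ≤ F₁ := H1.Coprime2.commutator_le_left hAF₁
    have hF₁Y : F₁ ≤ normalizer (Y : Set Γ) :=
      H1.Coprime2.le_normalizer_inf ((inf_le_left.trans hFX).trans hFa.hX)
        (inf_le_right.trans le_normalizer)
    have h1 : ⁅Y, A⁆ = ⊥ := by
      rw [← heq, commutator_eq_bot_iff_le_centralizer]
      exact inf_le_right
    have h2 : ⁅⁅Y, F₁⁆, A⁆ = ⊥ := by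
      rw [eq_bot_iff, ← h1]
      exact commutator_mono (H1.Coprime2.commutator_le_left hF₁Y) le_rfl
    have h3 : ⁅⁅Y, A⁆, F₁⁆ = ⊥ := by rw [h1]; exact commutator_bot_left _
    have h4 := FF1.three_sub h2 h3
    have hQX : ⁅F₁, A⁆ ≤ X := hQF₁.trans (inf_le_left.trans hFX)
    apply hFa.eq_bot hQX
    refine H1.Coprime2.pq_lemma 2 B ⁅F₁, A⁆ ((ElemAb.isPGroup hA).to_le hBA) ?_ ?_ (Nat.card V) V rfl
      hFa.isPGroup ((hBA.trans hAX).trans hFa.hX) (hQX.trans hFa.hX) ?_
    · exact Nat.Coprime.coprime_dvd_left (card_dvd_of_le (hQF₁.trans inf_le_left)) hFo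
    · rw [le_centralizer_iff]
      exact hQF₁.trans inf_le_right
    · rw [← commutator_eq_bot_iff_le_centralizer, commutator_comm]
      exact h4
  exact FF1.card_ge_of_lt (hFa.isPGroup.to_le inf_le_left) hlt

theorem gen (hFa : Faith V X) (hFX : F ≤ X) (hFo : (Nat.card F).Coprime 2) (n : ℕ) :
    ∀ A : Subgroup Γ, Nat.card A ≤ n → A ≤ X → Cfsg.IsElementaryAbelian 2 A →
      A ≤ normalizer (F : Set Γ) → A ⊓ centralizer (F : Set Γ) = ⊥ →
      (∀ B ≤ A, Replace.val V B ≤ Replace.val V A) →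
      A ≤ closure {t | t ∈ A ∧ IsTv V t} := by
  have : Fact (Nat.Prime 2) := ⟨Nat.prime_two⟩
  induction n with
  | zero =>
    intro A hn
    have : 0 < Nat.card A := Nat.card_pos
    omega
  | succ n ih =>
  intro A hn hAX hA hAF hAf hmax
  by_cases hA1 : A = ⊥
  · rw [hA1]; exact bot_le
  have hFA : ⁅F, A⁆ ≠ ⊥ := by
    intro h
    rw [commutator_comm, commutator_eq_bot_iff_le_centralizer] at h
    apply hA1
    rw [eq_bot_iff, ← hAf]
    exact le_inf le_rfl h
  obtain ⟨B, hBA, hBi, hB⟩ := CoprimeHyper.exists_hyper hA hFo hAF hFA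
  have hcent : ∀ B ≤ A, B.relIndex A = 2 → ⁅F ⊓ centralizer (B : Set Γ), A⁆ ≠ ⊥ →
      B ≤ closure {t | t ∈ A ∧ IsTv V t} := by
    intro B hBA hBi hB
    have h1 := val_eq hFa hFX hFo hAX hA hAF hBA hBi hB (hmax B hBA)
    have hcardA := Replace.card_eq_mul_relIndex hBA
    rw [hBi] at hcardA
    have hval : Replace.val V B = Replace.val V A := by
      unfold Replace.val
      rw [h1, hcardA]; ring
    have hBpos : 0 < Nat.card B := Nat.card_pos
    refine (ih B (by omega) (hBA.trans hAX) (ElemAb.of_le hA hBA) (hBA.trans hAF) ?_ ?_).trans ?_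
    · rw [eq_bot_iff, ← hAf]; exact inf_le_inf_right _ hBA
    · intro B' hB'
      rw [hval]; exact hmax B' (hB'.trans hBA)
    · apply Subgroup.closure_mono
      rintro t ⟨ht, ht'⟩
      exact ⟨hBA ht, ht'⟩
  by_cases hex : ∃ B' ≤ A, B'.relIndex A = 2 ∧ ⁅F ⊓ centralizer (B' : Set Γ), A⁆ ≠ ⊥ ∧ B' ≠ B
  · obtain ⟨B', hB'A, hB'i, hB', hne⟩ := hex
    have h1 : A ≤ B ⊔ B' := by
      have h2 : B ⊔ B' ≤ A := sup_le hBA hB'A
      have h3 : B.relIndex (B ⊔ B') * (B ⊔ B').relIndex A = B.relIndex A :=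
        relIndex_mul_relIndex _ _ _ le_sup_left h2
      rw [hBi] at h3
      have h4 : B.relIndex (B ⊔ B') ≠ 1 := by
        intro h5
        rw [relIndex_eq_one] at h5
        have h6 : B' ≤ B := le_sup_right.trans h5
        apply hne
        apply Subgroup.eq_of_le_of_card_ge h6
        have e1 := Replace.card_eq_mul_relIndex hBA
        have e2 := Replace.card_eq_mul_relIndex hB'A
        rw [hBi] at e1
        rw [hB'i] at e2
        omega
      have h5 : (B ⊔ B').relIndex A = 1 := by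
        have h6 : B.relIndex (B ⊔ B') ∣ 2 := Dvd.intro _ h3
        rcases (Nat.dvd_prime Nat.prime_two).mp h6 with h7 | h7
        · exact absurd h7 h4
        · rw [h7] at h3; omega
      exact relIndex_eq_one.mp h5
    exact h1.trans (sup_le (hcent B hBA hBi hB) (hcent B' hB'A hB'i hB'))
  · -- B = ⊥
    push Not at hex
    have hFB : F ≤ centralizer (B : Set Γ) := by
      apply H27.GenSub.le_of_hyperplanes 2 A F _ hA hAF
        ((Nat.Prime.coprime_iff_not_dvd Nat.prime_two).mp hFo.symm)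
      intro B' hB'A hB'i
      by_cases hB'1 : B'.relIndex A = 2
      · by_cases h2 : ⁅F ⊓ centralizer (B' : Set Γ), A⁆ = ⊥
        · rw [commutator_eq_bot_iff_le_centralizer] at h2
          exact h2.trans (centralizer_le hBA)
        · rw [hex B' hB'A hB'1 h2]
          exact inf_le_right
      · have h2 : B'.relIndex A = 1 := by
          have h3 : B'.relIndex A ≠ 0 := by
            intro h4
            have h5 := Replace.card_eq_mul_relIndex hB'A
            have h6 : 0 < Nat.card A := Nat.card_pos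
            rw [h4] at h5
            omega
          omega
        rw [relIndex_eq_one] at h2
        exact inf_le_right.trans (centralizer_le (hBA.trans h2))
    have hB1 : B = ⊥ := by
      rw [eq_bot_iff, ← hAf]
      exact le_inf hBA (le_centralizer_iff.mp hFB)
    have hcardA := Replace.card_eq_mul_relIndex hBA
    have h1 := val_eq hFa hFX hFo hAX hA hAF hBA hBi hB (hmax B hBA)
    rw [hBi, hB1, card_bot, one_mul] at hcardA
    have h2 : V ⊓ centralizer (B : Set Γ) = V := by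
      rw [hB1]
      apply inf_eq_left.mpr
      rw [le_centralizer_iff]; exact bot_le
    rw [h2] at h1
    obtain ⟨a, ha, ha1⟩ : ∃ a ∈ A, a ≠ 1 := by
      by_contra hcon
      push Not at hcon
      apply hA1
      rw [eq_bot_iff]
      intro a ha
      exact mem_bot.mpr (hcon a ha)
    have ha2 : a * a = 1 := by have := hA.2 a ha; rwa [pow_two] at this
    have hAa : A = zpowers a := by
      symm
      apply Subgroup.eq_of_le_of_card_ge
      · rwa [zpowers_le]
      · rw [hcardA, Nat.card_zpowers, orderOf_eq_prime (by rw [pow_two]; exact ha2) ha1]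
    have hTv : IsTv V a := by
      refine ⟨ha2, ?_⟩
      have h3 : centralizer ({a} : Set Γ) = centralizer (A : Set Γ) := by
        rw [hAa, FF2.centralizer_zpowers]
      rw [h3]
      apply relIndex_eq_two_iff
      exact h1.symm
    rw [hAa, zpowers_le]
    apply Subgroup.subset_closure
    exact ⟨mem_zpowers a, hTv⟩

end T1

section T2

set_option linter.unusedSectionVars false

variable {V X F : Subgroup Γ}

structure FF (V X F : Subgroup Γ) : Prop extends Faith V X where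
  hFX : F ≤ X
  hXF : X ≤ normalizer (F : Set Γ)
  hFo : (Nat.card F).Coprime 2
  hnil : Group.IsNilpotent F
  hCF : X ⊓ centralizer (F : Set Γ) ≤ F

/-- `R t = [F, t]` -/
abbrev R (F : Subgroup Γ) (t : Γ) : Subgroup Γ := ⁅F, zpowers t⁆

theorem IsTv.conj {V : Subgroup Γ} {t g : Γ} (h : IsTv V t) (hg : g ∈ normalizer (V : Set Γ)) :
    IsTv V (g * t * g⁻¹) := by
  refine ⟨?_, ?_⟩
  · calc g * t * g⁻¹ * (g * t * g⁻¹) = g * (t * t) * g⁻¹ := by group
      _ = 1 := by rw [h.1]; group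
  · have h1 : (V ⊓ centralizer ({g * t * g⁻¹} : Set Γ)) =
        (V ⊓ centralizer ({t} : Set Γ)).map (MulAut.conj g).toMonoidHom := by
      ext x
      rw [H54.Basic.mem_map_conj]
      constructor
      · intro hx
        refine Subgroup.mem_inf.mpr ⟨H54.Basic.inv_mul_mem_of_mem_normalizer hg hx.1, ?_⟩
        have h2 := mem_centralizer_singleton_iff.mp (Subgroup.mem_inf.mp hx).2
        rw [mem_centralizer_singleton_iff]
        calc g⁻¹ * x * g * t = g⁻¹ * (x * (g * t * g⁻¹)) * g := by group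
          _ = g⁻¹ * ((g * t * g⁻¹) * x) * g := by rw [h2]
          _ = _ := by group
      · intro hx
        have hx1 := (Subgroup.mem_inf.mp hx).1
        have h2 := mem_centralizer_singleton_iff.mp (Subgroup.mem_inf.mp hx).2
        refine Subgroup.mem_inf.mpr ⟨?_, ?_⟩
        · have := H54.Basic.mul_inv_mem_of_mem_normalizer hg hx1
          have e : g * (g⁻¹ * x * g) * g⁻¹ = x := by group
          rwa [e] at this
        · rw [mem_centralizer_singleton_iff]
          calc x * (g * t * g⁻¹) = g * ((g⁻¹ * x * g) * t) * g⁻¹ := by group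
            _ = g * (t * (g⁻¹ * x * g)) * g⁻¹ := by rw [h2]
            _ = _ := by group
    have h3 : V.map (MulAut.conj g).toMonoidHom = V := (H54.Basic.map_conj_eq_iff g V).mpr hg
    have h5 := relIndex_map_map_of_injective (V ⊓ centralizer ({t} : Set Γ)) V
      (f := (MulAut.conj g).toMonoidHom) (MulAut.conj g).injective
    rw [h3] at h5
    rw [h1, h5]
    exact h.2

variable [Finite Γ]

theorem card_comm_tv (h : Faith V X) {t : Γ} (htX : t ∈ X) (ht : IsTv V t) :
    Nat.card ↥⁅V, zpowers t⁆ = 2 := by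
  have h1 := FF2.card_comm_mul_card_centralizer h.hc (h.hX htX)
  have h2 := Replace.card_eq_mul_relIndex (H := V ⊓ centralizer ({t} : Set Γ)) (K := V) inf_le_left
  rw [ht.2] at h2
  rw [FF2.centralizer_zpowers, h2, mul_comm] at h1
  exact Nat.eq_of_mul_eq_mul_left Nat.card_pos h1

theorem tv_mem_actTriv (h : Faith V X) {t : Γ} (htX : t ∈ X) {Y : Subgroup Γ} (hY : Y ≤ V)
    (hYt : ⁅V, zpowers t⁆ ≤ Y) : t ∈ Quad.actTriv V Y := by
  apply mem_actTriv_of hY (h.hX htX)
  intro v hv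
  exact hYt (commutator_mem_commutator hv (mem_zpowers t))

theorem zpowers_tv {t : Γ} (ht : t * t = 1) {x : Γ} (hx : x ∈ zpowers t) : x = 1 ∨ x = t := by
  obtain ⟨k, rfl⟩ := hx
  rcases Int.even_or_odd' k with ⟨m, rfl | rfl⟩
  · left
    simp only
    rw [zpow_mul]
    have : t ^ (2 : ℤ) = 1 := by rw [zpow_ofNat, pow_two]; exact ht
    rw [this, one_zpow]
  · right
    simp only
    rw [zpow_add, zpow_mul]
    have : t ^ (2 : ℤ) = 1 := by rw [zpow_ofNat, pow_two]; exact ht
    rw [this, one_zpow, one_mul, zpow_one]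

theorem card_sup_le {A B : Subgroup Γ} (hAB : A ≤ normalizer (B : Set Γ)) :
    Nat.card ↥(A ⊔ B) ≤ Nat.card A * Nat.card B := by
  have h1 := Thompson.card_sup_mul_card_inf hAB
  have h2 : 0 < Nat.card ↥(A ⊓ B) := Nat.card_pos
  rw [← h1]
  exact Nat.le_mul_of_pos_right _ h2

theorem le_norm (h : Faith V X) {A B : Subgroup Γ} (hA : A ≤ V) (hB : B ≤ V) :
    A ≤ normalizer (B : Set Γ) :=
  (hA.trans (h.hc.trans (centralizer_le hB))).trans (centralizer_le_normalizer _)

theorem comm_comm_mem (h : FF V X F) {t f : Γ} (htX : t ∈ X) (hf : f ∈ F) {Y : Subgroup Γ} (hY : Y ≤ V)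
    (h1 : ⁅V, zpowers t⁆ ≤ Y) (h2 : ⁅V, zpowers (f * t * f⁻¹)⁆ ≤ Y) :
    ⁅f, t⁆ ∈ Quad.actTriv V Y := by
  have hfX := h.hFX hf
  have e : ⁅f, t⁆ = (f * t * f⁻¹) * t⁻¹ := by rw [commutatorElement_def]
  rw [e]
  exact mul_mem (tv_mem_actTriv h.toFaith (mul_mem (mul_mem hfX htX) (inv_mem hfX)) hY h2)
    (inv_mem (tv_mem_actTriv h.toFaith htX hY h1))

theorem comm_mem_F (h : FF V X F) {t f : Γ} (htX : t ∈ X) (hf : f ∈ F) : ⁅f, t⁆ ∈ F := by
  rw [commutatorElement_def]
  have : f * t * f⁻¹ * t⁻¹ = f * (t * f⁻¹ * t⁻¹) := by group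
  rw [this]
  exact mul_mem hf (H54.Basic.mul_inv_mem_of_mem_normalizer (h.hXF htX) (inv_mem hf))

theorem odd_of_le (h : FF V X F) {D : Subgroup Γ} (hD : D ≤ F) : (Nat.card D).Coprime 2 :=
  Nat.Coprime.coprime_dvd_left (card_dvd_of_le hD) h.hFo

theorem commutator_le_of_le_actTriv {V Y D : Subgroup Γ} (h : D ≤ Quad.actTriv V Y) :
    ⁅V, D⁆ ≤ Y := (commutator_mono le_rfl h).trans (Quad.commutator_actTriv_le V Y)

/-- commutators `[f,t]` have order dividing 3 -/
theorem comm_pow_three (h : FF V X F) {t f : Γ} (htX : t ∈ X) (ht : IsTv V t) (hf : f ∈ F) :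
    ⁅f, t⁆ ^ 3 = 1 := by
  have hfX := h.hFX hf
  have htX' : f * t * f⁻¹ ∈ X := mul_mem (mul_mem hfX htX) (inv_mem hfX)
  set A := ⁅V, zpowers t⁆ with hA
  set B := ⁅V, zpowers (f * t * f⁻¹)⁆ with hB
  have hAV : A ≤ V := Act.comm_le (by rw [zpowers_le]; exact h.hX htX) le_rfl
  have hBV : B ≤ V := Act.comm_le (by rw [zpowers_le]; exact h.hX htX') le_rfl
  have hYV : A ⊔ B ≤ V := sup_le hAV hBV
  have hu := comm_comm_mem h htX hf hYV le_sup_left le_sup_right
  have huF := comm_mem_F h htX hf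
  have h1 : ⁅V, zpowers ⁅f, t⁆⁆ ≤ A ⊔ B := commutator_le_of_le_actTriv (by rwa [zpowers_le])
  have h2 : Nat.card ↥(A ⊔ B) ≤ 4 := by
    refine (card_sup_le (le_norm h.toFaith hAV hBV)).trans ?_
    rw [card_comm_tv h.toFaith htX ht, card_comm_tv h.toFaith htX' (ht.conj (h.hX hfX))]
  have hle : zpowers ⁅f, t⁆ ≤ F := by rwa [zpowers_le]
  have h3 := card_le_three_of_four h.toFaith (hle.trans h.hFX) (odd_of_le h hle) h1 h2
  have h4 := odd_of_le h hle
  rw [Nat.card_zpowers] at h3 h4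
  have h5 : 0 < orderOf ⁅f, t⁆ := orderOf_pos _
  have h6 : orderOf ⁅f, t⁆ = 1 ∨ orderOf ⁅f, t⁆ = 3 := by
    interval_cases hn : orderOf ⁅f, t⁆
    · left; rfl
    · exfalso; revert h4; decide
    · right; rfl
  rw [← orderOf_dvd_iff_pow_eq_one]
  rcases h6 with h6 | h6 <;> rw [h6]
  exact one_dvd _

/-- a subgroup of `F` generated by two elements of order dividing 3 is a 3-group -/
theorem isPGroup_of_gens {F : Subgroup Γ} (hnil : Group.IsNilpotent F) {S : Set Γ} (hS : S ⊆ F)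
    (h3 : ∀ x ∈ S, x ^ 3 = 1) : IsPGroup 3 (Subgroup.closure S) := by
  have : Fact (Nat.Prime 3) := ⟨Nat.prime_three⟩
  obtain ⟨P⟩ : Nonempty (Sylow 3 F) := inferInstance
  have hPn : (P : Subgroup F).Normal := by
    have := (Group.isNilpotent_of_finite_tfae (G := F)).out 0 3
    exact this.mp hnil 3 ⟨Nat.prime_three⟩ P
  have hle : Subgroup.closure S ≤ (P : Subgroup F).map F.subtype := by
    rw [closure_le]
    intro x hx
    refine ⟨⟨x, hS hx⟩, ?_, rfl⟩
    have h4 : IsPGroup 3 (zpowers (⟨x, hS hx⟩ : F)) := by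
      rintro ⟨y, i, rfl⟩
      refine ⟨1, Subtype.ext ?_⟩
      change ((⟨x, hS hx⟩ : F) ^ i) ^ 3 ^ 1 = 1
      rw [pow_one, ← zpow_natCast, ← zpow_mul, mul_comm, zpow_mul]
      have : (⟨x, hS hx⟩ : F) ^ ((3 : ℕ) : ℤ) = 1 := by
        rw [zpow_natCast]; exact Subtype.ext (h3 x hx)
      rw [this, one_zpow]
    obtain ⟨Q, hQ⟩ := h4.exists_le_sylow
    have := Sylow.unique_of_normal P hPn
    have hQP : Q = P := Subsingleton.elim _ _
    rw [hQP] at hQ
    exact hQ (mem_zpowers _)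
  exact (P.isPGroup'.map _).to_le hle

theorem exists_comm_ne (h : FF V X F) {t : Γ} (htX : t ∈ X) (ht : IsTv V t) :
    ∃ f ∈ F, ⁅f, t⁆ ≠ 1 := by
  by_contra hcon
  push Not at hcon
  have h1 : t ∈ centralizer (F : Set Γ) := by
    rw [mem_centralizer_iff]
    intro f hf
    exact commutatorElement_eq_one_iff_mul_comm.mp (hcon f hf)
  have h2 : t ∈ F := h.hCF (Subgroup.mem_inf.mpr ⟨htX, h1⟩)
  have h3 : t = 1 := by
    have h4 : orderOf t ∣ 2 := orderOf_dvd_of_pow_eq_one (by rw [pow_two]; exact ht.1)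
    have h5 : (orderOf t).Coprime 2 := by
      refine Nat.Coprime.coprime_dvd_left ?_ h.hFo
      have := orderOf_dvd_natCard (⟨t, h2⟩ : F)
      rwa [Subgroup.orderOf_mk] at this
    rw [← orderOf_eq_one_iff]
    exact Nat.Coprime.eq_one_of_dvd h5 h4
  have h4 := ht.2
  rw [h3] at h4
  have h5 : V ⊓ centralizer ({1} : Set Γ) = V := by
    apply inf_eq_left.mpr
    intro x _
    rw [mem_centralizer_singleton_iff]; simp
  rw [h5, relIndex_self] at h4
  omega

/-- `|[F,t]| = 3` -/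
theorem card_R (h : FF V X F) {t : Γ} (htX : t ∈ X) (ht : IsTv V t) :
    Nat.card (R F t) = 3 ∧ Nat.card ↥⁅V, R F t⁆ = 4 ∧ ⁅V, zpowers t⁆ ≤ ⁅V, R F t⁆ := by
  obtain ⟨f, hf, hf1⟩ := exists_comm_ne h htX ht
  have hfX := h.hFX hf
  have htX' : f * t * f⁻¹ ∈ X := mul_mem (mul_mem hfX htX) (inv_mem hfX)
  have hg3 := comm_pow_three h htX ht hf
  have hord : orderOf ⁅f, t⁆ = 3 := orderOf_eq_prime (hp := ⟨Nat.prime_three⟩) hg3 hf1
  have hRle : R F t ≤ zpowers ⁅f, t⁆ := by
    rw [commutator_le]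
    intro g hg s hs
    rcases zpowers_tv ht.1 hs with rfl | rfl
    · rw [commutatorElement_one_right]; exact one_mem _
    · have hgX := h.hFX hg
      have htX'' : g * s * g⁻¹ ∈ X := mul_mem (mul_mem hgX htX) (inv_mem hgX)
      set A := ⁅V, zpowers s⁆ with hA
      set B := ⁅V, zpowers (f * s * f⁻¹)⁆ with hB
      set C := ⁅V, zpowers (g * s * g⁻¹)⁆ with hC
      have hAV : A ≤ V := Act.comm_le (by rw [zpowers_le]; exact h.hX htX) le_rfl
      have hBV : B ≤ V := Act.comm_le (by rw [zpowers_le]; exact h.hX htX') le_rfl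
      have hCV : C ≤ V := Act.comm_le (by rw [zpowers_le]; exact h.hX htX'') le_rfl
      have hYV : A ⊔ B ⊔ C ≤ V := sup_le (sup_le hAV hBV) hCV
      have hu := comm_comm_mem h htX hf hYV (le_sup_left.trans le_sup_left)
        (le_sup_right.trans le_sup_left)
      have hu' := comm_comm_mem h htX hg hYV (le_sup_left.trans le_sup_left) le_sup_right
      set D := closure ({⁅f, s⁆, ⁅g, s⁆} : Set Γ) with hD
      have hsub : ({⁅f, s⁆, ⁅g, s⁆} : Set Γ) ⊆ F := by
        intro x hx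
        rcases hx with rfl | hx
        · exact comm_mem_F h htX hf
        · rw [Set.mem_singleton_iff] at hx
          subst hx
          exact comm_mem_F h htX hg
      have hD3 : IsPGroup 3 D := by
        apply isPGroup_of_gens h.hnil hsub
        intro x hx
        rcases hx with rfl | hx
        · exact hg3
        · rw [Set.mem_singleton_iff] at hx
          subst hx
          exact comm_pow_three h htX ht hg
      have hDF : D ≤ F := by rw [hD, closure_le]; exact hsub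
      have hDact : D ≤ Quad.actTriv V (A ⊔ B ⊔ C) := by
        rw [hD, closure_le]
        intro x hx
        rcases hx with rfl | hx
        · exact hu
        · rw [Set.mem_singleton_iff] at hx
          subst hx
          exact hu'
      have hcard : Nat.card ↥(A ⊔ B ⊔ C) ≤ 8 := by
        refine (card_sup_le (le_norm h.toFaith (sup_le hAV hBV) hCV)).trans ?_
        have h1 := card_sup_le (le_norm h.toFaith hAV hBV)
        rw [card_comm_tv h.toFaith htX ht, card_comm_tv h.toFaith htX' (ht.conj (h.hX hfX))] at h1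
        rw [card_comm_tv h.toFaith htX'' (ht.conj (h.hX hgX))]
        omega
      have hD1 := card_le_three_of_eight h.toFaith (hDF.trans h.hFX) hD3
        (commutator_le_of_le_actTriv hDact) hcard
      have hzD : zpowers ⁅f, s⁆ = D := by
        apply Subgroup.eq_of_le_of_card_ge
        · rw [zpowers_le]
          exact Subgroup.subset_closure (Set.mem_insert _ _)
        · rw [Nat.card_zpowers, hord]; exact hD1
      rw [hzD]
      exact Subgroup.subset_closure (Set.mem_insert_of_mem _ rfl)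
  have hReq : R F t = zpowers ⁅f, t⁆ := by
    apply le_antisymm hRle
    rw [zpowers_le]
    exact commutator_mem_commutator hf (mem_zpowers t)
  have hR3 : Nat.card (R F t) = 3 := by rw [hReq, Nat.card_zpowers, hord]
  set A := ⁅V, zpowers t⁆ with hA
  set B := ⁅V, zpowers (f * t * f⁻¹)⁆ with hB
  have hAV : A ≤ V := Act.comm_le (by rw [zpowers_le]; exact h.hX htX) le_rfl
  have hBV : B ≤ V := Act.comm_le (by rw [zpowers_le]; exact h.hX htX') le_rfl
  have hYV : A ⊔ B ≤ V := sup_le hAV hBV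
  have hu := comm_comm_mem h htX hf hYV le_sup_left le_sup_right
  have hVR : ⁅V, R F t⁆ ≤ A ⊔ B := by
    rw [hReq]
    exact commutator_le_of_le_actTriv (by rwa [zpowers_le])
  have hc4 : Nat.card ↥(A ⊔ B) ≤ 4 := by
    refine (card_sup_le (le_norm h.toFaith hAV hBV)).trans ?_
    rw [card_comm_tv h.toFaith htX ht, card_comm_tv h.toFaith htX' (ht.conj (h.hX hfX))]
  have hRX : R F t ≤ X := by
    rw [hReq, zpowers_le]; exact h.hFX (comm_mem_F h htX hf)
  have hRF : R F t ≤ F := by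
    rw [hReq, zpowers_le]; exact comm_mem_F h htX hf
  have h3g : IsPGroup 3 (R F t) := IsPGroup.of_card (n := 1) (by rw [hR3]; norm_num)
  have hmod := card_modEq_of_three h.toFaith hRX h3g
  have hle4 : Nat.card ↥⁅V, R F t⁆ ≤ 4 := (Nat.le_of_dvd Nat.card_pos (card_dvd_of_le hVR)).trans hc4
  have hVRV : ⁅V, R F t⁆ ≤ V := hVR.trans hYV
  obtain ⟨k, hk⟩ := IsPGroup.iff_card.mp (h.isPGroup.to_le hVRV)
  have hne : Nat.card ↥⁅V, R F t⁆ ≠ 1 := by
    intro h1
    have h2 := trivial_of_card_le_two h.toFaith hRX (odd_of_le h hRF) (by omega)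
    rw [h2, card_bot] at hR3
    omega
  have h4 : Nat.card ↥⁅V, R F t⁆ = 4 := by
    have hk2 : k ≤ 2 := by
      by_contra hcon
      have : 2 ^ 3 ≤ 2 ^ k := Nat.pow_le_pow_right (by norm_num) (by omega)
      omega
    rw [hk] at hmod hne hle4 ⊢
    interval_cases k
    · omega
    · exfalso; revert hmod; decide
    · norm_num
  refine ⟨hR3, h4, ?_⟩
  have h5 : ⁅V, R F t⁆ = A ⊔ B := by
    apply Subgroup.eq_of_le_of_card_ge hVR
    rw [h4]; exact hc4
  rw [h5]
  exact le_sup_left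

theorem R_le_F (h : FF V X F) {t : Γ} (htX : t ∈ X) : R F t ≤ F :=
  H1.Coprime2.commutator_le_left (by rw [zpowers_le]; exact h.hXF htX)

theorem F_le_normalizer_R (t : Γ) : F ≤ normalizer ((R F t : Subgroup Γ) : Set Γ) :=
  H1.Coprime2.le_normalizer_commutator_left _ _

theorem map_conj_R (h : FF V X F) {t s : Γ} (hs : s ∈ X) :
    (R F t).map (MulAut.conj s).toMonoidHom = R F (s * t * s⁻¹) := by
  rw [R, map_commutator, R]
  congr 1
  · exact (H54.Basic.map_conj_eq_iff s F).mpr (h.hXF hs)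
  · rw [MonoidHom.map_zpowers]
    rfl

theorem isPGroup_R (h : FF V X F) {t : Γ} (htX : t ∈ X) (ht : IsTv V t) : IsPGroup 3 (R F t) :=
  IsPGroup.of_card (n := 1) (by rw [(card_R h htX ht).1]; norm_num)

/-- if the supports of `R_s` and `R_t` intersect nontrivially then `R_s = R_t` -/
theorem R_eq_of_inf_ne_bot (h : FF V X F) {s t : Γ} (hsX : s ∈ X) (hs : IsTv V s) (htX : t ∈ X)
    (ht : IsTv V t) (hne : ⁅V, R F s⁆ ⊓ ⁅V, R F t⁆ ≠ ⊥) : R F s = R F t := by
  have : Fact (Nat.Prime 3) := ⟨Nat.prime_three⟩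
  obtain ⟨hs3, hs4, -⟩ := card_R h hsX hs
  obtain ⟨ht3, ht4, -⟩ := card_R h htX ht
  have hsF := R_le_F h hsX
  have htF := R_le_F h htX
  have hsV : ⁅V, R F s⁆ ≤ V := Act.comm_le ((hsF.trans h.hFX).trans h.hX) le_rfl
  have htV : ⁅V, R F t⁆ ≤ V := Act.comm_le ((htF.trans h.hFX).trans h.hX) le_rfl
  have hD3 : IsPGroup 3 (R F s ⊔ R F t : Subgroup Γ) :=
    (isPGroup_R h hsX hs).to_sup_of_normal_right' (isPGroup_R h htX ht)
      (hsF.trans (F_le_normalizer_R t))
  have hYV : ⁅V, R F s⁆ ⊔ ⁅V, R F t⁆ ≤ V := sup_le hsV htV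
  have hcard : Nat.card ↥(⁅V, R F s⁆ ⊔ ⁅V, R F t⁆) ≤ 8 := by
    have h1 := Thompson.card_sup_mul_card_inf (le_norm h.toFaith hsV htV)
    rw [hs4, ht4] at h1
    have h2 : 2 ≤ Nat.card ↥(⁅V, R F s⁆ ⊓ ⁅V, R F t⁆) := by
      have h3 : Nat.card ↥(⁅V, R F s⁆ ⊓ ⁅V, R F t⁆) ≠ 1 := fun h4 => hne (Subgroup.card_eq_one.mp h4)
      have h4 : 0 < Nat.card ↥(⁅V, R F s⁆ ⊓ ⁅V, R F t⁆) := Nat.card_pos
      omega
    nlinarith
  have hDact : R F s ⊔ R F t ≤ Quad.actTriv V (⁅V, R F s⁆ ⊔ ⁅V, R F t⁆) := by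
    refine sup_le ?_ ?_
    · intro x hx
      exact mem_actTriv_of hYV (h.hX (h.hFX (hsF hx))) fun v hv =>
        le_sup_left (α := Subgroup Γ) (commutator_mem_commutator hv hx)
    · intro x hx
      exact mem_actTriv_of hYV (h.hX (h.hFX (htF hx))) fun v hv =>
        le_sup_right (α := Subgroup Γ) (commutator_mem_commutator hv hx)
  have h1 := card_le_three_of_eight h.toFaith ((sup_le hsF htF).trans h.hFX) hD3
    (commutator_le_of_le_actTriv hDact) hcard
  have e1 : R F s = R F s ⊔ R F t := Subgroup.eq_of_le_of_card_ge le_sup_left (by rw [hs3]; exact h1)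
  have e2 : R F t = R F s ⊔ R F t := Subgroup.eq_of_le_of_card_ge le_sup_right (by rw [ht3]; exact h1)
  exact e1.trans e2.symm

/-- a transvection normalizes every `R_t` -/
theorem mem_normalizer_R (h : FF V X F) {s t : Γ} (hsX : s ∈ X) (hs : IsTv V s) (htX : t ∈ X)
    (ht : IsTv V t) : s ∈ normalizer ((R F t : Subgroup Γ) : Set Γ) := by
  rw [← H54.Basic.map_conj_eq_iff, map_conj_R h hsX]
  have htX' : s * t * s⁻¹ ∈ X := mul_mem (mul_mem hsX htX) (inv_mem hsX)
  apply R_eq_of_inf_ne_bot h htX' (ht.conj (h.hX hsX)) htX ht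
  obtain ⟨ht3, ht4, -⟩ := card_R h htX ht
  have htV : ⁅V, R F t⁆ ≤ V := Act.comm_le (((R_le_F h htX).trans h.hFX).trans h.hX) le_rfl
  -- s fixes a nontrivial element of [V, R t]
  have h1 : (⁅V, R F t⁆ ⊓ centralizer ({s} : Set Γ)).relIndex ⁅V, R F t⁆ ≤ 2 := by
    have h2 : (V ⊓ centralizer ({s} : Set Γ)).relIndex ⁅V, R F t⁆ ≤
        (V ⊓ centralizer ({s} : Set Γ)).relIndex V := by
      apply relIndex_le_of_le_right htV
      rw [hs.2]; norm_num
    rw [hs.2] at h2
    have h3 : (⁅V, R F t⁆ ⊓ centralizer ({s} : Set Γ)).relIndex ⁅V, R F t⁆ =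
        (V ⊓ centralizer ({s} : Set Γ)).relIndex ⁅V, R F t⁆ := by
      rw [← inf_relIndex_right, ← inf_relIndex_right (V ⊓ centralizer ({s} : Set Γ))]
      congr 1
      ext x
      simp only [Subgroup.mem_inf]
      constructor
      · rintro ⟨⟨a, b⟩, c⟩; exact ⟨⟨htV a, b⟩, c⟩
      · rintro ⟨⟨a, b⟩, c⟩; exact ⟨⟨c, b⟩, c⟩
    rw [h3]; exact h2
  have h2 := Replace.card_eq_mul_relIndex (H := ⁅V, R F t⁆ ⊓ centralizer ({s} : Set Γ))
    (K := ⁅V, R F t⁆) inf_le_left
  rw [ht4] at h2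
  have h3 : 2 ≤ Nat.card ↥(⁅V, R F t⁆ ⊓ centralizer ({s} : Set Γ)) := by nlinarith
  intro h4
  have h5 : ⁅V, R F t⁆ ⊓ centralizer ({s} : Set Γ) ≤ ⊥ := by
    rw [← h4]
    refine le_inf ?_ inf_le_left
    rintro x hx
    have hx1 := (Subgroup.mem_inf.mp hx).1
    have hx2 := mem_centralizer_singleton_iff.mp (Subgroup.mem_inf.mp hx).2
    have h6 : (⁅V, R F t⁆).map (MulAut.conj s).toMonoidHom = ⁅V, R F (s * t * s⁻¹)⁆ := by
      rw [map_commutator, map_conj_R h hsX]
      congr 1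
      exact (H54.Basic.map_conj_eq_iff s V).mpr (h.hX hsX)
    rw [← h6]
    refine ⟨x, hx1, ?_⟩
    change s * x * s⁻¹ = x
    rw [← hx2]; group
  rw [le_bot_iff] at h5
  rw [h5, card_bot] at h3
  omega

/-- distinct `R`'s have independent supports and commute with each other's transvections -/
theorem of_R_ne (h : FF V X F) {s t : Γ} (hsX : s ∈ X) (hs : IsTv V s) (htX : t ∈ X)
    (ht : IsTv V t) (hne : R F s ≠ R F t) :
    ⁅V, R F s⁆ ⊓ ⁅V, R F t⁆ = ⊥ ∧ R F s ≤ centralizer ((⁅V, R F t⁆ : Subgroup Γ) : Set Γ) ∧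
      s ∈ centralizer ((R F t : Subgroup Γ) : Set Γ) := by
  have h1 : ⁅V, R F s⁆ ⊓ ⁅V, R F t⁆ = ⊥ := by
    by_contra hcon
    exact hne (R_eq_of_inf_ne_bot h hsX hs htX ht hcon)
  have hsF := R_le_F h hsX
  have htF := R_le_F h htX
  have hsV : ⁅V, R F s⁆ ≤ V := Act.comm_le ((hsF.trans h.hFX).trans h.hX) le_rfl
  have htV : ⁅V, R F t⁆ ≤ V := Act.comm_le ((htF.trans h.hFX).trans h.hX) le_rfl
  refine ⟨h1, ?_, ?_⟩
  · rw [le_centralizer_iff, ← commutator_eq_bot_iff_le_centralizer, eq_bot_iff, ← h1]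
    refine le_inf (commutator_mono htV le_rfl) ?_
    apply H1.Coprime2.commutator_le_left
    exact H1.Coprime2.le_normalizer_commutator ((hsF.trans h.hFX).trans h.hX)
      (hsF.trans (F_le_normalizer_R t))
  · -- s centralizes [V, R t]
    have hsn := mem_normalizer_R h hsX hs htX ht
    have h2 : s ∈ centralizer ((⁅V, R F t⁆ : Subgroup Γ) : Set Γ) := by
      rw [← zpowers_le, le_centralizer_iff, ← commutator_eq_bot_iff_le_centralizer, eq_bot_iff, ← h1]
      refine le_inf ?_ ?_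
      · exact (commutator_mono htV le_rfl).trans (card_R h hsX hs).2.2
      · apply H1.Coprime2.commutator_le_left
        rw [zpowers_le]
        exact (H1.Coprime2.le_normalizer_commutator (B := zpowers s)
          (by rw [zpowers_le]; exact h.hX hsX) (by rw [zpowers_le]; exact hsn)) (mem_zpowers s)
    rw [mem_centralizer_iff]
    intro r hr
    have hrR : r ∈ R F t := hr
    have h3 : r⁻¹ * (s * r * s⁻¹) ∈ R F t ⊓ centralizer ((⁅V, R F t⁆ : Subgroup Γ) : Set Γ) := by
      refine Subgroup.mem_inf.mpr ⟨mul_mem (inv_mem hrR)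
        (H54.Basic.mul_inv_mem_of_mem_normalizer hsn hrR), ?_⟩
      rw [mem_centralizer_iff]
      intro v hv
      have hvV : v ∈ ⁅V, R F t⁆ := hv
      have hrn : r ∈ normalizer ((⁅V, R F t⁆ : Subgroup Γ) : Set Γ) :=
        H1.Coprime2.le_normalizer_commutator_right V (R F t) hrR
      have hsv : v * s = s * v := mem_centralizer_iff.mp h2 v hv
      have hv' : r * v * r⁻¹ ∈ ⁅V, R F t⁆ := H54.Basic.mul_inv_mem_of_mem_normalizer hrn hvV
      have hsv' : (r * v * r⁻¹) * s = s * (r * v * r⁻¹) := mem_centralizer_iff.mp h2 _ hv'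
      have e1 : s * r * s⁻¹ * v = (r * v * r⁻¹) * (s * r * s⁻¹) := by
        calc s * r * s⁻¹ * v = s * r * s⁻¹ * (v * s) * s⁻¹ := by group
          _ = s * r * s⁻¹ * (s * v) * s⁻¹ := by rw [hsv]
          _ = (s * (r * v * r⁻¹)) * r * s⁻¹ := by group
          _ = ((r * v * r⁻¹) * s) * r * s⁻¹ := by rw [hsv']
          _ = _ := by group
      calc v * (r⁻¹ * (s * r * s⁻¹)) = r⁻¹ * ((r * v * r⁻¹) * (s * r * s⁻¹)) := by group
        _ = r⁻¹ * (s * r * s⁻¹ * v) := by rw [e1]
        _ = _ := by group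
    rw [h.toFaith.faithful_on (htF.trans h.hFX) (odd_of_le h htF) le_rfl htV, mem_bot] at h3
    rw [inv_mul_eq_one] at h3
    calc r * s = (s * r * s⁻¹) * s := by rw [← h3]
      _ = s * r := by group

/-- groups `K = O^2(K) = [K,t]` are contained in `R_t`. -/
theorem le_R (h : FF V X F) {t : Γ} (htX : t ∈ X) (ht : IsTv V t) {K : Subgroup Γ} (hK : K ≤ X)
    (hKt : K ≤ ⁅K, zpowers t⁆) (hKO : K ≤ closure {x | x ∈ K ∧ (orderOf x).Coprime 2}) :
    K ≤ R F t := by
  obtain ⟨ht3, ht4, ht2⟩ := card_R h htX ht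
  have htF := R_le_F h htX
  have htV : ⁅V, R F t⁆ ≤ V := Act.comm_le ((htF.trans h.hFX).trans h.hX) le_rfl
  have hkt : ∀ k ∈ K, k * t * k⁻¹ ∈ X := fun k hk =>
    mul_mem (mul_mem (hK hk) htX) (inv_mem (hK hk))
  -- K normalizes R t
  have hKn : K ≤ normalizer ((R F t : Subgroup Γ) : Set Γ) := by
    refine hKt.trans ?_
    rw [commutator_le]
    intro k hk s hs
    rcases zpowers_tv ht.1 hs with rfl | rfl
    · rw [commutatorElement_one_right]; exact one_mem _
    · rw [commutatorElement_def]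
      exact mul_mem (mem_normalizer_R h (hkt k hk) (ht.conj (h.hX (hK hk))) htX ht)
        (inv_mem (mem_normalizer_R h htX ht htX ht))
  have hKV : K ≤ normalizer ((⁅V, R F t⁆ : Subgroup Γ) : Set Γ) :=
    H1.Coprime2.le_normalizer_commutator (hK.trans h.hX) hKn
  have htact : t ∈ Quad.actTriv V ⁅V, R F t⁆ := tv_mem_actTriv h.toFaith htX htV ht2
  have hKact : K ≤ Quad.actTriv V ⁅V, R F t⁆ := by
    refine hKt.trans ?_
    rw [commutator_le]
    intro k hk s hs
    rcases zpowers_tv ht.1 hs with rfl | rfl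
    · rw [commutatorElement_one_right]; exact one_mem _
    · rw [commutatorElement_def]
      have hn := Quad.le_normalizer_actTriv (X := K) (hK.trans h.hX) hKV hk
      exact mul_mem (H54.Basic.mul_inv_mem_of_mem_normalizer hn htact) (inv_mem htact)
  refine hKO.trans ?_
  rw [closure_le]
  rintro x ⟨hxK, hxo⟩
  have hx : zpowers x ≤ normalizer ((R F t : Subgroup Γ) : Set Γ) := by
    rw [zpowers_le]; exact hKn hxK
  have hodd : (Nat.card ↥(zpowers x ⊔ R F t)).Coprime 2 := by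
    have h1 := Thompson.card_sup_mul_card_inf hx
    have h2 : (Nat.card (zpowers x) * Nat.card (R F t)).Coprime 2 := by
      rw [Nat.card_zpowers, ht3]
      exact Nat.Coprime.mul_left hxo (by norm_num)
    rw [← h1] at h2
    exact Nat.Coprime.coprime_mul_right h2
  have hRact : R F t ≤ Quad.actTriv V ⁅V, R F t⁆ := by
    intro y hy
    exact mem_actTriv_of htV (h.hX (h.hFX (htF hy))) fun v hv => commutator_mem_commutator hv hy
  have h1 := card_le_three_of_four h.toFaith (D := zpowers x ⊔ R F t)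
    (sup_le (by rw [zpowers_le]; exact hK hxK) (htF.trans h.hFX)) hodd
    (commutator_le_of_le_actTriv (sup_le (by rw [zpowers_le]; exact hKact hxK) hRact)) ht4.le
  have h2 : R F t = zpowers x ⊔ R F t :=
    Subgroup.eq_of_le_of_card_ge le_sup_right (by rw [ht3]; exact h1)
  rw [h2]
  exact mem_sup_left (mem_zpowers x)

end T2

end H54.Transv
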