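import Mathlib.GroupTheory.SemidirectProduct
import Cfsg.Agent.Lib.H54.Transv

set_option autoImplicit false

/-!
The faithful semidirect product attached to a normal subgroup `V` of `H`.
-/

namespace H54.SemiAct

open Subgroup
open scoped commutatorElement

universe u

variable {H : Type u} [Group H] (V : Subgroup H) [hVn : V.Normal]

/-- action of `H / C(V)` on `V` -/
noncomputable def phi : H ⧸ centralizer (V : Set H) →* MulAut V :=
  QuotientGroup.lift (centralizer (V : Set H)) MulAut.conjNormal (by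
    intro g hg
    ext v
    rw [MulAut.conjNormal_apply]
    have := mem_centralizer_iff.mp hg v v.2
    rw [← this]; simp)

/-- the semidirect product -/
abbrev Gam := V ⋊[phi V] (H ⧸ centralizer (V : Set H))

instance [Finite H] : Finite (Gam V) := Finite.of_equiv _ SemidirectProduct.equivProd.symm

noncomputable def rho : H →* Gam V :=
  (SemidirectProduct.inr).comp (QuotientGroup.mk' (centralizer (V : Set H)))

noncomputable def iota : V →* Gam V := SemidirectProduct.inl

theorem iota_injective : Function.Injective (iota V) := SemidirectProduct.inl_injective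

theorem phi_mk (h : H) (v : V) : ((phi V (QuotientGroup.mk' _ h) v : V) : H) = h * v * h⁻¹ := by
  change ((MulAut.conjNormal h v : V) : H) = _
  rw [MulAut.conjNormal_apply]

theorem rho_conj (h : H) (v : V) : rho V h * iota V v * (rho V h)⁻¹ =
    iota V ⟨h * v * h⁻¹, hVn.conj_mem v v.2 h⟩ := by
  have h1 := SemidirectProduct.inl_aut (φ := phi V) (QuotientGroup.mk' _ h) v
  change SemidirectProduct.inr (QuotientGroup.mk' _ h) * SemidirectProduct.inl v *
    (SemidirectProduct.inr (QuotientGroup.mk' _ h))⁻¹ = _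
  rw [← map_inv, ← h1]
  change SemidirectProduct.inl _ = SemidirectProduct.inl _
  congr 1

theorem rho_eq_one_iff (h : H) : rho V h = 1 ↔ h ∈ centralizer (V : Set H) := by
  change SemidirectProduct.inr (QuotientGroup.mk' _ h) = 1 ↔ _
  rw [← map_one (SemidirectProduct.inr (φ := phi V)), SemidirectProduct.inr_injective.eq_iff]
  exact QuotientGroup.eq_one_iff h

theorem rho_eq_iff (g h : H) : rho V g = rho V h ↔ g⁻¹ * h ∈ centralizer (V : Set H) := by
  rw [← rho_eq_one_iff, map_mul, map_inv, inv_mul_eq_one]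

theorem ker_rho : (rho V).ker = centralizer (V : Set H) := by
  ext h
  rw [MonoidHom.mem_ker, rho_eq_one_iff]

/-- image in the semidirect product of a subgroup of `V` -/
noncomputable def im (W : Subgroup H) : Subgroup (Gam V) := (W.subgroupOf V).map (iota V)

variable {V}

theorem mem_im {W : Subgroup H} {v : V} : iota V v ∈ im V W ↔ (v : H) ∈ W := by
  constructor
  · rintro ⟨w, hw, hwv⟩
    rw [← iota_injective V hwv]
    exact hw
  · intro h
    exact ⟨v, h, rfl⟩

theorem im_le {W W' : Subgroup H} (h : W ≤ W') : im V W ≤ im V W' :=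
  Subgroup.map_mono (comap_mono h)

theorem im_le_im_iff {W W' : Subgroup H} (hW : W ≤ V) : im V W ≤ im V W' ↔ W ≤ W' := by
  refine ⟨fun h x hx => ?_, im_le⟩
  exact mem_im.mp (h (mem_im (v := ⟨x, hW hx⟩) |>.mpr hx))

theorem card_im {W : Subgroup H} (hW : W ≤ V) : Nat.card (im V W) = Nat.card W := by
  rw [im, H13.Thompson.card_map_of_injective (iota_injective V)]
  exact Nat.card_congr (subgroupOfEquivOfLe hW).toEquiv

theorem exists_of_mem_im {W : Subgroup H} {x : Gam V} (hx : x ∈ im V W) :
    ∃ v : V, (v : H) ∈ W ∧ iota V v = x := by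
  obtain ⟨v, hv, rfl⟩ := hx
  exact ⟨v, hv, rfl⟩

theorem im_inf (W W' : Subgroup H) : im V W ⊓ im V W' = im V (W ⊓ W') := by
  apply le_antisymm
  · rintro x ⟨h1, h2⟩
    obtain ⟨v, hv, rfl⟩ := exists_of_mem_im h1
    exact mem_im.mpr (Subgroup.mem_inf.mpr ⟨hv, mem_im.mp h2⟩)
  · exact le_inf (im_le inf_le_left) (im_le inf_le_right)

theorem comm_iota_rho (v : V) (h : H) : ⁅iota V v, rho V h⁆ =
    iota V ⟨v * (h * (v : H)⁻¹ * h⁻¹), mul_mem v.2 (hVn.conj_mem _ (inv_mem v.2) h)⟩ := by
  rw [commutatorElement_def]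
  have : iota V v * rho V h * (iota V v)⁻¹ * (rho V h)⁻¹ =
    iota V v * (rho V h * iota V v⁻¹ * (rho V h)⁻¹) := by rw [map_inv]; group
  rw [this, rho_conj, ← map_mul]
  rfl

theorem commute_iff (v : V) (h : H) : iota V v * rho V h = rho V h * iota V v ↔
    (v : H) * h = h * v := by
  have h1 := rho_conj V h v
  constructor
  · intro h2
    rw [← h2] at h1
    have h3 : iota V v * rho V h * (rho V h)⁻¹ = iota V v := by group
    rw [h3] at h1
    have h4 := congrArg Subtype.val (iota_injective V h1)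
    simp only at h4
    calc (v : H) * h = (h * v * h⁻¹) * h := by rw [← h4]
      _ = h * v := by group
  · intro h2
    have h4 : (⟨h * v * h⁻¹, hVn.conj_mem v v.2 h⟩ : V) = v := by
      apply Subtype.ext
      change h * v * h⁻¹ = v
      rw [← h2]; group
    rw [h4] at h1
    calc iota V v * rho V h = (rho V h * iota V v * (rho V h)⁻¹) * rho V h := by rw [h1]
      _ = _ := by group

theorem im_inf_centralizer (W A : Subgroup H) :
    im V W ⊓ centralizer ((A.map (rho V) : Subgroup (Gam V)) : Set (Gam V)) =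
      im V (W ⊓ centralizer (A : Set H)) := by
  apply le_antisymm
  · rintro x ⟨h1, h2⟩
    obtain ⟨v, hv, rfl⟩ := exists_of_mem_im h1
    refine mem_im.mpr (Subgroup.mem_inf.mpr ⟨hv, ?_⟩)
    rw [mem_centralizer_iff]
    intro a ha
    have h3 := mem_centralizer_iff.mp h2 (rho V a) (mem_map_of_mem _ ha)
    exact ((commute_iff v a).mp h3.symm).symm
  · intro x hx
    obtain ⟨v, hv, rfl⟩ := exists_of_mem_im hx
    refine Subgroup.mem_inf.mpr ⟨mem_im.mpr hv.1, ?_⟩
    rw [mem_centralizer_iff]
    rintro _ ⟨a, ha, rfl⟩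
    exact ((commute_iff v a).mpr (mem_centralizer_iff.mp hv.2 a ha).symm).symm

theorem im_inf_centralizer_singleton (W : Subgroup H) (a : H) :
    im V W ⊓ centralizer ({rho V a} : Set (Gam V)) = im V (W ⊓ centralizer ({a} : Set H)) := by
  apply le_antisymm
  · rintro x ⟨h1, h2⟩
    obtain ⟨v, hv, rfl⟩ := exists_of_mem_im h1
    refine mem_im.mpr (Subgroup.mem_inf.mpr ⟨hv, ?_⟩)
    rw [mem_centralizer_singleton_iff]
    exact (commute_iff v a).mp (mem_centralizer_singleton_iff.mp h2)
  · intro x hx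
    obtain ⟨v, hv, rfl⟩ := exists_of_mem_im hx
    refine Subgroup.mem_inf.mpr ⟨mem_im.mpr hv.1, ?_⟩
    exact mem_centralizer_singleton_iff.mpr
      ((commute_iff v a).mpr (mem_centralizer_singleton_iff.mp hv.2))

theorem commutator_im {W : Subgroup H} (hW : W ≤ V) (A : Subgroup H) :
    ⁅im V W, A.map (rho V)⁆ = im V ⁅W, A⁆ := by
  apply le_antisymm
  · rw [commutator_le]
    rintro x hx _ ⟨a, ha, rfl⟩
    obtain ⟨v, hv, rfl⟩ := exists_of_mem_im hx
    rw [comm_iota_rho]
    refine mem_im.mpr ?_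
    have := commutator_mem_commutator (H₁ := W) (H₂ := A) hv ha
    rw [commutatorElement_def] at this
    have e : (v : H) * (a * (v : H)⁻¹ * a⁻¹) = (v : H) * a * (v : H)⁻¹ * a⁻¹ := by group
    change (v : H) * (a * (v : H)⁻¹ * a⁻¹) ∈ ⁅W, A⁆
    rw [e]; exact this
  · have h1 : ⁅W, A⁆ ≤ (⁅im V W, A.map (rho V)⁆.comap (iota V)).map V.subtype := by
      rw [commutator_le]
      intro w hw a ha
      refine ⟨⟨w * (a * w⁻¹ * a⁻¹), mul_mem (hW hw) (hVn.conj_mem _ (inv_mem (hW hw)) a)⟩, ?_, ?_⟩
      · rw [SetLike.mem_coe, mem_comap]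
        have h2 := comm_iota_rho (V := V) ⟨w, hW hw⟩ a
        rw [← h2]
        exact commutator_mem_commutator (mem_im.mpr hw) (mem_map_of_mem _ ha)
      · change w * (a * w⁻¹ * a⁻¹) = ⁅w, a⁆
        rw [commutatorElement_def]; group
    intro x hx
    obtain ⟨v, hv, rfl⟩ := exists_of_mem_im hx
    obtain ⟨v', hv', hvv⟩ := h1 hv
    have : v' = v := Subtype.ext hvv
    rw [← this]
    exact hv'

theorem map_le_normalizer_im (A : Subgroup H) {W : Subgroup H} (hA : A ≤ normalizer (W : Set H)) :
    A.map (rho V) ≤ normalizer ((im V W : Subgroup (Gam V)) : Set (Gam V)) := by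
  apply H54.Basic.le_normalizer_of_conj
  rintro _ ⟨a, ha, rfl⟩ x hx
  obtain ⟨v, hv, rfl⟩ := exists_of_mem_im hx
  rw [rho_conj]
  exact mem_im.mpr (H54.Basic.mul_inv_mem_of_mem_normalizer (hA ha) hv)

theorem faith (hV : Cfsg.IsElementaryAbelian 2 V) :
    Transv.Faith (im V V) (rho V).range := by
  refine ⟨?_, ?_, ?_⟩
  · rw [im]
    apply H13.ElemAb.map
    exact H13.ElemAb.subgroupOf hV V
  · rw [MonoidHom.range_eq_map]
    apply map_le_normalizer_im
    rw [normalizer_eq_top]
  · rw [eq_bot_iff]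
    rintro x ⟨⟨h, rfl⟩, h2⟩
    rw [mem_bot, rho_eq_one_iff, mem_centralizer_iff]
    intro v hv
    have h3 := mem_centralizer_iff.mp h2 (iota V ⟨v, hv⟩) (mem_im.mpr hv)
    exact (commute_iff ⟨v, hv⟩ h).mp h3

theorem card_map_rho [Finite H] (A : Subgroup H) :
    Nat.card (A.map (rho V)) * Nat.card ↥(A ⊓ centralizer (V : Set H)) = Nat.card A := by
  have h1 := card_mul_index (((rho V).comp A.subtype).ker)
  have h2 : Nat.card ↥((rho V).comp A.subtype).ker = Nat.card ↥(A ⊓ centralizer (V : Set H)) := by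
    have h3 : ((rho V).comp A.subtype).ker = (A ⊓ centralizer (V : Set H)).subgroupOf A := by
      ext x
      rw [MonoidHom.mem_ker, MonoidHom.comp_apply, mem_subgroupOf]
      rw [Subgroup.mem_inf]
      constructor
      · intro h
        exact ⟨x.2, (rho_eq_one_iff V _).mp h⟩
      · rintro ⟨-, h⟩
        exact (rho_eq_one_iff V _).mpr h
    rw [h3]
    exact Nat.card_congr (subgroupOfEquivOfLe inf_le_left).toEquiv
  have h3 : ((rho V).comp A.subtype).ker.index = Nat.card (A.map (rho V)) := by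
    rw [index_ker, MonoidHom.range_comp]
    rw [Subgroup.range_subtype]
  rw [← h1, h2, h3, mul_comm]

theorem isTv_iff [Finite H] (t : H) : Transv.IsTv (im V V) (rho V t) ↔
    t * t ∈ centralizer (V : Set H) ∧ (V ⊓ centralizer ({t} : Set H)).relIndex V = 2 := by
  unfold Transv.IsTv
  rw [← map_mul, rho_eq_one_iff, im_inf_centralizer_singleton]
  have h1 : (im V (V ⊓ centralizer ({t} : Set H))).relIndex (im V V) =
      (V ⊓ centralizer ({t} : Set H)).relIndex V := by
    rw [im, im, relIndex_map_map_of_injective _ _ (iota_injective V)]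
    rw [subgroupOf_self, relIndex_top_right]
    rfl
  rw [h1]

end H54.SemiAct
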