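import Cfsg.Agent.Lib.H54.JTh3

set_option autoImplicit false
set_option linter.dupNamespace false
set_option linter.unusedSectionVars false

/-!
Global hypotheses for the analysis of J(T)-components.
-/

namespace H54.Setup

open Subgroup H54.PreComp H52.PRes H52.PCore H52.Syl H52.Sub H54.JTh
open H54.MaxEA H54.WOf H54.KP
open scoped commutatorElement

universe u

variable {G : Type u} [Group G]

local notation "O₂" => Cfsg.pCoreOf 2
local notation "ΩZ" => Cfsg.omegaCenterOf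
local notation "wOf" => Cfsg.wOf
local notation "JT" => Cfsg.thompsonSubgroupOf 2

/-- the global hypotheses -/
structure Glob (G : Type u) [Group G] : Prop where
  ch : Cfsg.IsCharacteristicTwoType G
  sv : ∀ N : Subgroup G, Cfsg.IsTwoLocal N → Group.IsSolvable ↥N
  cz : ∀ S : Sylow 2 G, centralizer (ΩZ (S : Subgroup G) : Set G) ≤
    normalizer ((S : Subgroup G) : Set G)

/-- the condition on `K` to be a component depends only on `J` -/
structure JComp (J K : Subgroup G) : Prop where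
  pre : PreComp J K
  syl : ∀ S : Subgroup G, SylIn 2 S (K ⊔ J) → J ≤ S → JT S = J
  card : Nat.card (wOf K) = 4

variable [Finite G]

theorem syl_iff {T L : Subgroup G} : Cfsg.IsSylowTwoIn T L ↔ SylIn 2 T L := by
  constructor
  · rintro ⟨h1, h2, h3⟩
    refine sylIn_of_relIndex h1 h2 ?_
    rw [← even_iff_two_dvd, Nat.not_even_iff_odd]
    exact h3
  · intro h
    refine ⟨h.le, h.isPGroup, ?_⟩
    rw [← Nat.not_even_iff_odd, even_iff_two_dvd]
    exact h.relIndex

theorem isJComponent_iff {T K : Subgroup G} : Cfsg.IsJComponent T K ↔ JComp (JT T) K := by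
  constructor
  · rintro ⟨h1, h2, h3, h4, h5, -⟩
    exact ⟨⟨h1, h2, h3⟩, fun S hS => h4 S (syl_iff.mpr hS), h5⟩
  · rintro ⟨⟨h1, h2, h3⟩, h4, h5⟩
    refine ⟨h1, h2, h3, fun S hS => h4 S (syl_iff.mp hS), h5, ?_⟩
    intro w hw
    have := (H13.ElemAb.iff_mem.mp (isEA_wOf K)).2 w hw
    rwa [pow_two] at this

theorem JComp.wne {J K : Subgroup G} (h : JComp J K) : wOf K ≠ ⊥ := by
  intro hcon
  have := h.card
  rw [hcon, card_bot] at this
  omega

theorem cj_comp {J K : Subgroup G} (h : JComp J K) (g : G) : JComp (cj g J) (cj g K) := by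
  refine ⟨h.pre.map_conj g, ?_, ?_⟩
  · intro S hS hJ
    have h1 : SylIn 2 (cj g⁻¹ S) (K ⊔ J) := by
      have := hS.cj g⁻¹
      rwa [cj_sup, cj_inv_cj, cj_inv_cj] at this
    have h2 : J ≤ cj g⁻¹ S := by
      rw [le_cj_iff, inv_inv]; exact hJ
    have h3 := h.syl _ h1 h2
    have h4 := congrArg (cj g) h3
    have h5 := H13.SylowN.thompsonOf_map_conj (p := 2) g (cj g⁻¹ S)
    change cj g (JT (cj g⁻¹ S)) = JT (cj g (cj g⁻¹ S)) at h5
    rw [h5, cj_cj_inv] at h4
    exact h4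
  · have := wOf_map_conj g K
    change wOf (cj g K) = cj g (wOf K) at this
    rw [this, card_cj]
    exact h.card

theorem thompson_cj (g : G) (S : Subgroup G) : JT (cj g S) = cj g (JT S) :=
  (H13.SylowN.thompsonOf_map_conj (p := 2) g S).symm

theorem wOf_cj (g : G) (K : Subgroup G) : wOf (cj g K) = cj g (wOf K) := wOf_map_conj g K

namespace Glob

theorem core_ne_bot {N : Subgroup G} (hN : Cfsg.IsTwoLocal N) : O₂ N ≠ ⊥ := by
  obtain ⟨T, hT, hT1, rfl⟩ := hN
  have h1 : T ≤ O₂ (normalizer (T : Set G)) := le_pCoreOf Subgroup.le_normalizer le_rfl hT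
  intro h2
  rw [h2] at h1
  exact hT1 (le_bot_iff.mp h1)

theorem char2 (h : Glob G) {N : Subgroup G} (hN : Cfsg.IsTwoLocal N) :
    centralizer ((O₂ N : Subgroup G) : Set G) ≤ O₂ N := by
  obtain ⟨T, hT, hT1, rfl⟩ := hN
  have h1 : T ≤ O₂ (normalizer (T : Set G)) := le_pCoreOf Subgroup.le_normalizer le_rfl hT
  have h2 := h.ch.2 T hT hT1
  intro x hx
  have hxN : x ∈ normalizer (T : Set G) :=
    centralizer_le_normalizer T (centralizer_le h1 hx)
  have h3 : (⟨x, hxN⟩ : ↥(normalizer (T : Set G))) ∈ Cfsg.pCore 2 ↥(normalizer (T : Set G)) := by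
    apply h2
    rw [mem_centralizer_iff]
    intro y hy
    apply Subtype.ext
    exact mem_centralizer_iff.mp hx y ⟨y, hy, rfl⟩
  exact ⟨_, h3, rfl⟩

theorem solv_of_core (h : Glob G) {L : Subgroup G} (hL : O₂ L ≠ ⊥) : Group.IsSolvable L := by
  have h1 := h.sv (normalizer ((O₂ L : Subgroup G) : Set G)) ⟨O₂ L, isPGroup_pCoreOf L, hL, rfl⟩
  exact H1.Coprime.isSolvable_of_le (le_normalizer_pCoreOf L) h1

theorem core_ne_bot_of {T L : Subgroup G} (_hTL : T ≤ L) (hT1 : T ≠ ⊥)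
    (hC : centralizer ((O₂ L : Subgroup G) : Set G) ≤ O₂ L) : O₂ L ≠ ⊥ := by
  intro hcon
  rw [hcon] at hC
  apply hT1
  rw [← le_bot_iff]
  refine le_trans ?_ hC
  intro x _
  rw [mem_centralizer_iff]
  intro y hy
  have : y = 1 := mem_bot.mp hy
  rw [this]; simp

theorem Z_le {T L : Subgroup G} (hT : SylIn 2 T L)
    (hC : centralizer ((O₂ L : Subgroup G) : Set G) ≤ O₂ L) {S₀ : Subgroup G}
    (hTS : T ≤ S₀) : ΩZ S₀ ≤ O₂ L := by
  refine le_trans ?_ hC
  refine (omega_le_centralizer S₀).trans (centralizer_le ?_)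
  exact hT.pCoreOf_le.trans hTS

/-- the main source of `LH` -/
theorem lh (h : Glob G) {T L : Subgroup G} (hT : SylIn 2 T L) (hT1 : T ≠ ⊥)
    (hC : centralizer ((O₂ L : Subgroup G) : Set G) ≤ O₂ L) (S₀ : Sylow 2 G)
    (hTS : T ≤ (S₀ : Subgroup G)) : LH L T (VZ L (ΩZ (S₀ : Subgroup G))) (JT T) := by
  have hne := core_ne_bot_of hT.le hT1 hC
  apply lh_mk (h.solv_of_core hne) hT (isEA_omega _) (Z_le hT hC hTS)
    (hTS.trans (le_centralizer_omega _))
  have hST : (S₀ : Subgroup G) ⊓ L = T := hT.max inf_le_right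
    (S₀.isPGroup'.to_le inf_le_left) (le_inf hTS hT.le)
  conv_rhs => rw [← hST]
  refine H1.Coprime2.le_normalizer_inf (inf_le_right.trans (h.cz S₀)) ?_
  exact inf_le_left.trans Subgroup.le_normalizer

end Glob

end H54.Setup

namespace H54.JTh.LH

open Subgroup H54.PreComp H52.PRes H52.PCore H52.Syl H52.Sub H54.JTh
open H54.MaxEA H54.WOf H54.KP
open scoped commutatorElement

universe u

variable {G : Type u} [Group G] [Finite G] {L T V J : Subgroup G}

theorem V_ea (h : LH L T V J) : Cfsg.IsElementaryAbelian 2 V := by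
  have := h.hn
  have h1 := H13.ElemAb.map h.hyp.act.ela L.subtype
  rwa [map_subgroupOf_eq_of_le h.VL] at h1

theorem V_le_core (h : LH L T V J) : V ≤ Cfsg.pCoreOf 2 L := by
  have h1 := h.hn
  exact le_pCoreOf h.VL ((normal_subOf_iff h.VL).mp h1) (H13.ElemAb.isPGroup h.V_ea)

theorem L_le_norm (h : LH L T V J) : L ≤ normalizer (V : Set G) :=
  (normal_subOf_iff h.VL).mp h.hn

/-- `[V,K] = W_K` -/
theorem comm_eq_wOf (h : LH L T V J) {K : Subgroup G} (hKL : K ≤ L) (hK : PreComp J K)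
    (hW : Nat.card (Cfsg.wOf K) = 4) : ⁅V, K⁆ = Cfsg.wOf K := by
  have hVK : V ≤ normalizer (K : Set G) := h.V_le_core.trans (h.core_le_norm hKL hK)
  have h1 : ⁅V, K⁆ ≤ K := H1.Coprime2.commutator_le_right hVK
  have h2 : ⁅V, K⁆ ≤ V := H1.Coprime2.commutator_le_left (hKL.trans h.L_le_norm)
  have hV2 : IsPGroup 2 V := H13.ElemAb.isPGroup h.V_ea
  have h3 : ⁅V, K⁆ ≤ Cfsg.pCoreOf 2 K :=
    le_pCoreOf h1 (H1.Coprime2.le_normalizer_commutator_right _ _) (hV2.to_le h2)
  have hPV : Cfsg.pCoreOf 2 K ≤ centralizer (V : Set G) :=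
    (h.core_le_core hKL hK).trans h.V_centralizes_core
  have h4 : ⁅V, K⁆ ≤ Cfsg.omegaCenterOf (Cfsg.pCoreOf 2 K) := by
    intro x hx
    rw [mem_omega]
    refine ⟨h3 hx, ?_, (H13.ElemAb.iff_mem.mp h.V_ea).2 x (h2 hx)⟩
    rw [le_centralizer_iff] at hPV
    exact hPV (h2 hx)
  have h5 : ⁅V, K⁆ ≤ Cfsg.wOf K := by
    rw [← hK.toKP.comm_comm (hKL.trans h.L_le_norm) hV2 hPV]
    exact commutator_mono h4 le_rfl
  apply eq_of_le_of_card_ge h5
  rw [hW, h.card_comm hKL hK]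

/-- `T` permutes the components -/
theorem mem_normalizer_of_fix (h : LH L T V J) {K : Subgroup G} (hKL : K ≤ L) (hK : PreComp J K)
    {x : G} (hxL : x ∈ L) (hxJ : x ∈ normalizer (J : Set G)) {z : G} (hz : z ∈ ⁅V, K⁆) (hz1 : z ≠ 1)
    (hxz : x * z * x⁻¹ ∈ ⁅V, K⁆) : x ∈ normalizer (K : Set G) := by
  have hKx : PreComp J (cj x K) := by
    have := hK.map_conj x
    rwa [(H54.Basic.map_conj_eq_iff x J).mpr hxJ] at this
  have hKxL : cj x K ≤ L := by
    have := cj_mono (g := x) hKL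
    rwa [cj_of_mem hxL] at this
  have hVx : cj x V = V := cj_eq_of_mem_normalizer (h.L_le_norm hxL)
  have h1 : cj x ⁅V, K⁆ = ⁅V, cj x K⁆ := by rw [cj_commutator, hVx]
  have h2 : cj x K = K := by
    apply h.eq_of_inf_ne hKxL hKL hKx hK
    intro hcon
    have h3 : x * z * x⁻¹ ∈ ⁅V, cj x K⁆ ⊓ ⁅V, K⁆ := by
      refine Subgroup.mem_inf.mpr ⟨?_, hxz⟩
      rw [← h1]; exact conj_mem_cj hz
    rw [hcon, mem_bot] at h3
    apply hz1
    have : z = x⁻¹ * (x * z * x⁻¹) * x := by group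
    rw [this, h3]; group
  exact mem_normalizer_of_cj_eq h2

end H54.JTh.LH
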