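import Cfsg.Agent.Lib.H54.SemiAct
import Cfsg.Agent.Lib.H1.Solv
import Cfsg.Agent.Lib.H1.Cores

set_option autoImplicit false

/-!
Transvections in a solvable group `H` acting on a normal elementary abelian 2-subgroup `V` with
`O_2(H/C_H(V)) = 1`.
-/

namespace H54.SolvAct

open Subgroup H54.SemiAct H54.Transv
open scoped commutatorElement

universe u

variable {H : Type u} [Group H]

structure Act (V : Subgroup H) [V.Normal] : Prop where
  solv : Group.IsSolvable H
  ela : Cfsg.IsElementaryAbelian 2 V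
  red : Cfsg.pCore 2 (H ⧸ centralizer (V : Set H)) = ⊥

/-- transvections of `H` on `V` -/
def IsT (V : Subgroup H) (t : H) : Prop :=
  t * t ∈ centralizer (V : Set H) ∧ (V ⊓ centralizer ({t} : Set H)).relIndex V = 2

variable (V : Subgroup H) [hVn : V.Normal]

/-- preimage of the Fitting subgroup -/
def Fh : Subgroup H :=
  (Cfsg.fittingSubgroup (H ⧸ centralizer (V : Set H))).comap (QuotientGroup.mk' _)

instance Fh_normal : (Fh V).Normal := by unfold Fh; infer_instance

theorem centralizer_le_Fh : centralizer (V : Set H) ≤ Fh V := by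
  intro x hx
  rw [Fh, mem_comap]
  have : (QuotientGroup.mk' (centralizer (V : Set H))) x = 1 := (QuotientGroup.eq_one_iff x).mpr hx
  rw [this]; exact one_mem _

theorem map_Fh : (Fh V).map (rho V) =
    (Cfsg.fittingSubgroup (H ⧸ centralizer (V : Set H))).map
      (SemidirectProduct.inr (φ := phi V)) := by
  rw [rho, ← Subgroup.map_map, Fh, map_comap_eq_self_of_surjective (QuotientGroup.mk'_surjective _)]

/-- the preimage of `R_t` -/
noncomputable def Rh (t : H) : Subgroup H := (R ((Fh V).map (rho V)) (rho V t)).comap (rho V)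

variable {V} [Finite H]

theorem isTv_iff' {t : H} : IsTv (im V V) (rho V t) ↔ IsT V t := isTv_iff t

theorem Act.faith (h : Act V) : Faith (im V V) (rho V).range := SemiAct.faith h.ela

theorem Act.ff (h : Act V) : FF (im V V) (rho V).range ((Fh V).map (rho V)) where
  toFaith := h.faith
  hFX := by rw [MonoidHom.range_eq_map]; exact Subgroup.map_mono le_top
  hXF := by
    apply H54.Basic.le_normalizer_of_conj
    rintro _ ⟨g, rfl⟩ _ ⟨f, hf, rfl⟩
    rw [← map_inv, ← map_mul, ← map_mul]
    exact mem_map_of_mem _ ((Fh_normal V).conj_mem f hf g)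
  hFo := by
    have : Fact (Nat.Prime 2) := ⟨Nat.prime_two⟩
    rw [map_Fh, H13.Thompson.card_map_of_injective SemidirectProduct.inr_injective]
    have h1 := H1.Cores.not_dvd_relIndex_pCore_fittingSubgroup
      (G := H ⧸ centralizer (V : Set H)) 2
    rw [h.red, relIndex_bot_left] at h1
    exact ((Nat.Prime.coprime_iff_not_dvd Nat.prime_two).mpr h1).symm
  hnil := by
    rw [map_Fh]
    have h1 := H1.Cores.isNilpotent_fittingSubgroup (G := H ⧸ centralizer (V : Set H))
    exact Group.nilpotent_of_mulEquiv (equivMapOfInjective _ _ SemidirectProduct.inr_injective)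
  hCF := by
    rw [map_Fh]
    rintro _ ⟨⟨g, rfl⟩, hg⟩
    have hs : Group.IsSolvable (H ⧸ centralizer (V : Set H)) := by
      have := h.solv
      infer_instance
    have h1 := H1.Solv.centralizer_fitting_le hs
    refine ⟨QuotientGroup.mk' _ g, h1 ?_, rfl⟩
    rw [mem_centralizer_iff]
    intro f hf
    have h2 := mem_centralizer_iff.mp hg (SemidirectProduct.inr f) (mem_map_of_mem _ hf)
    have h3 : (SemidirectProduct.inr (φ := phi V)) (f * QuotientGroup.mk' _ g) =
        SemidirectProduct.inr (QuotientGroup.mk' _ g * f) := by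
      rw [map_mul, map_mul]; exact h2
    exact SemidirectProduct.inr_injective h3

omit [Finite H] in
theorem rho_mem (t : H) : rho V t ∈ (rho V).range := ⟨t, rfl⟩

omit [Finite H] in
theorem centralizer_le_Rh (t : H) : centralizer (V : Set H) ≤ Rh V t := by
  intro x hx
  rw [Rh, mem_comap, (rho_eq_one_iff V x).mpr hx]
  exact one_mem _

theorem map_Rh (h : Act V) (t : H) : (Rh V t).map (rho V) = R ((Fh V).map (rho V)) (rho V t) := by
  rw [Rh, map_comap_eq, inf_eq_right]
  exact (R_le_F h.ff (rho_mem t)).trans h.ff.hFX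

omit [Finite H] in
theorem mem_Rh {t x : H} : x ∈ Rh V t ↔ rho V x ∈ R ((Fh V).map (rho V)) (rho V t) := Iff.rfl

omit [Finite H] in
theorem mem_of_rho_mem_map {A : Subgroup H} (hA : centralizer (V : Set H) ≤ A) {x : H}
    (hx : rho V x ∈ A.map (rho V)) : x ∈ A := by
  obtain ⟨a, ha, hax⟩ := hx
  rw [rho_eq_iff] at hax
  have : x = a * (a⁻¹ * x) := by group
  rw [this]
  exact mul_mem ha (hA hax)

theorem Rh_le_Fh (h : Act V) (t : H) : Rh V t ≤ Fh V := by
  intro x hx
  exact mem_of_rho_mem_map (centralizer_le_Fh V) (R_le_F h.ff (rho_mem t) hx)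

omit [Finite H] in
theorem mem_normalizer_comap {A : Subgroup (Gam V)} {x : H}
    (hx : rho V x ∈ normalizer (A : Set (Gam V))) : x ∈ normalizer ((A.comap (rho V) : Subgroup H) : Set H) := by
  apply H54.Basic.mem_normalizer_of_conj
  · intro y hy
    rw [mem_comap] at hy ⊢
    rw [map_mul, map_mul, map_inv]
    exact H54.Basic.mul_inv_mem_of_mem_normalizer hx hy
  · intro y hy
    rw [mem_comap] at hy ⊢
    rw [map_mul, map_mul, map_inv]
    exact H54.Basic.inv_mul_mem_of_mem_normalizer hx hy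

theorem Fh_le_normalizer_Rh (t : H) : Fh V ≤ normalizer ((Rh V t : Subgroup H) : Set H) := by
  intro x hx
  apply mem_normalizer_comap
  exact F_le_normalizer_R (rho V t) (mem_map_of_mem _ hx)

omit [Finite H] in
theorem IsT.conj {t : H} (ht : IsT V t) (g : H) : IsT V (g * t * g⁻¹) := by
  have hg : g ∈ normalizer (V : Set H) := by rw [normalizer_eq_top]; exact mem_top g
  refine ⟨?_, ?_⟩
  · have h1 : g * t * g⁻¹ * (g * t * g⁻¹) = g * (t * t) * g⁻¹ := by group
    rw [h1]
    exact (inferInstance : (centralizer (V : Set H)).Normal).conj_mem _ ht.1 g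
  · have h1 : (V ⊓ centralizer ({g * t * g⁻¹} : Set H)) =
        (V ⊓ centralizer ({t} : Set H)).map (MulAut.conj g).toMonoidHom := by
      ext x
      rw [H54.Basic.mem_map_conj]
      constructor
      · intro hx
        refine Subgroup.mem_inf.mpr ⟨H54.Basic.inv_mul_mem_of_mem_normalizer hg hx.1, ?_⟩
        have h2 := mem_centralizer_singleton_iff.mp (Subgroup.mem_inf.mp hx).2
        rw [mem_centralizer_singleton_iff]
        calc g⁻¹ * x * g * t = g⁻¹ * (x * (g * t * g⁻¹)) * g := by group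
          _ = g⁻¹ * ((g * t * g⁻¹) * x) * g := by rw [h2]
          _ = _ := by group
      · intro hx
        have hx1 := (Subgroup.mem_inf.mp hx).1
        have h2 := mem_centralizer_singleton_iff.mp (Subgroup.mem_inf.mp hx).2
        refine Subgroup.mem_inf.mpr ⟨?_, ?_⟩
        · have := H54.Basic.mul_inv_mem_of_mem_normalizer hg hx1
          have e : g * (g⁻¹ * x * g) * g⁻¹ = x := by group
          rwa [e] at this
        · rw [mem_centralizer_singleton_iff]
          calc x * (g * t * g⁻¹) = g * ((g⁻¹ * x * g) * t) * g⁻¹ := by group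
            _ = g * (t * (g⁻¹ * x * g)) * g⁻¹ := by rw [h2]
            _ = _ := by group
    have h3 : V.map (MulAut.conj g).toMonoidHom = V := (H54.Basic.map_conj_eq_iff g V).mpr hg
    have h5 := relIndex_map_map_of_injective (V ⊓ centralizer ({t} : Set H)) V
      (f := (MulAut.conj g).toMonoidHom) (MulAut.conj g).injective
    rw [h3] at h5
    rw [h1, h5]
    exact ht.2

theorem map_conj_Rh (h : Act V) (t g : H) :
    (Rh V t).map (MulAut.conj g).toMonoidHom = Rh V (g * t * g⁻¹) := by
  have h1 := map_conj_R h.ff (t := rho V t) (rho_mem g)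
  ext x
  rw [H54.Basic.mem_map_conj, mem_Rh, mem_Rh, map_mul, map_mul, map_inv, map_mul, map_mul, map_inv,
    ← h1, H54.Basic.mem_map_conj]

/-- `|R_t/C| = 3` -/
theorem relIndex_Rh (h : Act V) {t : H} (ht : IsT V t) :
    (centralizer (V : Set H)).relIndex (Rh V t) = 3 := by
  have h1 := card_map_rho (V := V) (Rh V t)
  rw [map_Rh h, (card_R h.ff (rho_mem t) (isTv_iff'.mpr ht)).1,
    inf_eq_right.mpr (centralizer_le_Rh t)] at h1
  have h2 := H13.Replace.card_eq_mul_relIndex (centralizer_le_Rh (V := V) t)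
  rw [← h1, mul_comm] at h2
  exact (Nat.eq_of_mul_eq_mul_left Nat.card_pos h2).symm

theorem card_comm_Rh (h : Act V) {t : H} (ht : IsT V t) : Nat.card ↥⁅V, Rh V t⁆ = 4 := by
  have h1 := (card_R h.ff (rho_mem t) (isTv_iff'.mpr ht)).2.1
  rw [← map_Rh h, commutator_im le_rfl, card_im (commutator_le_left V _)] at h1
  exact h1

theorem comm_zpowers_le (h : Act V) {t : H} (ht : IsT V t) : ⁅V, zpowers t⁆ ≤ ⁅V, Rh V t⁆ := by
  have h1 := (card_R h.ff (rho_mem t) (isTv_iff'.mpr ht)).2.2
  rw [← map_Rh h, commutator_im le_rfl, ← MonoidHom.map_zpowers, commutator_im le_rfl,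
    im_le_im_iff (commutator_le_left V _)] at h1
  exact h1

theorem mem_normalizer_Rh (h : Act V) {s t : H} (hs : IsT V s) (ht : IsT V t) :
    s ∈ normalizer ((Rh V t : Subgroup H) : Set H) :=
  mem_normalizer_comap (mem_normalizer_R h.ff (rho_mem s) (isTv_iff'.mpr hs) (rho_mem t)
    (isTv_iff'.mpr ht))

theorem Rh_eq_of_R_eq {s t : H} (h : R ((Fh V).map (rho V)) (rho V s) =
    R ((Fh V).map (rho V)) (rho V t)) : Rh V s = Rh V t := by
  rw [Rh, Rh, h]

theorem of_Rh_ne (h : Act V) {s t : H} (hs : IsT V s) (ht : IsT V t) (hne : Rh V s ≠ Rh V t) :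
    ⁅V, Rh V s⁆ ⊓ ⁅V, Rh V t⁆ = ⊥ ∧ Rh V s ≤ centralizer ((⁅V, Rh V t⁆ : Subgroup H) : Set H) ∧
      ∀ r ∈ Rh V t, ⁅r, s⁆ ∈ centralizer (V : Set H) := by
  obtain ⟨h1, h2, h3⟩ := of_R_ne h.ff (rho_mem s) (isTv_iff'.mpr hs) (rho_mem t)
    (isTv_iff'.mpr ht) (fun h => hne (Rh_eq_of_R_eq h))
  refine ⟨?_, ?_, ?_⟩
  · rw [← map_Rh h, ← map_Rh h, commutator_im le_rfl, commutator_im le_rfl, im_inf] at h1
    rw [eq_bot_iff, ← im_le_im_iff (V := V) (inf_le_left.trans (commutator_le_left V _)), h1]
    exact bot_le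
  · rw [← map_Rh h, ← map_Rh h, commutator_im le_rfl] at h2
    intro r hr
    rw [mem_centralizer_iff]
    intro v hv
    have h4 := mem_centralizer_iff.mp (h2 (mem_map_of_mem _ hr))
      (iota V ⟨v, commutator_le_left V _ hv⟩) (mem_im.mpr hv)
    exact (commute_iff _ r).mp h4
  · intro r hr
    rw [← rho_eq_one_iff, map_commutatorElement, commutatorElement_eq_one_iff_mul_comm]
    exact mem_centralizer_iff.mp h3 (rho V r) hr

theorem le_Rh (h : Act V) {t : H} (ht : IsT V t) {K : Subgroup H} (hKt : K ≤ ⁅K, zpowers t⁆)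
    (hKO : K ≤ closure {x | x ∈ K ∧ (orderOf x).Coprime 2}) : K ≤ Rh V t := by
  have h1 := le_R h.ff (rho_mem t) (isTv_iff'.mpr ht) (K := K.map (rho V))
    (by rw [MonoidHom.range_eq_map]; exact Subgroup.map_mono le_top)
    (by rw [← MonoidHom.map_zpowers, ← map_commutator]; exact Subgroup.map_mono hKt)
    (by
      refine (Subgroup.map_mono hKO).trans ?_
      rw [MonoidHom.map_closure, closure_le]
      rintro _ ⟨x, ⟨hx, hxo⟩, rfl⟩
      apply Subgroup.subset_closure
      exact ⟨mem_map_of_mem _ hx, Nat.Coprime.coprime_dvd_left (orderOf_map_dvd _ x) hxo⟩)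
  intro x hx
  exact h1 (mem_map_of_mem _ hx)

end H54.SolvAct
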