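import Cfsg.Agent.Lib.H54.Setup

set_option autoImplicit false
set_option linter.dupNamespace false
set_option linter.unusedSectionVars false
set_option maxHeartbeats 400000

/-!
`Ω₁(Z(J)) = (Ω₁(Z(J)) ∩ C(K)) × (Ω₁(Z(J)) ∩ W_K)`.
-/

namespace H54.Setup

open Subgroup H54.PreComp H52.PRes H52.PCore H52.Syl H52.Sub H54.JTh
open H54.MaxEA H54.WOf H54.KP
open scoped commutatorElement

universe u

variable {G : Type u} [Group G] [Finite G]

local notation "O₂" => Cfsg.pCoreOf 2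
local notation "ΩZ" => Cfsg.omegaCenterOf
local notation "wOf" => Cfsg.wOf
local notation "JT" => Cfsg.thompsonSubgroupOf 2

/-- Sylow 2-subgroup of `KJ` containing `J`. -/
theorem JComp.exists_S {J K : Subgroup G} (hJ2 : IsPGroup 2 J) (hK : JComp J K) :
    ∃ S, SylIn 2 S (K ⊔ J) ∧ J ≤ S ∧ JT S = J ∧ O₂ K ≤ S := by
  obtain ⟨S, hS, hJS⟩ := exists_sylIn_le (le_sup_right : J ≤ K ⊔ J) hJ2
  refine ⟨S, hS, hJS, hK.syl S hS hJS, ?_⟩
  refine le_trans ?_ hS.pCoreOf_le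
  apply le_pCoreOf ((pCoreOf_le K).trans le_sup_left) _ (isPGroup_pCoreOf K)
  refine sup_le (le_normalizer_pCoreOf K) ?_
  exact hK.pre.le_normalizer.trans (normalizer_le_normalizer_pCoreOf K)

theorem mem_conj_of_actTriv {P K S : Subgroup G} (hPS : P ≤ S) {b k : G}
    (hb : b ∈ H13.Quad.actTriv K P) (hbS : b ∈ S) (hk : k ∈ K) : k * b * k⁻¹ ∈ S := by
  have h1 := (H13.Quad.mem_actTriv.mp hb).2.2 k hk
  have e : k * b * k⁻¹ = ⁅k, b⁆ * b := by rw [commutatorElement_def]; group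
  rw [e]
  exact mul_mem (hPS h1) hbS

/-- the elementary abelian subgroup `A₁ = B W` all of whose `K`-conjugates are in `J`. -/
theorem JComp.exists_A₁ {J K : Subgroup G} (hJ2 : IsPGroup 2 J) (hK : JComp J K) :
    ∃ S A B : Subgroup G, SylIn 2 S (K ⊔ J) ∧ J ≤ S ∧ JT S = J ∧ O₂ K ≤ S ∧ A ∈ MaxEA S ∧
      A ≤ normalizer (K : Set G) ∧ ¬ A ≤ H13.Quad.actTriv K (O₂ K) ∧
      B = A ⊓ H13.Quad.actTriv K (O₂ K) ∧ wOf K ≤ centralizer (B : Set G) ∧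
      Nat.card ↥(wOf K ⊓ centralizer (A : Set G)) = 2 ∧
      (∀ k ∈ K, cj k (B ⊔ wOf K) ∈ MaxEA S) := by
  obtain ⟨S, hS, hJS, hJTS, hPS⟩ := hK.exists_S hJ2
  obtain ⟨A, hA, hAK, hAt⟩ := exists_A (S := S) (J := J) hJTS.symm hK.pre
  have hKP := hK.pre.toKP
  obtain ⟨f1, f2, f3⟩ := fix_data hKP hS.isPGroup hA hAK hAt hPS hK.wne
  set B := A ⊓ H13.Quad.actTriv K (O₂ K) with hB
  have hWB : wOf K ≤ centralizer (B : Set G) := by
    have : wOf K ⊓ centralizer (B : Set G) = wOf K :=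
      eq_of_le_of_card_ge inf_le_left (by rw [f2, hK.card])
    rw [← this]; exact inf_le_right
  have hWS : wOf K ≤ S := (wOf_le K).trans hPS
  refine ⟨S, A, B, hS, hJS, hJTS, hPS, hA, hAK, hAt, hB, hWB, f1, ?_⟩
  have hBe : Cfsg.IsElementaryAbelian 2 B := H13.ElemAb.of_le hA.2.1 inf_le_left
  have hBW : B ≤ centralizer ((wOf K : Subgroup G) : Set G) := by
    rw [le_centralizer_iff]; exact hWB
  have hA₁e := H13.ElemAb.sup hBe (isEA_wOf K) hBW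
  have hcard : Nat.card A ≤ Nat.card ↥(B ⊔ wOf K) := by
    have h1 := H13.Thompson.card_sup_mul_card_inf (A := B) (B := wOf K)
      (hBW.trans (H52.Syl.centralizer_le_normalizer _))
    have h2 : Nat.card ↥(B ⊓ wOf K) ≤ 2 := by
      rw [← f1]
      apply card_le_of_le
      refine le_inf inf_le_right ?_
      exact inf_le_left.trans (inf_le_left.trans (H13.ElemAb.le_centralizer hA.2.1))
    rw [hK.card] at h1
    have h3 : Nat.card ↥(B ⊔ wOf K) * Nat.card ↥(B ⊓ wOf K) ≤ Nat.card ↥(B ⊔ wOf K) * 2 :=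
      Nat.mul_le_mul_left _ h2
    omega
  intro k hk
  refine mem_of_card_le hA ?_ (H13.ElemAb.map hA₁e _) (by rw [card_cj]; exact hcard)
  rw [cj_sup, cj_eq_of_mem_normalizer (K_le_norm K hk)]
  refine sup_le ?_ hWS
  intro y hy
  rw [mem_cj] at hy
  have h1 := mem_conj_of_actTriv hPS (Subgroup.mem_inf.mp hy).2 (hA.1 (Subgroup.mem_inf.mp hy).1) hk
  have e : k * (k⁻¹ * y * k) * k⁻¹ = y := by group
  rwa [e] at h1

theorem JComp.W_le_J {J K : Subgroup G} (hJ2 : IsPGroup 2 J) (hK : JComp J K) : wOf K ≤ J := by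
  obtain ⟨S, A, B, hS, hJS, hJTS, hPS, hA, hAK, hAt, hB, hWB, f1, hmax⟩ := hK.exists_A₁ hJ2
  have h1 := le_thompsonOf (hmax 1 (one_mem K))
  rw [cj_one, hJTS] at h1
  exact le_sup_right.trans h1

theorem JComp.J_le_normW {J K : Subgroup G} (hK : JComp J K) :
    J ≤ normalizer ((wOf K : Subgroup G) : Set G) :=
  hK.pre.le_normalizer.trans (normalizer_le_normalizer_wOf K)

theorem JComp.card_two {J K : Subgroup G} (hJ2 : IsPGroup 2 J) (hK : JComp J K) :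
    Nat.card ↥(ΩZ J ⊓ wOf K) = 2 ∧ wOf K ⊓ centralizer (J : Set G) ≤ ΩZ J := by
  obtain ⟨S, A, B, hS, hJS, hJTS, hPS, hA, hAK, hAt, hB, hWB, f1, hmax⟩ := hK.exists_A₁ hJ2
  have hWJ := hK.W_le_J hJ2
  have hAJ : A ≤ J := by rw [← hJTS]; exact le_thompsonOf hA
  have h1 : wOf K ⊓ centralizer (J : Set G) ≤ ΩZ J := by
    intro x hx
    obtain ⟨hx1, hx2⟩ := Subgroup.mem_inf.mp hx
    rw [mem_omega]
    exact ⟨hWJ hx1, hx2, (H13.ElemAb.iff_mem.mp (isEA_wOf K)).2 x hx1⟩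
  refine ⟨?_, h1⟩
  have h2 : ΩZ J ⊓ wOf K ≤ wOf K ⊓ centralizer (A : Set G) := by
    refine le_inf inf_le_right (inf_le_left.trans ?_)
    exact (omega_le_centralizer J).trans (centralizer_le hAJ)
  have h3 := card_le_of_le h2
  rw [f1] at h3
  have h4 : ΩZ J ⊓ wOf K ≠ ⊥ := by
    have h5 := fix_ne_bot hJ2 (H13.ElemAb.isPGroup (isEA_wOf K)) hK.J_le_normW hK.wne
    intro h6
    apply h5
    rw [← le_bot_iff, ← h6]
    exact le_inf h1 inf_le_left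
  have h5 : Nat.card ↥(ΩZ J ⊓ wOf K) ≠ 1 := fun h => h4 (card_eq_one.mp h)
  have h6 : 0 < Nat.card ↥(ΩZ J ⊓ wOf K) := Nat.card_pos
  omega

/-- `⟨Z₀^K⟩` -/
def V₂ (K Z₀ : Subgroup G) : Subgroup G := ⨆ k : K, cj (k : G) Z₀

theorem le_V₂ (K Z₀ : Subgroup G) : Z₀ ≤ V₂ K Z₀ := by
  have := le_iSup (fun k : K => cj (k : G) Z₀) 1
  rw [Subgroup.coe_one, cj_one] at this
  exact this

theorem cj_V₂_le {K Z₀ : Subgroup G} {g : G} (h : ∀ k ∈ K, cj g (cj k Z₀) ≤ V₂ K Z₀) :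
    cj g (V₂ K Z₀) ≤ V₂ K Z₀ := by
  have h1 : V₂ K Z₀ ≤ cj g⁻¹ (V₂ K Z₀) := by
    refine iSup_le fun k => ?_
    rw [le_cj_iff, inv_inv]
    exact h k k.2
  rwa [le_cj_iff, inv_inv] at h1

theorem K_le_norm_V₂ (K Z₀ : Subgroup G) : K ≤ normalizer ((V₂ K Z₀ : Subgroup G) : Set G) := by
  intro g hg
  apply mem_normalizer_of_cj_le
  apply cj_V₂_le
  intro k hk
  rw [cj_cj]
  exact le_iSup (fun k : K => cj (k : G) Z₀) ⟨g * k, mul_mem hg hk⟩

theorem le_norm_V₂ {K Z₀ J : Subgroup G} (h1 : J ≤ normalizer (K : Set G))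
    (h2 : J ≤ normalizer (Z₀ : Set G)) : J ≤ normalizer ((V₂ K Z₀ : Subgroup G) : Set G) := by
  intro g hg
  apply mem_normalizer_of_cj_le
  apply cj_V₂_le
  intro k hk
  have e : cj g (cj k Z₀) = cj (g * k * g⁻¹) Z₀ := by
    conv_rhs => rw [← cj_eq_of_mem_normalizer (h2 hg)]
    rw [cj_cj, cj_cj]
    congr 1
    group
  rw [e]
  exact le_iSup (fun k : K => cj (k : G) Z₀)
    ⟨g * k * g⁻¹, H54.Basic.mul_inv_mem_of_mem_normalizer (h1 hg) hk⟩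


/-- the split data -/
structure SplitData (J K : Subgroup G) : Prop where
  PC : O₂ K ≤ centralizer ((ΩZ J : Subgroup G) : Set G)
  le : ΩZ J ≤ (ΩZ J ⊓ centralizer (K : Set G)) ⊔ (ΩZ J ⊓ wOf K)

theorem relIndex_ne {A B : Subgroup G} : A.relIndex B ≠ 0 :=
  (Subgroup.index_ne_zero_of_finite : (A.subgroupOf B).index ≠ 0)

theorem relIndex_le_of_sup {E A₁ W C : Subgroup G} (hE : E ≤ A₁) (hsup : A₁ ≤ E ⊔ W)
    (hWA : W ≤ A₁) (hEn : W ≤ normalizer (E : Set G))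
    (hC : C ≤ E ⊓ W) : E.relIndex A₁ ≤ C.relIndex W := by
  have h1 : A₁ = W ⊔ E := le_antisymm (by rw [sup_comm]; exact hsup) (sup_le hWA hE)
  have h2 := Ord3.relIndex_inf_of_sup_eq (C := E) (R := A₁) (X := W) hEn h1.symm
  rw [← h2]
  have h3 : C ≤ W ⊓ E := by rw [inf_comm]; exact hC
  have h4 := relIndex_mul_relIndex C (W ⊓ E) W h3 inf_le_left
  rw [← h4]
  exact Nat.le_mul_of_pos_left _ (Nat.pos_of_ne_zero relIndex_ne)

theorem relIndex_le_left {A A' B : Subgroup G} (h : A ≤ A') : A'.relIndex B ≤ A.relIndex B := by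
  have h1 := H13.Replace.card_eq_mul_relIndex (inf_le_right : A' ⊓ B ≤ B)
  have h2 := H13.Replace.card_eq_mul_relIndex (inf_le_right : A ⊓ B ≤ B)
  rw [inf_relIndex_right] at h1 h2
  have h3 := card_le_of_le (inf_le_inf_right B h)
  have h4 : 0 < Nat.card ↥(A' ⊓ B) := Nat.card_pos
  have h5 : 0 < Nat.card ↥(A ⊓ B) := Nat.card_pos
  by_contra hcon
  push Not at hcon
  have h6 : Nat.card ↥(A ⊓ B) * A.relIndex B < Nat.card ↥(A' ⊓ B) * A'.relIndex B := by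
    calc Nat.card ↥(A ⊓ B) * A.relIndex B < Nat.card ↥(A ⊓ B) * A'.relIndex B :=
          Nat.mul_lt_mul_of_pos_left hcon h5
      _ ≤ _ := Nat.mul_le_mul_right _ h3
  omega

theorem exists_odd_part {K : Subgroup G} (h : KP K) {g : G} (hgK : g ∈ K) (hgP : g ∉ O₂ K) :
    ∃ n : ℕ, g ^ n ∉ O₂ K ∧ (orderOf (g ^ n)).Coprime 2 := by
  obtain ⟨m, hm⟩ := exists_pow_coprime (p := 2) g
  refine ⟨2 ^ m, ?_, hm⟩
  intro hcon
  apply hgP
  have h3 := h.pow_three hgK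
  have hcop : IsCoprime ((2 ^ m : ℕ) : ℤ) ((3 : ℕ) : ℤ) := by
    rw [Nat.isCoprime_iff_coprime]
    exact Nat.Coprime.pow_left _ (by norm_num)
  obtain ⟨a, b, hab⟩ := hcop
  have e : (g ^ 2 ^ m) ^ a * (g ^ 3) ^ b = g := by
    have h1 : (g ^ 2 ^ m) ^ a = g ^ (((2 ^ m : ℕ) : ℤ) * a) := by rw [zpow_mul, zpow_natCast]
    have h2 : (g ^ 3) ^ b = g ^ (((3 : ℕ) : ℤ) * b) := by rw [zpow_mul, zpow_natCast]
    rw [h1, h2, ← zpow_add, mul_comm _ a, mul_comm _ b, hab, zpow_one]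
  rw [← e]
  exact mul_mem (zpow_mem hcon a) (zpow_mem h3 b)

end H54.Setup
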