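import Cfsg.Agent.Lib.H54.Split

set_option autoImplicit false
set_option linter.dupNamespace false
set_option linter.unusedSectionVars false
set_option maxHeartbeats 400000

/-!
`O_2(K)` centralizes `Ω₁(Z(J))`.
-/

namespace H54.Setup

open Subgroup H54.PreComp H52.PRes H52.PCore H52.Syl H52.Sub H54.JTh
open H54.MaxEA H54.WOf H54.KP
open scoped commutatorElement

universe u

variable {G : Type u} [Group G] [Finite G]

local notation "O₂" => Cfsg.pCoreOf 2

theorem conj_mem_fixP {K W : Subgroup G} (hPW : O₂ K ≤ centralizer (W : Set G)) {z : G}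
    (hkz : ∀ k ∈ K, ∃ w ∈ W, k * z * k⁻¹ = w * z) {k c : G} (hk : k ∈ K)
    (hc : c ∈ O₂ K ⊓ centralizer ({z} : Set G)) :
    k * c * k⁻¹ ∈ O₂ K ⊓ centralizer ({z} : Set G) := by
  obtain ⟨hc1, hc2'⟩ := Subgroup.mem_inf.mp hc
  refine Subgroup.mem_inf.mpr ⟨H54.Basic.mul_inv_mem_of_mem_normalizer
    (le_normalizer_pCoreOf K hk) hc1, ?_⟩
  rw [mem_centralizer_singleton_iff]
  obtain ⟨w, hw, hwz⟩ := hkz k⁻¹ (inv_mem hk)
  have c1 : Commute c w := (mem_centralizer_iff.mp (hPW hc1) w hw).symm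
  have c2 : Commute c z := mem_centralizer_singleton_iff.mp hc2'
  have c3 : Commute c (k⁻¹ * z * (k⁻¹)⁻¹) := by rw [hwz]; exact c1.mul_right c2
  rw [commute_iff_eq] at c3
  calc k * c * k⁻¹ * z = k * (c * (k⁻¹ * z * (k⁻¹)⁻¹)) * k⁻¹ := by group
    _ = k * ((k⁻¹ * z * (k⁻¹)⁻¹) * c) * k⁻¹ := by rw [c3]
    _ = z * (k * c * k⁻¹) := by group

theorem mul_inv_mem_of_index_two {C P : Subgroup G} (h : C.relIndex P = 2) {a b : G} (ha : a ∈ P)
    (hb : b ∈ P) (haC : a ∉ C) (hbC : b ∉ C) : a * b⁻¹ ∈ C := by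
  obtain ⟨x, hx, hab⟩ := relIndex_eq_two_iff.mp h
  have q3 : a * x ∈ C := by
    rcases hab _ ha with ⟨q, _⟩ | ⟨q, _⟩
    · exact q
    · exact absurd q haC
  have q4 : b * x ∈ C := by
    rcases hab _ hb with ⟨q, _⟩ | ⟨q, _⟩
    · exact q
    · exact absurd q hbC
  have := mul_mem q3 (inv_mem q4)
  have e : a * x * (b * x)⁻¹ = a * b⁻¹ := by group
  rwa [e] at this

theorem comm_calc {K W : Subgroup G} (hPW : O₂ K ≤ centralizer (W : Set G))
    (hWc : W ≤ centralizer (W : Set G)) {z w c p : G} (hw : w ∈ W) (hc : c ∈ O₂ K)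
    (hp : p ∈ O₂ K) (hcz : Commute c z) (hu : ⁅z, p⁆ ∈ W) : ⁅w * z, c * p⁆ = ⁅z, p⁆ := by
  have cW : ∀ w' ∈ W, ∀ q ∈ O₂ K, Commute q w' := fun w' hw' q hq =>
    (mem_centralizer_iff.mp (hPW hq) w' hw').symm
  rw [H1.Coprime2.commutatorElement_mul_left]
  have a1 : ⁅w, c * p⁆ = 1 := by
    rw [commutatorElement_eq_one_iff_mul_comm]
    exact (cW w hw _ (mul_mem hc hp)).symm
  have a2 : ⁅z, c * p⁆ = c * ⁅z, p⁆ * c⁻¹ := by
    rw [commutatorElement_def, commutatorElement_def]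
    have : z * (c * p) = c * (z * p) := by
      rw [← mul_assoc, ← hcz.eq, mul_assoc]
    rw [this]; group
  have a3 : c * ⁅z, p⁆ * c⁻¹ = ⁅z, p⁆ := by
    rw [(cW _ hu c hc).eq]; group
  rw [a1, mul_one, a2, a3]
  have a4 := mem_centralizer_iff.mp (hWc hw) _ hu
  rw [← a4]; group

theorem core_commutes {K W X : Subgroup G} (hPW : O₂ K ≤ centralizer (W : Set G))
    (hWc : W ≤ centralizer (W : Set G)) (hfix : W ⊓ centralizer (K : Set G) = ⊥) {z : G}
    (hzK : ∀ k ∈ K, ⁅z, k⁆ ∈ W) (hX : Nat.card X ≤ 2) (hXW : X ≤ W)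
    (hzP : ∀ p ∈ O₂ K, ⁅z, p⁆ ∈ X) : O₂ K ≤ centralizer ({z} : Set G) := by
  have hkz : ∀ k ∈ K, ∃ w ∈ W, k * z * k⁻¹ = w * z := by
    intro k hk
    refine ⟨⁅z, k⁆⁻¹, inv_mem (hzK k hk), ?_⟩
    rw [commutatorElement_def]; group
  set C := O₂ K ⊓ centralizer ({z} : Set G) with hC
  have hCi : C.relIndex (O₂ K) ≤ 2 := (relIndex_inf_centralizer_le hzP).trans hX
  by_contra hnot
  have hCne : ¬ O₂ K ≤ C := fun h => hnot (h.trans inf_le_right)
  have hCi2 : C.relIndex (O₂ K) = 2 := by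
    have h1 : C.relIndex (O₂ K) ≠ 0 := relIndex_ne
    have h2 : C.relIndex (O₂ K) ≠ 1 := fun h => hCne (relIndex_eq_one.mp h)
    omega
  obtain ⟨p, hpP, hpC⟩ := Set.not_subset.mp hCne
  have hu := hXW (hzP p hpP)
  have huK : ⁅z, p⁆ ∈ W ⊓ centralizer (K : Set G) := by
    refine Subgroup.mem_inf.mpr ⟨hu, ?_⟩
    rw [mem_centralizer_iff]
    intro k hk
    have h1 : k * p * k⁻¹ ∈ O₂ K := H54.Basic.mul_inv_mem_of_mem_normalizer
      (le_normalizer_pCoreOf K hk) hpP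
    have h2 : k * p * k⁻¹ ∉ C := by
      intro hcon
      apply hpC
      have := conj_mem_fixP hPW hkz (inv_mem hk) hcon
      have e : k⁻¹ * (k * p * k⁻¹) * (k⁻¹)⁻¹ = p := by group
      rwa [e] at this
    have hkp : k * p * k⁻¹ * p⁻¹ ∈ C := mul_inv_mem_of_index_two hCi2 h1 hpP h2 hpC
    obtain ⟨w, hw, hwz⟩ := hkz k hk
    have hcP := (Subgroup.mem_inf.mp hkp).1
    have hcz : Commute (k * p * k⁻¹ * p⁻¹) z :=
      mem_centralizer_singleton_iff.mp (Subgroup.mem_inf.mp hkp).2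
    have hkpk : k * p * k⁻¹ = (k * p * k⁻¹ * p⁻¹) * p := by group
    have e1 : k * ⁅z, p⁆ * k⁻¹ = ⁅k * z * k⁻¹, k * p * k⁻¹⁆ := by
      simp only [commutatorElement_def]; group
    have e3 : k * ⁅z, p⁆ * k⁻¹ = ⁅z, p⁆ := by
      rw [e1, hwz, hkpk, comm_calc hPW hWc hw hcP hpP hcz hu]
    calc k * ⁅z, p⁆ = (k * ⁅z, p⁆ * k⁻¹) * k := by group
      _ = ⁅z, p⁆ * k := by rw [e3]
  rw [hfix, mem_bot, commutatorElement_eq_one_iff_mul_comm] at huK
  apply hpC
  refine Subgroup.mem_inf.mpr ⟨hpP, ?_⟩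
  rw [mem_centralizer_singleton_iff]
  exact huK.symm

theorem exists_g {K : Subgroup G} (h : KP K) {x : G} (hx : x ∈ normalizer (K : Set G))
    (hx' : x ∉ H13.Quad.actTriv K (O₂ K)) :
    ∃ k ∈ K, k * x * k⁻¹ * x⁻¹ ∈ K ∧ k * x * k⁻¹ * x⁻¹ ∉ O₂ K := by
  obtain ⟨D, hDK, hD3, hDP, hD⟩ := h.exists_D
  obtain ⟨k, hkD, hkP⟩ := Set.not_subset.mp hDP
  have hk : k ∈ K := hDK hkD
  refine ⟨k, hk, ?_, ?_⟩
  · have e : k * x * k⁻¹ * x⁻¹ = k * (x * k⁻¹ * x⁻¹) := by group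
    rw [e]
    exact mul_mem hk (H54.Basic.mul_inv_mem_of_mem_normalizer hx (inv_mem hk))
  · intro hcon
    have h3 := h.inverts hx hx' (k := k) hk
    have e : k * k = (k * x * k⁻¹ * x⁻¹) *
        ((x * k * x⁻¹) * (k * (x * k * x⁻¹)) * (x * k * x⁻¹)⁻¹) := by
      group
    have h4 : k * k ∈ O₂ K := by
      rw [e]
      refine mul_mem hcon ?_
      exact H54.Basic.mul_inv_mem_of_mem_normalizer
        (le_normalizer_pCoreOf K (H54.Basic.mul_inv_mem_of_mem_normalizer hx hk)) h3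
    have h5 := h.pow_three hk
    apply hkP
    have e2 : k = (k * k)⁻¹ * k ^ 3 := by group
    have h6 : (k * k)⁻¹ * k ^ 3 ∈ O₂ K := mul_mem (inv_mem h4) h5
    rw [← e2] at h6
    exact h6

/-- `|[V,D']| ≤ 4` if `x` is a transvection on `V` inverting `K/O_2(K)`. -/
theorem exists_D' {K V : Subgroup G} (h : KP K) {x : G} (hx : x ∈ normalizer (K : Set G))
    (hx' : x ∉ H13.Quad.actTriv K (O₂ K)) (hKV : K ≤ normalizer (V : Set G))
    (hVe : Cfsg.IsElementaryAbelian 2 V) (hCx : (V ⊓ centralizer ({x} : Set G)).relIndex V ≤ 2) :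
    ∃ D' ≤ K, ¬ D' ≤ O₂ K ∧ (Nat.card D').Coprime 2 ∧ Nat.card ↥⁅V, D'⁆ ≤ 4 := by
  obtain ⟨k, hk, hgK, hgP⟩ := exists_g h hx hx'
  set g := k * x * k⁻¹ * x⁻¹ with hg
  obtain ⟨n, hn, hno⟩ := exists_odd_part h hgK hgP
  have hg'K : g ^ n ∈ K := pow_mem hgK _
  set D' := zpowers (g ^ n) with hD'
  have hD'K : D' ≤ K := by rw [hD', zpowers_le]; exact hg'K
  have hD'P : ¬ D' ≤ O₂ K := by rw [hD', zpowers_le]; exact hn
  have hD'odd : (Nat.card D').Coprime 2 := by rw [hD', Nat.card_zpowers]; exact hno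
  refine ⟨D', hD'K, hD'P, hD'odd, ?_⟩
  have hCV : (V ⊓ centralizer (D' : Set G)).relIndex V ≤ 4 := by
    set C1 := V ⊓ centralizer ({x} : Set G) with hC1
    set C2 := cj k C1 with hC2
    have hVk : cj k V = V := cj_eq_of_mem_normalizer (hKV hk)
    have hC2i : C2.relIndex V ≤ 2 := by
      have h1 : C2.relIndex (cj k V) = C1.relIndex V :=
        relIndex_map_map_of_injective _ _ (MulAut.conj k).injective
      rw [hVk] at h1
      rw [h1]; exact hCx
    have h12 : C1 ⊓ C2 ≤ V ⊓ centralizer (D' : Set G) := by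
      intro v hv
      obtain ⟨hv1, hv2⟩ := Subgroup.mem_inf.mp hv
      rw [hC2, mem_cj] at hv2
      have hvV := (Subgroup.mem_inf.mp hv1).1
      have c1 : Commute v x := mem_centralizer_singleton_iff.mp (Subgroup.mem_inf.mp hv1).2
      have c2 : Commute (k⁻¹ * v * k) x := mem_centralizer_singleton_iff.mp (Subgroup.mem_inf.mp hv2).2
      have c3 : Commute v (k * x * k⁻¹) := by
        rw [commute_iff_eq] at c2 ⊢
        calc v * (k * x * k⁻¹) = k * ((k⁻¹ * v * k) * x) * k⁻¹ := by group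
          _ = k * (x * (k⁻¹ * v * k)) * k⁻¹ := by rw [c2]
          _ = k * x * k⁻¹ * v := by group
      have c4 : Commute v g := c3.mul_right c1.inv_right
      have c5 : Commute v (g ^ n) := c4.pow_right _
      refine Subgroup.mem_inf.mpr ⟨hvV, ?_⟩
      rw [hD', centralizer_zpowers', mem_centralizer_singleton_iff]
      exact c5
    calc (V ⊓ centralizer (D' : Set G)).relIndex V ≤ (C1 ⊓ C2).relIndex V :=
          relIndex_le_left h12
      _ ≤ C1.relIndex V * C2.relIndex V := relIndex_inf_le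
      _ ≤ 2 * 2 := Nat.mul_le_mul hCx hC2i
      _ = 4 := rfl
  have hV2 := H13.ElemAb.isPGroup hVe
  have hD'V : D' ≤ normalizer (V : Set G) := hD'K.trans hKV
  have hcop' : (Nat.card V).Coprime (Nat.card D') := by
    obtain ⟨n, hn⟩ := IsPGroup.iff_card.mp hV2
    rw [hn]; exact Nat.Coprime.pow_left _ hD'odd.symm
  have hVc := H13.ElemAb.le_centralizer hVe
  have hdisj := Ord3.comm_inf_centralizer_eq_bot hVc hcop' hD'V
  have hVD'le : ⁅V, D'⁆ ≤ V := H1.Coprime2.commutator_le_left hD'V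
  have h1 := H1.Coprime2.commutator_sup_centralizer D' V hD'V hcop'.symm
    (Or.inr (H54.CopComm.isSolvable_of_isPGroup hV2))
  have h2' : centralizer (V : Set G) ≤
      normalizer ((V ⊓ centralizer (D' : Set G) : Subgroup G) : Set G) :=
    le_trans (centralizer_le (fun _ h => (Subgroup.mem_inf.mp h).1))
      (H52.Syl.centralizer_le_normalizer (V ⊓ centralizer (D' : Set G)))
  have h2 := H13.Thompson.card_sup_mul_card_inf (A := ⁅V, D'⁆) (B := V ⊓ centralizer (D' : Set G))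
    ((hVD'le.trans hVc).trans h2')
  have h3 : ⁅V, D'⁆ ⊓ (V ⊓ centralizer (D' : Set G)) = ⊥ := by
    rw [eq_bot_iff, ← hdisj]
    exact inf_le_inf_left _ inf_le_right
  rw [h1, h3, card_bot, mul_one] at h2
  have h4 := H13.Replace.card_eq_mul_relIndex
    (inf_le_left : V ⊓ centralizer (D' : Set G) ≤ V)
  have hpos : 0 < Nat.card ↥(V ⊓ centralizer (D' : Set G)) := Nat.card_pos
  rw [h2, mul_comm] at h4
  have h5 := Nat.eq_of_mul_eq_mul_left hpos h4
  rw [h5]; exact hCV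

end H54.Setup
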