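import Cfsg.Agent.Lib.H54.ConjComp
import Cfsg.Agent.Lib.H2.PGrp

set_option autoImplicit false
set_option linter.dupNamespace false
set_option linter.unusedSectionVars false
set_option maxHeartbeats 400000

/-!
Maximal straddling 2-subgroups.
-/

namespace H54.Setup

open Subgroup H54.PreComp H52.PRes H52.PCore H52.Syl H52.Sub H54.JTh
open H54.MaxEA H54.WOf H54.KP
open scoped commutatorElement

universe u

variable {G : Type u} [Group G] [Finite G]

local notation "O₂" => Cfsg.pCoreOf 2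
local notation "ΩZ" => Cfsg.omegaCenterOf
local notation "wOf" => Cfsg.wOf
local notation "JT" => Cfsg.thompsonSubgroupOf 2

theorem maxOrder_eq {T A : Subgroup G} (hA : A ∈ MaxEA T) :
    Cfsg.maxElemAbelianOrder T = Nat.card A := by
  have hA' := (mem_iff.mp hA).2
  have hAc : Nat.card (A.subgroupOf T) = Nat.card A := by
    rw [← Subgroup.card_map_of_injective T.subtype_injective, map_subgroupOf_eq_of_le hA.1]
  unfold Cfsg.maxElemAbelianOrder
  have h1 : ((fun A : Subgroup ↥T => Nat.card ↥A) '' Cfsg.maxElementaryAbelianSubgroups 2 ↥T) =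
      {Nat.card A} := by
    ext n
    constructor
    · rintro ⟨B, hB, rfl⟩
      change Nat.card B = Nat.card A
      rw [← hAc]
      exact le_antisymm (hA'.2 B hB.1) (hB.2 _ hA'.1)
    · intro hn
      rw [Set.mem_singleton_iff] at hn
      exact ⟨A.subgroupOf T, hA', by rw [hn]; exact hAc⟩
  rw [h1, csSup_singleton]

theorem maxOrder_le {T T' : Subgroup G} (h : JT T ≤ T') :
    Cfsg.maxElemAbelianOrder T ≤ Cfsg.maxElemAbelianOrder T' := by
  obtain ⟨A, hA⟩ := exists_mem T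
  obtain ⟨B, hB⟩ := exists_mem T'
  rw [maxOrder_eq hA, maxOrder_eq hB]
  exact hB.2.2 A ((le_thompsonOf hA).trans h) hA.2.1

theorem thompson_le_of_order_eq {T T' : Subgroup G} (h : JT T ≤ T')
    (he : Cfsg.maxElemAbelianOrder T = Cfsg.maxElemAbelianOrder T') : JT T ≤ JT T' := by
  obtain ⟨B, hB⟩ := exists_mem T'
  conv_lhs => rw [thompsonOf_eq]
  refine sSup_le fun A hA => ?_
  apply le_thompsonOf
  rw [maxOrder_eq hA, maxOrder_eq hB] at he
  exact mem_of_card_le hB ((le_thompsonOf hA).trans h) hA.2.1 he.symm.le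

theorem thompson_ne_bot {T : Subgroup G} (hT : IsPGroup 2 T) (hT1 : T ≠ ⊥) : JT T ≠ ⊥ := by
  intro h
  have h1 : Cfsg.thompsonSubgroup 2 T = ⊥ := by
    unfold Cfsg.thompsonSubgroupOf at h
    rwa [map_eq_bot_iff_of_injective _ T.subtype_injective] at h
  have h2 : 2 ∣ Nat.card T := by
    obtain ⟨n, hn⟩ := IsPGroup.iff_card.mp hT
    rw [hn]
    rcases Nat.eq_zero_or_pos n with h0 | h0
    · exfalso
      rw [h0, pow_zero] at hn
      exact hT1 (card_eq_one.mp hn)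
    · exact dvd_pow_self 2 (by omega)
  exact H13.Thompson.thompson_ne_bot h2 h1

/-- the basic maximality step -/
theorem max_step {M T T' : Subgroup G} (hT : T ∈ Cfsg.maxStraddlingTwoSubgroups M)
    (hT' : T' ∈ Cfsg.straddlingTwoSubgroups M) (h : JT T ≤ T') :
    JT T' = JT T ∧ Nat.card T' ≤ Nat.card T := by
  obtain ⟨h1, h2⟩ := hT.2 T' hT'
  have h3 := le_antisymm (maxOrder_le h) h1
  obtain ⟨h4, h5⟩ := h2 h3.symm
  have h6 := thompson_le_of_order_eq h h3
  have h7 := eq_of_le_of_card_ge h6 h4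
  exact ⟨h7.symm, h5 (by rw [← h7])⟩

theorem exists_sylow_ge {M T : Subgroup G} {S : Sylow 2 G}
    (hMJ : normalizer ((JT (S : Subgroup G) : Subgroup G) : Set G) ≤ M) (hT : IsPGroup 2 T)
    (hTM : T ≤ M) : ∃ S' : Sylow 2 G, T ≤ S' ∧
      normalizer ((JT (S' : Subgroup G) : Subgroup G) : Set G) ≤ M ∧ (S' : Subgroup G) ≤ M := by
  have hSM : (S : Subgroup G) ≤ M := (Subgroup.le_normalizer.trans
    (H13.SylowN.normalizer_le_normalizer_thompsonOf _)).trans hMJ
  have hSM' : SylIn 2 (S : Subgroup G) M := sylIn_of_sylow S hSM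
  obtain ⟨m, hm, hTm⟩ := hSM'.exists_conj_le hTM hT
  refine ⟨m • S, ?_, ?_, ?_⟩
  · rw [H54.Basic.coe_sylow_smul]; exact hTm
  · rw [H54.Basic.coe_sylow_smul]
    have h1 := thompson_cj m (S : Subgroup G)
    change JT (map (MulAut.conj m).toMonoidHom (S : Subgroup G)) = _ at h1
    rw [h1]
    have h2 := cj_mono (g := m) hMJ
    rwa [cj_normalizer, cj_of_mem hm] at h2
  · rw [H54.Basic.coe_sylow_smul]
    have h2 := cj_mono (g := m) hSM
    rwa [cj_of_mem hm] at h2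

theorem isTwoLocal_norm {X : Subgroup G} (hX : IsPGroup 2 X) (h1 : X ≠ ⊥) :
    Cfsg.IsTwoLocal (normalizer (X : Set G)) := ⟨X, hX, h1, rfl⟩

theorem norm_J_le {M T : Subgroup G} {S : Sylow 2 G}
    (hMJ : normalizer ((JT (S : Subgroup G) : Subgroup G) : Set G) ≤ M)
    (hT : T ∈ Cfsg.maxStraddlingTwoSubgroups M) :
    normalizer ((JT T : Subgroup G) : Set G) ≤ M := by
  obtain ⟨⟨hT2, hT1, hTM, -⟩, -⟩ := id hT
  obtain ⟨S', hTS, hMJ', hSM⟩ := exists_sylow_ge hMJ hT2 hTM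
  by_contra hcon
  have hJ2 : IsPGroup 2 (JT T) := hT2.to_le (H13.SylowN.thompsonOf_le T)
  have hJ1 := thompson_ne_bot hT2 hT1
  set N := (S' : Subgroup G) ⊓ normalizer ((JT T : Subgroup G) : Set G) with hN
  have hTJ : T ≤ normalizer ((JT T : Subgroup G) : Set G) :=
    Subgroup.le_normalizer.trans (H13.SylowN.normalizer_le_normalizer_thompsonOf _)
  have hTN : T ≤ N := le_inf hTS hTJ
  have hN1 : N ≠ ⊥ := by
    intro h; rw [h, le_bot_iff] at hTN; exact hT1 hTN
  have hNstr : N ∈ Cfsg.straddlingTwoSubgroups M :=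
    ⟨S'.isPGroup'.to_le inf_le_left, hN1, inf_le_left.trans hSM,
      normalizer ((JT T : Subgroup G) : Set G), isTwoLocal_norm hJ2 hJ1, inf_le_right, hcon⟩
  obtain ⟨h1, h2⟩ := max_step hT hNstr ((H13.SylowN.thompsonOf_le T).trans hTN)
  have h3 : T = N := eq_of_le_of_card_ge hTN h2
  have h4 : T = S' := by
    by_contra hne
    have hlt : T < S' := lt_of_le_of_ne hTS hne
    have h5 := H2.PGrp.lt_inf_normalizer S'.isPGroup' hlt
    have h6 : (S' : Subgroup G) ⊓ normalizer (T : Set G) ≤ N :=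
      inf_le_inf_left _ (H13.SylowN.normalizer_le_normalizer_thompsonOf _)
    rw [← h3] at h6
    exact absurd (h5.trans_le (by rw [inf_comm] at h6; first | exact h6 | (rw [inf_comm]; exact h6))) (lt_irrefl _)
  rw [h4] at hcon
  exact hcon hMJ'

theorem straddle_main {M T : Subgroup G} {S : Sylow 2 G}
    (hMJ : normalizer ((JT (S : Subgroup G) : Subgroup G) : Set G) ≤ M)
    (hT : T ∈ Cfsg.maxStraddlingTwoSubgroups M) {L T₀ : Subgroup G} (hL : Cfsg.IsTwoLocal L)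
    (hLM : ¬ L ≤ M) (hT₀ : SylIn 2 T₀ L) (hJT₀ : JT T ≤ T₀) :
    JT T₀ = JT T ∧ T₀ ∈ Cfsg.straddlingTwoSubgroups M ∧ ¬ JT T₀ ≤ O₂ L ∧ T₀ ≠ ⊥ := by
  obtain ⟨⟨hT2, hT1, hTM, -⟩, -⟩ := id hT
  have hNM := norm_J_le hMJ hT
  have hJ1 := thompson_ne_bot hT2 hT1
  set N := T₀ ⊓ normalizer ((JT T : Subgroup G) : Set G) with hN
  have hJN : JT T ≤ N := le_inf hJT₀ Subgroup.le_normalizer
  have hN1 : N ≠ ⊥ := by
    intro h; rw [h, le_bot_iff] at hJN; exact hJ1 hJN
  have hNstr : N ∈ Cfsg.straddlingTwoSubgroups M :=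
    ⟨hT₀.isPGroup.to_le inf_le_left, hN1, inf_le_right.trans hNM, L, hL,
      inf_le_left.trans hT₀.le, hLM⟩
  obtain ⟨h1, h2⟩ := max_step hT hNstr hJN
  have h3 : N = T₀ := by
    by_contra hne
    have hlt : N < T₀ := lt_of_le_of_ne inf_le_left hne
    have h5 := H2.PGrp.lt_inf_normalizer hT₀.isPGroup hlt
    have h6 : T₀ ⊓ normalizer (N : Set G) ≤ N := by
      rw [hN]
      refine inf_le_inf_left _ ?_
      rw [← hN, ← h1]
      exact H13.SylowN.normalizer_le_normalizer_thompsonOf _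
    exact absurd (h5.trans_le (by first | exact h6 | (rw [inf_comm]; exact h6))) (lt_irrefl _)
  rw [h3] at h1 hNstr
  refine ⟨h1, hNstr, ?_, hNstr.2.1⟩
  intro hcon
  apply hLM
  have h4 : JT (O₂ L) = JT T₀ := thompsonOf_eq_of_le hT₀.pCoreOf_le hcon
  have h5 : L ≤ normalizer ((JT T₀ : Subgroup G) : Set G) := by
    rw [← h4]
    exact (le_normalizer_pCoreOf L).trans (H13.SylowN.normalizer_le_normalizer_thompsonOf _)
  rw [h1] at h5
  exact h5.trans hNM

/-- `T` is a Sylow subgroup of every 2-local subgroup `L ≰ M` containing it. -/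
theorem sylIn_of_le {M T : Subgroup G} {S : Sylow 2 G}
    (hMJ : normalizer ((JT (S : Subgroup G) : Subgroup G) : Set G) ≤ M)
    (hT : T ∈ Cfsg.maxStraddlingTwoSubgroups M) {L : Subgroup G} (hL : Cfsg.IsTwoLocal L)
    (hLM : ¬ L ≤ M) (hTL : T ≤ L) : SylIn 2 T L := by
  obtain ⟨T₁, hT₁, hTT₁⟩ := exists_sylIn_le hTL hT.1.1
  have hJ := (H13.SylowN.thompsonOf_le (p := 2) T).trans hTT₁
  obtain ⟨h1, h2, h3⟩ := straddle_main hMJ hT hL hLM hT₁ hJ
  obtain ⟨h4, h5⟩ := max_step hT h2 hJ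
  rwa [eq_of_le_of_card_ge hTT₁ h5]

/-- every PreComp in a member of `jOvergroups T` is a component -/
theorem jcomp_of_pre {T L V K : Subgroup G} (hT : SylIn 2 T L) (hlh : LH L T V (JT T))
    (hKL : K ≤ L) (hK : PreComp (JT T) K) : JComp (JT T) K := by
  have hJ2 : IsPGroup 2 (JT T) := hT.isPGroup.to_le (H13.SylowN.thompsonOf_le T)
  have hJL : JT T ≤ L := (H13.SylowN.thompsonOf_le T).trans hT.le
  have hsyl : ∀ S : Subgroup G, SylIn 2 S (K ⊔ JT T) → JT T ≤ S → JT S = JT T := by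
    intro S hS hJS
    obtain ⟨l, hl, hSl⟩ := hT.exists_conj_le (hS.le.trans (sup_le hKL hJL)) hS.isPGroup
    have hJT' : JT (cj l T) = JT T := by
      rw [thompson_cj]
      have h1 : cj l⁻¹ (JT (cj l T)) = JT T := by rw [thompson_cj, cj_inv_cj]
      have h2 : cj l⁻¹ (JT (cj l T)) ≤ cj l T := by rw [h1]; exact hJS.trans hSl
      have h3 := thompson_weak h2
      rw [h1, thompson_cj] at h3
      exact h3.symm
    rw [← hJT']
    apply thompsonOf_eq_of_le hSl
    rw [hJT']; exact hJS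
  refine ⟨hK, hsyl, ?_⟩
  obtain ⟨S, hS, hJS⟩ := exists_sylIn_le (le_sup_right : JT T ≤ K ⊔ JT T) hJ2
  have hJTS := hsyl S hS hJS
  have hPS : O₂ K ≤ S := by
    refine le_trans ?_ hS.pCoreOf_le
    apply le_pCoreOf ((pCoreOf_le K).trans le_sup_left) _ (isPGroup_pCoreOf K)
    refine sup_le (le_normalizer_pCoreOf K) ?_
    exact hK.le_normalizer.trans (normalizer_le_normalizer_pCoreOf K)
  obtain ⟨A, hA, hAK, hAt⟩ := exists_A (S := S) hJTS.symm hK
  refine card_wOf hK.toKP hS.isPGroup hA hAK hAt hPS ?_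
  -- `[V,K] ≤ W_K`
  have hVK : V ≤ normalizer (K : Set G) := hlh.V_le_core.trans (hlh.core_le_norm hKL hK)
  have h1 : ⁅V, K⁆ ≤ K := H1.Coprime2.commutator_le_right hVK
  have h2 : ⁅V, K⁆ ≤ V := H1.Coprime2.commutator_le_left (hKL.trans hlh.L_le_norm)
  have hV2 : IsPGroup 2 V := H13.ElemAb.isPGroup hlh.V_ea
  have h3 : ⁅V, K⁆ ≤ O₂ K :=
    le_pCoreOf h1 (H1.Coprime2.le_normalizer_commutator_right _ _) (hV2.to_le h2)
  have hPV : O₂ K ≤ centralizer (V : Set G) :=
    (hlh.core_le_core hKL hK).trans hlh.V_centralizes_core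
  have h4 : ⁅V, K⁆ ≤ ΩZ (O₂ K) := by
    intro x hx
    rw [mem_omega]
    refine ⟨h3 hx, ?_, (H13.ElemAb.iff_mem.mp hlh.V_ea).2 x (h2 hx)⟩
    rw [le_centralizer_iff] at hPV
    exact hPV (h2 hx)
  have h5 : ⁅V, K⁆ ≤ wOf K := by
    rw [← hK.toKP.comm_comm (hKL.trans hlh.L_le_norm) hV2 hPV]
    exact commutator_mono h4 le_rfl
  intro hcon
  have h6 := hlh.card_comm hKL hK
  rw [hcon, le_bot_iff] at h5
  rw [h5, card_bot] at h6
  omega

end H54.Setup
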