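import Cfsg.Agent.Lib.H54.Center3

set_option autoImplicit false
set_option linter.dupNamespace false
set_option linter.unusedSectionVars false
set_option maxHeartbeats 400000

/-!
Two components with distinct maximal 2-local overgroups.
-/

namespace H54.Setup

open Subgroup H54.PreComp H52.PRes H52.PCore H52.Syl H52.Sub H54.JTh
open H54.MaxEA H54.WOf H54.KP
open scoped commutatorElement

universe u

variable {G : Type u} [Group G] [Finite G]

local notation "O₂" => Cfsg.pCoreOf 2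
local notation "ΩZ" => Cfsg.omegaCenterOf
local notation "wOf" => Cfsg.wOf
local notation "JT" => Cfsg.thompsonSubgroupOf 2

/-- one component with `T` Sylow in its maximal 2-local overgroup and `Ω₁(Z(T)) = Ω₁(Z(J))`. -/
structure One (T K L : Subgroup G) : Prop where
  c : JComp (JT T) K
  u : UL (JT T) K L
  s : SylIn 2 T L
  zz : ΩZ T = ΩZ (JT T)

structure Two (T K L K₂ L₂ : Subgroup G) : Prop where
  one : One T K L
  two : One T K₂ L₂
  ne : L ≠ L₂
  card : Nat.card (ΩZ (JT T)) ≤ 4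

/-- `S ∈ 𝒯*(L)` for a Sylow subgroup `S`. -/
theorem mem_maxStraddling {S : Sylow 2 G} {L L' : Subgroup G} (hSL : (S : Subgroup G) ≤ L)
    (hL' : Cfsg.IsTwoLocal L') (hSL' : (S : Subgroup G) ≤ L') (hne : ¬ L' ≤ L)
    (hS1 : (S : Subgroup G) ≠ ⊥) :
    (S : Subgroup G) ∈ Cfsg.maxStraddlingTwoSubgroups L := by
  refine ⟨⟨S.isPGroup', hS1, hSL, L', hL', hSL', hne⟩, ?_⟩
  rintro T' ⟨hT', -, -, -⟩
  -- T' is in a conjugate of S
  obtain ⟨Q, hQ⟩ := hT'.exists_le_sylow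
  obtain ⟨g, hg⟩ := MulAction.exists_smul_eq G S Q
  have hQg : (Q : Subgroup G) = cj g (S : Subgroup G) := by
    rw [← hg, H54.Basic.coe_sylow_smul]
  rw [hQg] at hQ
  have hord : Cfsg.maxElemAbelianOrder (cj g (S : Subgroup G)) =
      Cfsg.maxElemAbelianOrder (S : Subgroup G) := by
    obtain ⟨A, hA⟩ := exists_mem (S : Subgroup G)
    rw [maxOrder_eq hA, maxOrder_eq ((mem_maxEA_cj g).mpr hA), card_cj]
  have hJle : JT T' ≤ cj g (S : Subgroup G) := (H13.SylowN.thompsonOf_le T').trans hQ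
  refine ⟨?_, fun he => ⟨?_, fun _ => ?_⟩⟩
  · rw [← hord]; exact maxOrder_le hJle
  · have h1 := thompson_le_of_order_eq hJle (by rw [hord]; exact he)
    have h2 := card_le_of_le h1
    rwa [thompson_cj, card_cj] at h2
  · have h2 := card_le_of_le hQ
    rwa [card_cj] at h2

theorem Glob.normOmega_le (hg : Glob G) (S : Sylow 2 G) :
    normalizer ((ΩZ (S : Subgroup G) : Subgroup G) : Set G) ≤
      normalizer ((S : Subgroup G) : Set G) := by
  intro n hn
  apply mem_normalizer_of_cj_le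
  have h1 : cj n (S : Subgroup G) ≤ normalizer ((S : Subgroup G) : Set G) := by
    refine le_trans ?_ (hg.cz S)
    have h2 := cj_mono (g := n) (le_centralizer_omega (S : Subgroup G))
    rwa [cj_centralizer, cj_eq_of_mem_normalizer hn] at h2
  have h3 : IsPGroup 2 ↥(cj n (S : Subgroup G) ⊔ (S : Subgroup G)) :=
    (isPGroup_cj S.isPGroup').to_sup_of_normal_right' S.isPGroup' h1
  have h4 := S.is_maximal' h3 le_sup_right
  conv_rhs => rw [← h4]
  exact le_sup_left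

theorem UL.cj_ne {J K L : Subgroup G} (u : UL J K L) {x : G} (hx : x ∉ L) : L ≠ cj x L := by
  intro h
  exact hx (normalizer_max u.mx (mem_normalizer_of_cj_eq h.symm))

theorem One.conj {T K L : Subgroup G} (o : One T K L) {x : G} (hxT : x ∈ normalizer (T : Set G)) :
    One T (cj x K) (cj x L) := by
  have hJ : cj x (JT T) = JT T := cj_eq_of_mem_normalizer (normT_le_normJ T hxT)
  refine ⟨?_, ?_, ?_, o.zz⟩
  · have := cj_comp o.c x
    rwa [hJ] at this
  · have := o.u.ul_cj x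
    rwa [hJ] at this
  · have := o.s.cj x
    rwa [cj_eq_of_mem_normalizer hxT] at this

/-- the conclusion of the center analysis -/
def CenterConcl (T L : Subgroup G) (S : Sylow 2 G) : Prop :=
  (ΩZ (S : Subgroup G) = ΩZ (JT T) ∧ Nat.card (ΩZ (JT T)) = 2) ∨
  (ΩZ (S : Subgroup G) = ΩZ (JT T) ∧ Nat.card (ΩZ (JT T)) = 4 ∧ T = (S : Subgroup G)) ∨
  (ΩZ T = ΩZ (JT T) ∧ Nat.card (ΩZ (JT T)) = 4 ∧
        (L ⊓ centralizer ((ΩZ (JT T) : Subgroup G) : Set G)).relIndex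
          (normalizer ((ΩZ (JT T) : Subgroup G) : Set G)) = 2)

theorem good {M T K L : Subgroup G} {S : Sylow 2 G} (h : MS M T) (hK : Out M T K)
    (hL : Cfsg.IsMaximalTwoLocal L) (hle : K ⊔ JT T ≤ L) (hTS : T ≤ S)
    (hgood : T ≠ S ∨ ¬ normalizer ((JT (S : Subgroup G) : Subgroup G) : Set G) ≤ L ∨
      ∃ L', Cfsg.IsMaximalTwoLocal L' ∧ (S : Subgroup G) ≤ L' ∧ L' ≠ L) :
    CenterConcl T L S ∧ ∃ K₂ L₂, Two T K L K₂ L₂ := by
  obtain ⟨u, hTL, hNL⟩ := ul_of h hK hL hle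
  by_cases hTSe : T = S
  · subst hTSe
    have hSL : (S : Subgroup G) ≤ L := hTL.le
    have hb : (∃ x ∈ normalizer ((JT (S : Subgroup G) : Subgroup G) : Set G), x ∉ L) ∨
        ∃ L', Cfsg.IsMaximalTwoLocal L' ∧ (S : Subgroup G) ≤ L' ∧ L' ≠ L := by
      rcases hgood with h1 | h1 | h1
      · exact absurd rfl h1
      · left
        obtain ⟨x, hx, hxL⟩ := Set.not_subset.mp h1
        exact ⟨x, hx, hxL⟩
      · exact Or.inr h1
    by_cases hN : ∃ x ∈ normalizer ((JT (S : Subgroup G) : Subgroup G) : Set G), x ∉ L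
    · obtain ⟨x, hxJ, hxL⟩ := hN
      obtain ⟨g1, g2⟩ := case2a h.hg u hSL hK.jc hxJ hxL
      have o : One (S : Subgroup G) K L := ⟨hK.jc, u, hTL, g1⟩
      have hxS : x ∈ normalizer ((S : Subgroup G) : Set G) := by
        apply h.hg.normOmega_le S
        rw [g1]
        exact normalizer_le_normalizer_omega _ hxJ
      refine ⟨?_, cj x K, cj x L, ⟨o, o.conj hxS, u.cj_ne hxL, g2⟩⟩
      have hpos : 0 < Nat.card (ΩZ (JT (S : Subgroup G))) := Nat.card_pos
      have hcc := hK.jc.card_Z₀ h.J2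
      have hpos1 : 0 < Nat.card ↥(ΩZ (JT (S : Subgroup G)) ⊓ centralizer (K : Set G)) := Nat.card_pos
      rcases Nat.lt_or_ge (Nat.card ↥(ΩZ (JT (S : Subgroup G)) ⊓ centralizer (K : Set G))) 2
        with hlt | hge
      · exact Or.inl ⟨g1, by omega⟩
      · exact Or.inr (Or.inl ⟨g1, by omega, rfl⟩)
    · have hb2 := hb.resolve_left hN
      push Not at hN
      obtain ⟨L', hL', hSL', hne⟩ := hb2
      have hnle : ¬ L' ≤ L := fun hcon => hne (hL'.2 L hL.1 hcon).symm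
      have hmem := mem_maxStraddling hSL hL'.1 hSL' hnle h.T1
      have hms : MS L (S : Subgroup G) := ⟨h.hg, hmem, ⟨S, hN⟩, hL.1, h.O2G⟩
      obtain ⟨K', hK'⟩ := hms.exists_out
      obtain ⟨L₂, m1, m2, m3, m4, m5, m6⟩ := hms.exists_unique hK'
      have u' : UL (JT (S : Subgroup G)) K' L₂ := ⟨m1, le_sup_left.trans m2, le_sup_right.trans m2,
        fun L' hL' hK' hJ' => m3 L' hL' (sup_le hK' hJ')⟩
      have hLL₂ : L ≠ L₂ := by
        intro hcon
        apply hK'.nle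
        rw [hcon]; exact u'.KL
      obtain ⟨g1, g2⟩ := case2b h.hg u hSL hK.jc u' hK'.jc hLL₂
      refine ⟨?_, K', L₂, ⟨⟨hK.jc, u, hTL, g1⟩, ⟨hK'.jc, u', m5, g1⟩, hLL₂, g2⟩⟩
      have hcc := hK.jc.card_Z₀ h.J2
      have hpos1 : 0 < Nat.card ↥(ΩZ (JT (S : Subgroup G)) ⊓ centralizer (K : Set G)) := Nat.card_pos
      rcases Nat.lt_or_ge (Nat.card ↥(ΩZ (JT (S : Subgroup G)) ⊓ centralizer (K : Set G))) 2
        with hlt | hge
      · exact Or.inl ⟨g1, by omega⟩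
      · exact Or.inr (Or.inl ⟨g1, by omega, rfl⟩)
  · obtain ⟨hZ2, hc⟩ := case1 h.hg u hTL hK.jc hTS hTSe
    obtain ⟨x, hxS, hxT, hxL⟩ := exists_x hTL hTS hTSe
    obtain ⟨hZT, hTZ₀⟩ := omega_le_omega h.hg hTL u.mx.1 hTS
    have hzz : ΩZ T = ΩZ (JT T) ∧ Nat.card (ΩZ (JT T)) ≤ 4 := by
      rcases hc with ⟨h1, h2⟩ | ⟨h1, h2, h3⟩
      · exact ⟨le_antisymm hTZ₀ (by rw [← h1]; exact hZT), by omega⟩
      · exact ⟨h1, h2.le⟩
    have o : One T K L := ⟨hK.jc, u, hTL, hzz.1⟩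
    refine ⟨?_, cj x K, cj x L, ⟨o, o.conj hxT, u.cj_ne hxL, hzz.2⟩⟩
    rcases hc with h1 | h1
    · exact Or.inl h1
    · exact Or.inr (Or.inr h1)

end H54.Setup
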