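import Cfsg.Agent.Lib.H54.Outside

set_option autoImplicit false
set_option linter.dupNamespace false
set_option linter.unusedSectionVars false
set_option maxHeartbeats 400000

/-!
Uniqueness of the maximal 2-local subgroup over `K J(T)`.
-/

namespace H54.Setup

open Subgroup H54.PreComp H52.PRes H52.PCore H52.Syl H52.Sub H54.JTh
open H54.MaxEA H54.WOf H54.KP
open scoped commutatorElement

universe u

variable {G : Type u} [Group G] [Finite G]

local notation "O₂" => Cfsg.pCoreOf 2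
local notation "ΩZ" => Cfsg.omegaCenterOf
local notation "wOf" => Cfsg.wOf
local notation "JT" => Cfsg.thompsonSubgroupOf 2

theorem exists_maxTwoLocal {N : Subgroup G} (hN : Cfsg.IsTwoLocal N) :
    ∃ L, Cfsg.IsMaximalTwoLocal L ∧ N ≤ L := by
  have hfin : Set.Finite {L : Subgroup G | Cfsg.IsTwoLocal L} := Set.toFinite _
  obtain ⟨L, hNL, hL⟩ := hfin.exists_le_maximal hN
  refine ⟨L, ⟨hL.prop, fun N' hN' hle => ?_⟩, hNL⟩
  exact (hL.eq_of_le hN' hle).symm

namespace MS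

variable {M T : Subgroup G}

/-- PreComps of `L` outside `M`. -/
def CC (M T L : Subgroup G) : Set (Subgroup G) := {K | PreComp (JT T) K ∧ K ≤ L ∧ ¬ K ≤ M}

def XX (M T L : Subgroup G) : Subgroup G := sSup (CC M T L)

theorem comp_normalizes (h : MS M T) {L : Subgroup G} (hL : Cfsg.IsTwoLocal L)
    (hLM : ¬ L ≤ M) (hJL : JT T ≤ L) {K K' : Subgroup G} (hK : PreComp (JT T) K) (hKL : K ≤ L)
    (hK' : PreComp (JT T) K') (hKL' : K' ≤ L) : K ≤ normalizer (K' : Set G) := by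
  obtain ⟨T₀, V, hT₀, hJT₀, h1, h2, hlh⟩ := h.exists_lh hL hLM hJL
  exact hlh.le_normalizer hKL' hKL hK' hK

theorem XX_le (M T L : Subgroup G) : XX M T L ≤ L := sSup_le fun _ hK => hK.2.1

theorem normalizes_XX {X L : Subgroup G} (hX : ∀ K' ∈ CC M T L, X ≤ normalizer (K' : Set G)) :
    X ≤ normalizer ((XX M T L : Subgroup G) : Set G) := by
  intro x hx
  apply mem_normalizer_of_cj_le
  have h1 : XX M T L ≤ cj x⁻¹ (XX M T L) := by
    refine sSup_le fun K' hK' => ?_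
    rw [le_cj_iff, inv_inv, cj_eq_of_mem_normalizer (hX K' hK' hx)]
    exact le_sSup hK'
  rwa [le_cj_iff, inv_inv] at h1

theorem normal_XX (h : MS M T) {L : Subgroup G} (hL : Cfsg.IsTwoLocal L)
    (hLM : ¬ L ≤ M) (hJL : JT T ≤ L) : L ≤ normalizer ((XX M T L : Subgroup G) : Set G) := by
  obtain ⟨T₀, V, hT₀, hJT₀, h1, h2, hlh⟩ := h.exists_lh hL hLM hJL
  refine hlh.gen_top.trans (sup_le ?_ ?_)
  · refine iSup₂_le fun K hK => ?_
    apply normalizes_XX
    intro K' hK'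
    exact h.comp_normalizes hL hLM hJL hK.1 hK.2 hK'.1 hK'.2.1
  · intro n hn
    obtain ⟨hnL, hnJ⟩ := Subgroup.mem_inf.mp hn
    have hnM := h.normJ hnJ
    apply mem_normalizer_of_cj_le
    have h3 : XX M T L ≤ cj n⁻¹ (XX M T L) := by
      refine sSup_le fun K' hK' => ?_
      rw [le_cj_iff, inv_inv]
      refine le_sSup ⟨?_, ?_, ?_⟩
      · have := hK'.1.map_conj n
        rwa [(H54.Basic.map_conj_eq_iff n (JT T)).mpr hnJ] at this
      · have := cj_mono (g := n) hK'.2.1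
        rwa [cj_of_mem hnL] at this
      · intro hcon
        apply hK'.2.2
        have := cj_mono (g := n⁻¹) hcon
        rwa [cj_inv_cj, cj_of_mem (inv_mem hnM)] at this
    rwa [le_cj_iff, inv_inv] at h3

theorem isSubnormal_comp (h : MS M T) {L : Subgroup G} (hL : Cfsg.IsTwoLocal L)
    (hLM : ¬ L ≤ M) (hJL : JT T ≤ L) {K : Subgroup G} (hK : PreComp (JT T) K) (hKL : K ≤ L) :
    (K.subgroupOf L).IsSubnormal := by
  obtain ⟨T₀, V, hT₀, hJT₀, h1, h2, hlh⟩ := h.exists_lh hL hLM hJL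
  exact hlh.subnormal hKL hK

theorem norm_XX_eq (h : MS M T) {L : Subgroup G} (hL : Cfsg.IsMaximalTwoLocal L)
    (hLM : ¬ L ≤ M) (hJL : JT T ≤ L) {K : Subgroup G} (hK : PreComp (JT T) K) (hKL : K ≤ L)
    (hKM : ¬ K ≤ M) : normalizer ((XX M T L : Subgroup G) : Set G) = L := by
  have h1 := h.normal_XX hL.1 hLM hJL
  have hKX : K ≤ XX M T L := le_sSup ⟨hK, hKL, hKM⟩
  have hsub := h.isSubnormal_comp hL.1 hLM hJL hK hKL
  have hjc := h.jcomp hL.1 hLM hJL hKL hK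
  have hsubX : (K.subgroupOf (XX M T L)).IsSubnormal := by
    have h2 := hsub.comap (inclusion (XX_le M T L))
    have h3 : (K.subgroupOf L).comap (inclusion (XX_le M T L)) = K.subgroupOf (XX M T L) := rfl
    rwa [h3] at h2
  have hO : O₂ (XX M T L) ≠ ⊥ := by
    intro hcon
    have h3 := pCoreOf_le_of_subnormal hKX hsubX
    rw [hcon, le_bot_iff] at h3
    apply hjc.wne
    rw [← le_bot_iff, ← h3]
    exact wOf_le K
  have h4 : normalizer ((XX M T L : Subgroup G) : Set G) ≤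
      normalizer ((O₂ (XX M T L) : Subgroup G) : Set G) := normalizer_le_normalizer_pCoreOf _
  have h5 := hL.2 _ (isTwoLocal_norm (isPGroup_pCoreOf (XX M T L)) hO) (h1.trans h4)
  apply le_antisymm _ h1
  rw [h5] at h4
  exact h4

/-- uniqueness -/
theorem unique (h : MS M T) {K : Subgroup G} (hK : JComp (JT T) K) (hKM : ¬ K ≤ M)
    {L₁ L : Subgroup G} (hL₁ : Cfsg.IsMaximalTwoLocal L₁) (hNL : normalizer (K : Set G) ≤ L₁)
    (hL : Cfsg.IsMaximalTwoLocal L) (hKL : K ≤ L) (hJL : JT T ≤ L) : L = L₁ := by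
  have hLM : ¬ L ≤ M := fun hcon => hKM (hKL.trans hcon)
  have hKL₁ : K ≤ L₁ := Subgroup.le_normalizer.trans hNL
  have hL₁M : ¬ L₁ ≤ M := fun hcon => hKM (hKL₁.trans hcon)
  have hJL₁ : JT T ≤ L₁ := hK.pre.le_normalizer.trans hNL
  have h1 : CC M T L ⊆ CC M T L₁ := by
    intro K' hK'
    refine ⟨hK'.1, ?_, hK'.2.2⟩
    exact (h.comp_normalizes hL.1 hLM hJL hK'.1 hK'.2.1 hK.pre hKL).trans hNL
  have h2 := h.norm_XX_eq hL hLM hJL hK.pre hKL hKM
  have h3 := h.norm_XX_eq hL₁ hL₁M hJL₁ hK.pre hKL₁ hKM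
  have h4 : CC M T L₁ ⊆ CC M T L := by
    intro K' hK'
    refine ⟨hK'.1, ?_, hK'.2.2⟩
    rw [← h2]
    apply normalizes_XX
    intro K'' hK''
    have hK3 := h1 hK''
    exact h.comp_normalizes hL₁.1 hL₁M hJL₁ hK'.1 hK'.2.1 hK3.1 hK3.2.1
  have h5 : XX M T L = XX M T L₁ := by
    unfold XX
    rw [Set.Subset.antisymm h1 h4]
  rw [← h2, h5, h3]

/-- the full statement -/
theorem exists_unique (h : MS M T) {K : Subgroup G} (hK : Out M T K) :
    ∃ L : Subgroup G, Cfsg.IsMaximalTwoLocal L ∧ K ⊔ JT T ≤ L ∧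
      (∀ L' : Subgroup G, Cfsg.IsMaximalTwoLocal L' → K ⊔ JT T ≤ L' → L' = L) ∧
      (K.subgroupOf L).IsSubnormal ∧ SylIn 2 T L ∧ normalizer (K : Set G) ≤ L := by
  have hN : Cfsg.IsTwoLocal (normalizer (K : Set G)) := by
    rw [h.norm_eq hK.jc hK.nle]; exact Glob.isTwoLocal_normW hK.jc
  obtain ⟨L, hL, hNL⟩ := exists_maxTwoLocal hN
  have hKL : K ≤ L := Subgroup.le_normalizer.trans hNL
  have hJL : JT T ≤ L := hK.jc.pre.le_normalizer.trans hNL
  have hLM : ¬ L ≤ M := fun hcon => hK.nle (hKL.trans hcon)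
  have huniq : ∀ L' : Subgroup G, Cfsg.IsMaximalTwoLocal L' → K ⊔ JT T ≤ L' → L' = L := by
    intro L' hL' hle
    exact h.unique hK.jc hK.nle hL hNL hL' (le_sup_left.trans hle) (le_sup_right.trans hle)
  refine ⟨L, hL, sup_le hKL hJL, huniq, h.isSubnormal_comp hL.1 hLM hJL hK.jc.pre hKL, ?_, hNL⟩
  obtain ⟨L₃, hL₃, hNL₃⟩ := exists_maxTwoLocal (isTwoLocal_norm (isPGroup_pCoreOf (K ⊔ T)) hK.core)
  have h1 : K ⊔ T ≤ L₃ := (le_normalizer_pCoreOf _).trans hNL₃
  have h2 := huniq L₃ hL₃ ((sup_le_sup le_rfl h.JT_le).trans h1)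
  rw [h2] at h1
  exact h.syl_of_le hL.1 hLM (le_sup_right.trans h1)

end MS

end H54.Setup
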